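import Mathlib
import Cfsg.Agent.H06.J0
import Cfsg.Agent.H14.OutM
import Cfsg.Agent.H14.MSimple
import Cfsg.Agent.H03.LX1

/-! Groups of Janko-four type: the bridge to the module `Q/Z(Q)` (namespace `H27.JB`): `gam`, `b`. -/

set_option autoImplicit false
open Cfsg BG Subgroup H01.XS H01.XT Cfsg.Agent.H06.J

namespace H27.JB
universe u

theorem gam {H : Type u} [Group H] [Finite H] {Q N : Subgroup H} [Q.Normal] [n : N.Normal] (l : Q ≤ N)
    (c : Nat.card N = 3 * Nat.card Q) (e : H ⧸ N ≃* MulAut Spor.M22) {δ : H} {d m : H ⧸ Q} (hd : d = δ) (δN : δ ∈ N)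
    (d3 : d * (d * d) = 1) (d1 : d ≠ 1) (nc : m ∉ C_[d]) :
    (∀ g, g ∉ C_[d] → g * d = d * d * g) ∧ C_[d].index = 2 ∧ Nat.card (H ⧸ Q) = 2661120 ∧
      ∃ ρ : C_[d] →* Spor.M22, Function.Surjective ρ ∧ ∀ m : C_[d], ρ m = 1 ↔ (m : H ⧸ Q) ∈ zpowers d := by
  classical
  have : Fact (Nat.Prime 3) := ⟨by norm_num⟩
  let f := QuotientGroup.mk' Q
  have fs : Function.Surjective f := QuotientGroup.mk'_surjective Q
  have c3 : Nat.card (N.map f) = 3 := by
    have := card_inf_mul_relIndex f.ker N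
    rw [relIndex_ker, QuotientGroup.ker_mk', inf_eq_left.2 l, c, mul_comm] at this
    exact Nat.eq_of_mul_eq_mul_right Nat.card_pos this
  have o : orderOf d = 3 := orderOf_eq_prime (by rw [pow_three, d3]) d1
  have dN : d ∈ N.map f := ⟨δ, δN, hd.symm⟩
  have zd : zpowers d = N.map f := Subgroup.eq_of_le_of_card_ge (zpowers_le.2 dN) (by rw [c3, Nat.card_zpowers, o])
  have dn : ∀ g, g * d * g⁻¹ = d ∨ g * d * g⁻¹ = d * d := fun g => by
    have m := zd.ge ((n.map f fs).conj_mem d dN g)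
    rw [mem_zpowers_iff_mem_range_orderOf, o] at m
    simp only [Finset.mem_image, Finset.mem_range] at m
    obtain ⟨k, m, e⟩ := m
    obtain _ | _ | _ | k := k
    · exact absurd (conj_eq_one_iff.1 (e.symm.trans (pow_zero d))) d1
    · exact .inl (by simpa using e.symm)
    · exact .inr (e.symm.trans (pow_two d))
    · omega
  have nM : ∀ g, g ∉ C_[d] → g * d * g⁻¹ = d * d := fun g j =>
    (dn g).resolve_left fun e => j (mem_cent1.2 (mul_inv_eq_iff_eq_mul.1 e))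
  have a2 : C_[d].index ∣ 2 := index_dvd_two_iff.2 ⟨m, fun b => (dn b).symm.imp (fun e => mem_cent1.2 (by
    rw [← mul_inv_eq_iff_eq_mul, show b * m * d * (b * m)⁻¹ = b * (m * d * m⁻¹) * b⁻¹ by group,
      nM m nc, ← conj_mul, e, mul_assoc, d3, mul_one])) fun e => mem_cent1.2 (mul_inv_eq_iff_eq_mul.1 e)⟩
  have Mi : C_[d].index = 2 := ((Nat.dvd_prime Nat.prime_two).1 a2).resolve_left fun e => nc ((index_eq_one.1 e).ge (mem_top _))
  let ψ : H ⧸ Q →* MulAut Spor.M22 := QuotientGroup.lift Q (e.toMonoidHom.comp (QuotientGroup.mk' N)) fun x i => by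
    simpa using l i
  have ψs : Function.Surjective ψ := fun y => by
    obtain ⟨x, rfl⟩ := (e.surjective.comp (QuotientGroup.mk'_surjective N)) y
    exact ⟨x, rfl⟩
  have ψk : ψ.ker = zpowers d := by
    rw [zd]; ext x
    obtain ⟨x, rfl⟩ := fs x
    refine ⟨fun h => ⟨x, (QuotientGroup.eq_one_iff x).1 (e.injective (h.trans (map_one e).symm)), rfl⟩, fun ⟨y, i, r⟩ => ?_⟩
    rw [← r]; exact (congrArg e ((QuotientGroup.eq_one_iff y).2 i)).trans (map_one e)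
  have := H14.simple_M22
  have ci : Function.Injective (MulAut.conj : Spor.M22 →* MulAut Spor.M22) := by
    refine (MonoidHom.ker_eq_bot_iff _).1 ((MonoidHom.normal_ker _).eq_bot_or_eq_top.resolve_right fun t => ?_)
    obtain ⟨x, ox⟩ := exists_prime_orderOf_dvd_card' (G := Spor.M22) 3 (by rw [H14.card_M22]; norm_num)
    have nx : (zpowers x).Normal := ⟨fun a i g => by
      rw [show g * a * g⁻¹ = a from DFunLike.congr_fun (show MulAut.conj g = 1 from t.ge (mem_top g)) a]; exact i⟩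
    have cx := (Nat.card_zpowers x).trans ox
    rcases nx.eq_bot_or_eq_top with r | r <;> rw [r] at cx
    · simp at cx
    · rw [card_top, H14.card_M22] at cx; omega
  have cI : Nat.card (Inn Spor.M22) = 443520 := (Nat.card_congr (MonoidHom.ofInjective ci).toEquiv).symm.trans H14.card_M22
  have cA : Nat.card (MulAut Spor.M22) = 887040 := by
    rw [← (Inn _).card_mul_index, cI, show (Inn Spor.M22).index = 2 from H14.out_o22]
  have iM : (C_[d].map ψ).index = 2 := by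
    rw [index_map, MonoidHom.range_eq_top.2 ψs, index_top, mul_one, sup_eq_left.2 (ψk.le.trans (zpowers_le_cent1 d)), Mi]
  have nm := normal_of_index_eq_two iM
  have IM : Inn Spor.M22 = C_[d].map ψ := by
    refine Subgroup.eq_of_le_of_card_ge ?_ (by have := (C_[d].map ψ).card_mul_index; rw [iM, cA] at this; rw [cI]; omega)
    rcases (nm.comap MulAut.conj).eq_bot_or_eq_top with r | r
    · have := index_comap (C_[d].map ψ) MulAut.conj
      have k := relIndex_dvd_index_of_normal (C_[d].map ψ) (MulAut.conj : Spor.M22 →* _).range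
      rw [← this, r, index_bot, H14.card_M22, iM] at k
      norm_num at k
    · rintro _ ⟨y, rfl⟩; exact r.ge (mem_top y)
  refine ⟨fun g j => mul_inv_eq_iff_eq_mul.1 (nM g j), Mi, ?_,
    (MonoidHom.ofInjective ci).symm.toMonoidHom.comp ((ψ.comp C_[d].subtype).codRestrict (Inn _) fun m => IM.ge ⟨m, m.2, rfl⟩),
    fun y => ?_, fun m => ?_⟩
  · rw [← ψ.ker.card_mul_index, index_ker, MonoidHom.range_eq_top.2 ψs, card_top, cA, ψk, Nat.card_zpowers, o]
  · obtain ⟨m, i, r⟩ := IM.le ⟨y, rfl⟩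
    exact ⟨⟨m, i⟩, (MonoidHom.ofInjective ci).symm_apply_eq.2 (Subtype.ext r)⟩
  · rw [← ψk]
    exact (MulEquiv.map_eq_one_iff (MonoidHom.ofInjective ci).symm).trans Subtype.ext_iff

theorem b : BStmt.{u} := by
  classical
  intro G _ _ z P ⟨hz, hx, c', hc, ⟨N, l1, l2, l3, cN, ⟨nN, ⟨e⟩⟩, PN⟩, cP, fP, nP, pP⟩
  have : Fact (Nat.Prime 3) := ⟨by norm_num⟩
  have lQ : twoCoreOfCentralizer z ≤ C_[z] := map_subtype_le _
  have zQ : z ∈ twoCoreOfCentralizer z := hc ⟨mem_cent1_self z, le_cent1_iff.1 lQ⟩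
  have h : LX z (twoCoreOfCentralizer z) := of_ext hz rfl inferInstance hx fun x i => hc ⟨cent_le_cent1 zQ i, i⟩
  have mq : ∀ x : C_[z], x.1 ∈ twoCoreOfCentralizer z ↔ x ∈ pCore 2 C_[z] := fun x =>
    ⟨fun ⟨y, k, e⟩ => by obtain rfl : y = x := Subtype.ext e; exact k, fun k => ⟨_, k, rfl⟩⟩
  have cQ : Nat.card (pCore 2 C_[z]) = Nat.card (twoCoreOfCentralizer z) := (card_map_of_injective (subtype_injective _)).symm
  generalize twoCoreOfCentralizer z = Q' at *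
  generalize hQ : pCore 2 C_[z] = Q at mq cQ
  have n : Q.Normal := hQ ▸ inferInstance
  obtain ⟨⟨δ, δP⟩, o⟩ := exists_prime_orderOf_dvd_card' (G := P) 3 cP.symm.dvd
  rw [← Subgroup.orderOf_coe] at o
  replace o : orderOf δ = 3 := o
  have zP : zpowers δ = P := Subgroup.eq_of_le_of_card_ge (zpowers_le.2 δP) (by rw [cP, Nat.card_zpowers, o])
  have δ3 : δ * (δ * δ) = 1 := by rw [← pow_three, ← o, pow_orderOf_eq_one]
  have δz := l2 (PN δP)
  have PQ : ∀ x ∈ P, x ∈ Q' → x = 1 := fun x i j => orderOf_eq_one_iff.1 (Nat.eq_one_of_dvd_coprimes (show Nat.Coprime 3 (2 ^ 13) by norm_num)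
    (cP ▸ P.orderOf_dvd_natCard i) (c' ▸ Q'.orderOf_dvd_natCard j))
  rw [← zP, cent_zpowers] at fP pP
  obtain ⟨m, mi, mn⟩ : ∃ m ∈ C_[z] ⊓ N_(P), m ∉ C_[δ] := by
    by_contra! k
    exact nP (le_antisymm (fun x i => ⟨i.1, by rw [← zP, cent_zpowers]; exact k x i⟩) (inf_le_inf_left _ (centralizer_le_normalizer _)))
  obtain ⟨nM, Mi, cΓ, ρ⟩ := gam (Q := Q) (N := N.subgroupOf C_[z]) (fun x i => l1 ((mq x).2 i))
    (by rw [Nat.card_congr (subgroupOfEquivOfLe l2).toEquiv, cN, cQ]) e (δ := ⟨δ, δz⟩) (m := (⟨m, mi.1⟩ : C_[z])) rfl (PN δP)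
    (congrArg (QuotientGroup.mk : C_[z] → C_[z] ⧸ Q) (Subtype.ext δ3 : (⟨δ, δz⟩ * (⟨δ, δz⟩ * ⟨δ, δz⟩) : C_[z]) = 1))
    (fun r => by simpa [PQ δ δP ((mq _).2 ((QuotientGroup.eq_one_iff _).1 r))] using o) fun r => mn (mem_cent1.2 (by
      have k := (mq _).2 (QuotientGroup.eq.1 (show ((⟨m, mi.1⟩ * ⟨δ, δz⟩ * ⟨m, mi.1⟩⁻¹ : C_[z]) : C_[z] ⧸ Q) = (⟨δ, δz⟩ : C_[z]) from
        mul_inv_eq_iff_eq_mul.2 (mem_cent1.1 r)))
      exact mul_inv_eq_iff_eq_mul.1 (inv_mul_eq_one.1 (PQ _ (mul_mem (inv_mem (le_norm_iff.1 le_rfl m mi.2 δ δP)) δP) k))))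
  obtain ⟨V, _, _, ν, m0⟩ := mkV0 h
  obtain ⟨β, q, A, m⟩ := m0.md
  let _ : Module (ZMod 2) V := AddCommGroup.zmodModule fun v => (two_nsmul v).trans (m0.two v)
  have act : ∀ g : C_[z], ∀ x ∈ Q', A (QuotientGroup.mk g : C_[z] ⧸ Q).out (ν x) = ν (g * x * g.1⁻¹) := fun g x j => by
    obtain ⟨⟨k, o⟩, e⟩ := QuotientGroup.mk_out_eq_mul Q g
    have o' := (mq k).2 o
    rw [e, m.act _ (g * k).2 x j, ← m.act _ g.2 x j, ← m0.cq o' j, m.act _ g.2 _ (h.cE k.2 j)]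
    congr 1; push_cast; group
  refine ⟨Q', V, _, ‹_›, ‹_›, C_[z] ⧸ Q, _, inferInstance, QuotientGroup.mk' Q,
    fun x => if i : x ∈ C_[z] then QuotientGroup.mk ⟨x, i⟩ else 1, ν, fun k => A k.out, (⟨δ, δz⟩ : C_[z]), _, β, q,
    ⟨⟨⟨?_, m.pol, fun u k => ?_⟩, fun v => ?_, fun x y v => ?_, fun x k => ?_, fun x v => ?_,
      congrArg (QuotientGroup.mk : C_[z] → C_[z] ⧸ Q) (Subtype.ext δ3 : (⟨δ, δz⟩ * (⟨δ, δz⟩ * ⟨δ, δz⟩) : C_[z]) = 1), fun v => ?_,
      mem_cent1_self _, fun g => mem_cent1.1, nM, Mi, cΓ⟩,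
    m0, c', fun x => by rw [dif_pos x.2]; rfl, fun k => ⟨k.out, k.out.2, by rw [dif_pos k.out.2]; exact k.out_eq⟩,
    fun x i => by rw [dif_pos i, QuotientGroup.eq_one_iff, ← mq], m.b, m.sq, fun g i x j => by rw [dif_pos i]; exact act _ x j⟩, ?_, ρ⟩
  · have := m0.card_pull ⊤
    rw [show m0.pull ⊤ = Q' from Subgroup.ext fun x => and_iff_left trivial, AddSubgroup.card_top] at this
    omega
  · obtain ⟨x, i, rfl⟩ := m0.sur u
    exact (m0.ker x i).2 (h.cz fun e j => ((m.b x i e j).1 (k _)).symm.eq)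
  · obtain ⟨x, i, rfl⟩ := m0.sur v
    exact (act 1 x i).trans (by simp)
  · obtain ⟨w, k, rfl⟩ := m0.sur v
    obtain ⟨x, rfl⟩ := QuotientGroup.mk_surjective x
    obtain ⟨y, rfl⟩ := QuotientGroup.mk_surjective y
    rw [← QuotientGroup.mk_mul, act _ w k, act y w k, act x _ (h.cE y.2 k)]; congr 1; push_cast; group
  · obtain ⟨x, rfl⟩ := QuotientGroup.mk_surjective x
    refine (QuotientGroup.eq_one_iff x).2 ((mq x).1 (H03.ES.inner ⟨h.aes, h.cent, h.norm⟩ x.2 fun w j => ?_))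
    rcases m0.eq (h.cE x.2 j) j ((act x w j).symm.trans (k _)) with e | e <;> rw [e]
    · simp
    · simp
  · obtain ⟨w, k, rfl⟩ := m0.sur v
    obtain ⟨x, rfl⟩ := QuotientGroup.mk_surjective x
    rw [act x w k]
    have := m.sq _ (h.cE x.2 k)
    rw [conj_mul, conj_eq_one_iff, ← m.sq w k] at this
    revert this; generalize q (ν _) = s, q (ν w) = t; revert s t; decide
  · obtain ⟨w, k, rfl⟩ := m0.sur v
    have k1 := h.cE δz k
    have k2 := h.cE δz k1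
    have k3 := mul_mem (mul_mem k k1) k2
    rw [act _ w k, act _ _ k1, ← m0.mul _ k _ k1, ← m0.mul _ (mul_mem k k1) _ k2]
    have r : ν (δ * (w * (δ * w * δ⁻¹) * (δ * (δ * w * δ⁻¹) * δ⁻¹)) * δ⁻¹) = ν (w * (δ * w * δ⁻¹) * (δ * (δ * w * δ⁻¹) * δ⁻¹)) := by
      rw [← conj_mul, ← conj_mul, show δ * (δ * (δ * w * δ⁻¹) * δ⁻¹) * δ⁻¹ = δ * (δ * δ) * w * (δ * (δ * δ))⁻¹ by group, δ3,
        one_mul, inv_one, mul_one, m0.mul _ (mul_mem k1 k2) _ k, m0.mul _ k1 _ k2, m0.mul _ (mul_mem k k1) _ k2, m0.mul _ k _ k1]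
      abel
    generalize w * (δ * w * δ⁻¹) * (δ * (δ * w * δ⁻¹) * δ⁻¹) = x at k3 r
    refine (m0.ker x k3).2 (h.aes.eq_or (fP.le ⟨k3, mem_cent1.2 (mul_inv_eq_iff_eq_mul.1 ?_).symm⟩))
    rcases m0.eq (h.cE δz k3) k3 r with e | e
    · exact e
    · have z2 : z * z = 1 := by rw [← pow_two, ← hz, pow_orderOf_eq_one]
      have e2 : δ * (δ * x * δ⁻¹) * δ⁻¹ = x := by
        rw [e, ← conj_mul, e, mem_cent1.1 δz, mul_inv_cancel_right, ← mul_assoc, z2, one_mul]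
      calc δ * x * δ⁻¹ = δ * (δ * (δ * x * δ⁻¹) * δ⁻¹) * δ⁻¹ := by rw [e2]
        _ = δ * (δ * δ) * x * (δ * (δ * δ))⁻¹ := by group
        _ = x := by rw [δ3]; simp
  · have k := pP (mem_zpowers δ)
    rw [← map_subgroupOf_eq_of_le (inf_le_left : C_[z] ⊓ C_[δ] ≤ C_[z]), ← map_commutator] at k
    obtain ⟨y, k, r⟩ := k
    obtain rfl : y = ⟨δ, δz⟩ := Subtype.ext r
    have k' := mem_map_of_mem (QuotientGroup.mk' Q) k
    rw [map_commutator] at k'
    have l : ((C_[z] ⊓ C_[δ]).subgroupOf C_[z]).map (QuotientGroup.mk' Q) ≤ C_[((⟨δ, δz⟩ : C_[z]) : C_[z] ⧸ Q)] := by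
      rintro _ ⟨x, i, rfl⟩
      exact mem_cent1.2 (congrArg (QuotientGroup.mk : C_[z] → C_[z] ⧸ Q) (Subtype.ext (mem_cent1.1 i.2) : (x * ⟨δ, δz⟩ : C_[z]) = ⟨δ, δz⟩ * x))
    exact commutator_mono l l k'

end H27.JB
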