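import Mathlib
import Cfsg.Agent.H02.Frobenius

/-!
Construction of Frobenius groups from fixed-point-free actions.

* `H27.isFrob_range_inr` : in `V ⋊[φ] H` with `H` acting fixed-point-freely, the range of `inr` is a
  Frobenius complement.
* `H27.exists_frob_of_fpf` : a nontrivial finite `H : Type` with a fixed-point-free additive action on a
  nontrivial finite `V : Type` is isomorphic to a Frobenius complement of a finite group.
* `H27.exists_primitiveRoot_zmod` : for `n > 0` there is an odd prime `p` and a primitive `n`-th root in `ZMod p`.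
-/

namespace H27

theorem isFrob_range_inr {H V : Type*} [Group H] [Nontrivial H] [Group V] [Nontrivial V]
    (φ : H →* MulAut V) (hφ : ∀ h, h ≠ 1 → ∀ v, φ h v = v → v = 1) :
    Cfsg.IsFrobeniusComplement (SemidirectProduct.inr : H →* V ⋊[φ] H).range := by
  have hmem : ∀ x : V ⋊[φ] H, x ∈ (SemidirectProduct.inr : H →* V ⋊[φ] H).range ↔ x.left = 1 := by
    intro x
    constructor
    · rintro ⟨h, rfl⟩; rfl
    · intro h; exact ⟨x.right, by ext <;> simp [h]⟩
  refine H02.isFrob_iff.2 ⟨?_, ?_, ?_⟩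
  · obtain ⟨h, hh⟩ := exists_ne (1 : H)
    intro e
    have : (SemidirectProduct.inr h : V ⋊[φ] H) ∈ (SemidirectProduct.inr : H →* V ⋊[φ] H).range := ⟨h, rfl⟩
    rw [e, Subgroup.mem_bot] at this
    exact hh (by simpa using congrArg SemidirectProduct.right this)
  · obtain ⟨v, hv⟩ := exists_ne (1 : V)
    intro e
    have : (SemidirectProduct.inl v : V ⋊[φ] H) ∈ (SemidirectProduct.inr : H →* V ⋊[φ] H).range := by
      rw [e]; trivial
    rw [hmem] at this
    exact hv (by simpa using this)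
  · rintro ⟨v, k⟩ _ ⟨h, rfl⟩ h1 hg
    rw [hmem] at hg ⊢
    have hh : k * h * k⁻¹ ≠ 1 := by
      intro e
      apply h1
      rw [conj_eq_one_iff.1 e, map_one]
    apply hφ _ hh
    simp only [SemidirectProduct.mul_left, SemidirectProduct.mul_right, SemidirectProduct.left_inr,
      SemidirectProduct.right_inr, SemidirectProduct.inv_left, map_one, mul_one, map_inv] at hg
    rw [mul_inv_eq_one] at hg
    rw [map_mul, map_inv]
    exact hg.symm

theorem exists_frob_of_fpf (H : Type) [Group H] [Finite H] [Nontrivial H] (V : Type) [AddGroup V]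
    [Finite V] [Nontrivial V] [DistribMulAction H V] (hφ : ∀ h : H, h ≠ 1 → ∀ v : V, h • v = v → v = 0) :
    ∃ (L : Type) (_ : Group L) (_ : Finite L) (K : Subgroup L),
      Cfsg.IsFrobeniusComplement K ∧ Nonempty (K ≃* H) := by
  let φ : H →* MulAut (Multiplicative V) :=
    (MulAutMultiplicative V).symm.toMonoidHom.comp (DistribMulAction.toAddAut H V)
  haveI : Finite (Multiplicative V ⋊[φ] H) := Finite.of_equiv _ (SemidirectProduct.equivProd).symm
  exact ⟨Multiplicative V ⋊[φ] H, inferInstance, inferInstance, _,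
    isFrob_range_inr φ (fun h hh v e => hφ h hh v.toAdd e),
    ⟨(MonoidHom.ofInjective SemidirectProduct.inr_injective).symm⟩⟩

theorem exists_primitiveRoot_zmod {n : ℕ} (hn : n ≠ 0) :
    ∃ p : ℕ, p.Prime ∧ 2 < p ∧ ∃ ζ : ZMod p, IsPrimitiveRoot ζ n := by
  obtain ⟨p, hp, h2, h⟩ := Nat.exists_prime_gt_modEq_one 2 hn
  haveI := Fact.mk hp
  refine ⟨p, hp, h2, ?_⟩
  obtain ⟨g, hg⟩ := IsCyclic.exists_ofOrder_eq_natCard (α := (ZMod p)ˣ)
  rw [Nat.card_eq_fintype_card, ZMod.card_units] at hg
  have hd : n ∣ orderOf g := by rw [hg]; exact (Nat.modEq_iff_dvd' hp.pos).1 h.symm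
  have h1 := orderOf_pow_orderOf_div (orderOf_pos g).ne' hd
  refine ⟨(g ^ (orderOf g / n) : (ZMod p)ˣ), ?_⟩
  rw [IsPrimitiveRoot.coe_units_iff, ← h1, h1]
  nth_rewrite 2 [← h1]
  exact IsPrimitiveRoot.orderOf _

end H27
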