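import Mathlib
import Cfsg.Agent.H23.K0

/-! A unique `2¹¹` in Sylow 2-subgroups bounds all elementary abelian subgroups (namespace `H27.KU`): `u`. -/

set_option autoImplicit false
open Cfsg BG Subgroup H20.FtW

namespace H27.KU
universe u

theorem u : Cfsg.Agent.H23.K.UStmt.{u} := by
  intro G _ _ h P p
  have : Fact (Nat.Prime 2) := ⟨Nat.prime_two⟩
  obtain ⟨T, l⟩ := p.exists_le_sylow
  obtain ⟨V, ⟨-, -, cV⟩, un⟩ := h T
  have k : ∀ B ≤ P, EA B → Nat.card B = 2048 → B = V := fun B lB e c =>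
    un B ⟨lB.trans l, ⟨⟨⟨fun x y => Subtype.ext (e.comm x.2 y.2)⟩⟩, fun x i => (pow_two x).trans (e x i)⟩, c⟩
  refine ⟨fun B lB e => ?_, fun B lB C lC e e' c c' => (k B lB e c).trans (k C lC e' c').symm⟩
  by_contra c
  obtain ⟨n, hn⟩ := IsPGroup.iff_card.1 e.pg
  have d : 2 ^ 11 ∣ Nat.card B := hn ▸ pow_dvd_pow 2 (by
    by_contra m
    have : 2 ^ n ≤ 2 ^ 11 := Nat.pow_le_pow_right two_pos (by omega)
    omega)
  refine c ((card_le_of_le fun x i => ?_).trans_eq cV)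
  obtain ⟨m, hm⟩ := IsPGroup.iff_card.1 (e.pg.to_subgroup (zpowers (⟨x, i⟩ : B)))
  obtain ⟨K, cK, lK⟩ := Sylow.exists_subgroup_card_pow_prime_le 2 d _ hm (by
    have a : 2 ^ m ∣ 2 ^ 1 := by
      rw [← hm, Nat.card_zpowers]; exact orderOf_dvd_of_pow_eq_one (Subtype.ext ((pow_two x).trans (e x i)))
    have := (Nat.pow_dvd_pow_iff_le_right one_lt_two).1 a
    omega)
  rw [← k (K.map B.subtype) ((map_subtype_le _).trans lB) (fun y j => e y (map_subtype_le _ j))
    ((card_map_of_injective (subtype_injective _)).trans cK)]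
  exact ⟨_, lK (mem_zpowers _), rfl⟩

end H27.KU
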