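import Mathlib
import Cfsg.Agent.H23.Y0
import Cfsg.Agent.H27.KB

/-! The stabiliser of a duad in `M₂₄` is `Aut M₂₂` (namespace `H27.YU`): `au`. -/

set_option autoImplicit false
open Cfsg BG Subgroup
open scoped Pointwise

namespace H27.YU

theorem cA : Nat.card (MulAut Spor.M22) = 887040 := by
  have : Fact (Nat.Prime 3) := ⟨by norm_num⟩
  have := H14.simple_M22
  have ci : Function.Injective (MulAut.conj : Spor.M22 →* MulAut Spor.M22) := by
    refine (MonoidHom.ker_eq_bot_iff _).1 ((MonoidHom.normal_ker _).eq_bot_or_eq_top.resolve_right fun t => ?_)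
    obtain ⟨x, ox⟩ := exists_prime_orderOf_dvd_card' (G := Spor.M22) 3 (by rw [H14.card_M22]; norm_num)
    have nx : (zpowers x).Normal := ⟨fun a i g => by
      rw [show g * a * g⁻¹ = a from DFunLike.congr_fun (show MulAut.conj g = 1 from t.ge (mem_top g)) a]; exact i⟩
    have cx := (Nat.card_zpowers x).trans ox
    rcases nx.eq_bot_or_eq_top with r | r <;> rw [r] at cx
    · simp at cx
    · rw [card_top, H14.card_M22] at cx; omega
  have cI : Nat.card (Inn Spor.M22) = 443520 := (Nat.card_congr (MonoidHom.ofInjective ci).toEquiv).symm.trans H14.card_M22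
  rw [← (Inn _).card_mul_index, cI, show (Inn Spor.M22).index = 2 from H14.out_o22]

theorem au : Cfsg.Agent.H23.Y.AuStmt := by
  obtain ⟨i2, -, b⟩ := Cfsg.Agent.S5599.result projInv H14.gamma_mem (by decide) (by decide)
  rw [← MulAction.stabilizer_coe_finset, Finset.coe_pair] at i2
  unfold Cfsg.Agent.H23.Y.AuStmt
  have pS : projInv ∈ M24 ⊓ MulAction.stabilizer (Equiv.Perm GolayPt) ({none, some 0} : Set GolayPt) :=
    ⟨H14.gamma_mem, show projInv • ({none, some 0} : Set GolayPt) = _ by
      rw [Set.smul_set_insert, Set.smul_set_singleton, Set.pair_comm]; rfl⟩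
  have l : Spor.M22 ≤ M24 ⊓ MulAction.stabilizer (Equiv.Perm GolayPt) ({none, some 0} : Set GolayPt) := fun x hx =>
    ⟨hx.1.1, show x • ({none, some 0} : Set GolayPt) = _ by
      rw [Set.smul_set_insert, Set.smul_set_singleton, show x • (none : GolayPt) = _ from hx.1.2,
        show x • (some 0 : GolayPt) = _ from hx.2]⟩
  have n : M24 ⊓ MulAction.stabilizer (Equiv.Perm GolayPt) ({none, some 0} : Set GolayPt) ≤
      normalizer (Spor.M22 : Set (Equiv.Perm GolayPt)) :=
    (normal_subgroupOf_iff_le_normalizer l).1 (normal_of_index_eq_two i2)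
  generalize M24 ⊓ MulAction.stabilizer (Equiv.Perm GolayPt) ({none, some 0} : Set GolayPt) = S at *
  have cS : Nat.card S = 887040 := by
    rw [← (Spor.M22.subgroupOf S).card_mul_index, Nat.card_congr (subgroupOfEquivOfLe l).toEquiv, H14.card_M22,
      show (Spor.M22.subgroupOf S).index = 2 from i2]
  let φ : S →* MulAut Spor.M22 := Spor.M22.normalizerMonoidHom.comp (inclusion n)
  have lI : Inn Spor.M22 ≤ φ.range := by
    rintro _ ⟨y, rfl⟩
    exact ⟨⟨y, l y.2⟩, rfl⟩
  have d := index_dvd_of_le lI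
  rw [show (Inn Spor.M22).index = 2 from H14.out_o22] at d
  have su : φ.range = ⊤ := index_eq_one.1 (((Nat.dvd_prime Nat.prime_two).1 d).resolve_right fun e => by
    have a1 := φ.range.card_mul_index
    have a2 := (Inn Spor.M22).card_mul_index
    rw [show (Inn Spor.M22).index = 2 from H14.out_o22] at a2
    rw [e] at a1
    obtain ⟨h, r⟩ := (Subgroup.eq_of_le_of_card_ge lI (by omega)).ge ⟨⟨projInv, pS⟩, rfl⟩
    exact b ⟨h, h.2, fun x i => by
      have := (congrArg Subtype.val (DFunLike.congr_fun r (⟨x, i⟩ : Spor.M22))).symm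
      exact this⟩)
  exact ⟨MulEquiv.ofBijective φ ((Nat.bijective_iff_surjective_and_card φ).2 ⟨MonoidHom.range_eq_top.1 su, cS.trans cA.symm⟩)⟩

end H27.YU
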