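import Mathlib
import Cfsg.Agent.H01.XH0
import Cfsg.Agent.H20.FtW

/-! Groups of large Fischer type: Frattini arguments for `A ≅ 2¹¹` (namespace `H27.FzB`): `FC`, `SY`, `trDB`, `trZB`, `cos`, `c21`. -/

set_option autoImplicit false
set_option linter.unusedSectionVars false
open Cfsg BG Subgroup H01.XS H01.XF H20.FtW

namespace H27.FzB
universe u
variable {G : Type u} [Group G] [Finite G] {g k x y z : G} {Q A B X : Subgroup G}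
  {V : Type u} [AddCommGroup V] [Module (ZMod 2) V] [Finite V] {Γ : Type u} [Group Γ] [Finite Γ]
  {T : Γ → V →+ V} {d : Γ} {M : Subgroup Γ} {β : V →+ V →+ ZMod 2} {q : V → ZMod 2} {ν : G → V} {f : C_[z] →* Γ} {π : G → Γ}

section
variable (u : ∀ P : Subgroup G, IsPGroup 2 P → Un P) (e : EA A) (c : Nat.card A = 2048)
include u e c

theorem FC (l : A ≤ X) (l' : cj g A ≤ X) : ∃ k ∈ X, k * g ∈ N_(A) := by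
  obtain ⟨S, s, lS⟩ := sylow_superset Nat.prime_two e.pg l
  obtain ⟨k, kc, l2⟩ := sylow_Jsub Nat.prime_two s (e.cj g).pg l'
  have r := (u S (s.pg Nat.prime_two)).2 _ l2 _ lS ((e.cj g).cj k) e (by rw [card_cj, card_cj, c]) c
  rw [cj_cj] at r
  exact ⟨k, kc, cj_eq_self_iff.1 r⟩

theorem SY (X : Subgroup G) (l : A ≤ X) (k : ℕ) (hd : 2 ^ k ∣ Nat.card X) : 2 ^ k ∣ Nat.card ↥(N_(A) ⊓ X) := by
  obtain ⟨S, s, lS⟩ := sylow_superset Nat.prime_two e.pg l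
  refine (s.pow_dvd Nat.prime_two hd).trans (card_dvd_of_le (le_inf (fun y j => cj_eq_self_iff.1 ?_) s.le))
  exact (u S (s.pg Nat.prime_two)).2 _ (cj_le_of_mem lS j) _ lS (e.cj y) e ((card_cj _ _).trans c) c

theorem fz (zA : z ∈ A) (xA : x ∈ A) (yA : y ∈ A) (i : k ∈ C_[z]) (r : k * x * k⁻¹ = y) :
    ∃ m ∈ N_(A), m * z * m⁻¹ = z ∧ m * x * m⁻¹ = y := by
  have zk : k * z * k⁻¹ = z := mul_inv_eq_iff_eq_mul.2 (mem_cent1.1 i)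
  obtain ⟨w, ⟨w1, w2⟩, n⟩ := FC u e c (X := C_[z] ⊓ C_[y]) (g := k) (le_inf (e.cent zA) (e.cent yA))
    (le_inf ((e.cj k).cent (by simpa only [zk] using conj_mem_cj k zA)) ((e.cj k).cent (r ▸ conj_mem_cj k xA)))
  refine ⟨_, n, mul_inv_eq_iff_eq_mul.2 (mem_cent1.1 (mul_mem w1 i)), ?_⟩
  rw [show w * k * x * (w * k)⁻¹ = w * (k * x * k⁻¹) * w⁻¹ by group, r]
  exact mul_inv_eq_iff_eq_mul.2 (mem_cent1.1 w2)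

variable (s : Br z Q f π ν T d M β q) (zA : z ∈ A)
include s zA

theorem c21 : 2 ^ 21 ∣ Nat.card (N_(A) ⊓ centralizer {z} : Subgroup G) := by
  refine SY u e c C_[z] (e.cent zA) 21 ?_
  have a := f.ker.card_mul_index
  have r : f.range = ⊤ := eq_top_iff.2 fun γ _ => by
    obtain ⟨w, i, rfl⟩ := s.sur γ
    exact ⟨⟨w, i⟩, s.pf _⟩
  have e2 : f.ker = Q.subgroupOf C_[z] := Subgroup.ext fun w => by
    rw [MonoidHom.mem_ker, s.pf, mem_subgroupOf]; exact s.ker w w.2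
  rw [index_ker, r, card_top, s.gm.cΓ, e2, Nat.card_congr (subgroupOfEquivOfLe s.md.lx.le).toEquiv, s.card] at a
  rw [← a]; norm_num

variable (e3 : A ⊓ Q = B)
include e3

theorem trDB (i0 : g * z * g⁻¹ ∈ Q) (n0 : g * z * g⁻¹ ≠ z) :
    ∀ x ∈ {t | t ∈ A ∧ t ≠ 1 ∧ ¬ IsConj z t}, x ∈ B → ∀ y ∈ {t | t ∈ A ∧ t ≠ 1 ∧ ¬ IsConj z t}, y ∈ B →
      ∃ m ∈ N_(A), m * z * m⁻¹ = z ∧ m * x * m⁻¹ = y := by
  have h := s.pt g i0 n0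
  obtain ⟨t0, -, -, -, r⟩ := h.tr2
  have BQ : B ≤ Q := e3.ge.trans inf_le_right
  have key : ∀ t ∈ {t | t ∈ A ∧ t ≠ 1 ∧ ¬ IsConj z t}, t ∈ B → ν t ≠ 0 ∧ ∃ γ, T γ t0 = ν t := fun t ⟨tA, t1, tz⟩ tB => by
    have n : ν t ≠ 0 := fun e => by
      rcases (s.md.ker t (BQ tB)).1 e with e | e
      exacts [t1 e, tz (e ▸ IsConj.refl _)]
    refine ⟨n, (r _ n ((s.sq t (BQ tB)).2 (e t tA))).resolve_left fun ⟨γ, e'⟩ => ?_⟩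
    obtain ⟨c, i, rfl⟩ := s.sur γ
    obtain ⟨k, -, e', -⟩ := s.adj i i0 (BQ tB) (e t tA) n e'
    exact tz (isConj_iff.2 ⟨k * g, by rw [← e']; group⟩)
  intro x xD xB y yD yB
  obtain ⟨-, γ, e1⟩ := key x xD xB
  obtain ⟨n, δ, e2⟩ := key y yD yB
  obtain ⟨w, i, e4⟩ := s.sur (δ * γ⁻¹)
  obtain ⟨k, j, e5, -⟩ := s.adj i (BQ xB) (BQ yB) (e y yD.1) n (by rw [e4, s.gm.mul, ← e1, s.gm.li, e2])
  exact fz u e c zA xD.1 yD.1 j e5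

theorem trZB : ∀ x ∈ B, x ∉ {t | t ∈ A ∧ t ≠ 1 ∧ ¬ IsConj z t} → x ≠ 1 → x ≠ z →
    ∀ y ∈ B, y ∉ {t | t ∈ A ∧ t ≠ 1 ∧ ¬ IsConj z t} → y ≠ 1 → y ≠ z → ∃ m ∈ N_(A), m * z * m⁻¹ = z ∧ m * x * m⁻¹ = y := by
  have BQ : B ≤ Q := e3.ge.trans inf_le_right
  have BA : B ≤ A := e3.ge.trans inf_le_left
  intro x xB xD x1 xz y yB yD y1 yz
  obtain ⟨a, rfl⟩ := isConj_iff.1 (by_contra fun n => xD ⟨BA xB, x1, n⟩ : IsConj z x)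
  obtain ⟨b, rfl⟩ := isConj_iff.1 (by_contra fun n => yD ⟨BA yB, y1, n⟩ : IsConj z y)
  have h' := s.pt b (BQ yB) yz
  obtain ⟨γ, e1⟩ := (s.pt a (BQ xB) xz).tr1 h'
  obtain ⟨w, i, rfl⟩ := s.sur γ
  obtain ⟨k, j, e5, -⟩ := s.adj i (BQ xB) (BQ yB) (e _ (BA yB)) h'.a0 e1
  exact fz u e c zA (BA xB) (BA yB) j e5

theorem cos (YM : (A.subgroupOf C_[z]).map f ≤ M)
    (oc : ∀ x ∈ M, ∀ y ∈ M, x * x = 1 → y * y = 1 → x ≠ 1 → y ≠ 1 → ∃ g, g * x * g⁻¹ = y) :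
    ∀ x ∈ A, x ∉ B → ∀ y ∈ A, y ∉ B → ∃ m ∈ N_(A), m * z * m⁻¹ = z ∧ m * x * m⁻¹ * y ∈ B := by
  have l := e.cent zA
  have cm : ∀ x (i : x ∈ A) y (j : y ∈ A), f ⟨x, l i⟩ * f ⟨y, l j⟩ = f ⟨y, l j⟩ * f ⟨x, l i⟩ := fun x i y j => by
    rw [← map_mul, ← map_mul]; exact congrArg f (Subtype.ext (e.comm i j))
  have sq : ∀ x (i : x ∈ A), f ⟨x, l i⟩ * f ⟨x, l i⟩ = 1 := fun x i => by
    rw [← map_mul, ← map_one f]; exact congrArg f (Subtype.ext (e x i))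
  have n1 : ∀ x (i : x ∈ A), x ∉ B → f ⟨x, l i⟩ ≠ 1 := fun x i n r =>
    n (e3.le ⟨i, (s.ker x (l i)).1 ((s.pf ⟨x, l i⟩).symm.trans r)⟩)
  intro x xA xB y yA yB
  obtain ⟨γ, r⟩ := oc _ (YM ⟨⟨x, l xA⟩, xA, rfl⟩) _ (YM ⟨⟨y, l yA⟩, yA, rfl⟩) (sq x xA) (sq y yA) (n1 x xA xB) (n1 y yA yB)
  obtain ⟨g, i, rfl⟩ := s.sur γ
  rw [← s.pf ⟨g, i⟩] at r
  obtain ⟨_, ⟨w, wc, rfl⟩, n⟩ := FC u e c (X := (C_[f ⟨y, l yA⟩].comap f).map C_[z].subtype) (g := g)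
    (fun a j => ⟨⟨a, l j⟩, mem_cent1.2 (cm a j y yA), rfl⟩) (fun a j => by
      obtain ⟨b, bA, rfl⟩ := mem_cj'.1 j
      refine ⟨⟨g, i⟩ * ⟨b, l bA⟩ * ⟨g, i⟩⁻¹, mem_cent1.2 ?_, rfl⟩
      rw [map_mul, map_mul, map_inv, ← r]
      calc _ = f ⟨g, i⟩ * (f ⟨b, l bA⟩ * f ⟨x, l xA⟩) * (f ⟨g, i⟩)⁻¹ := by group
        _ = _ := by rw [cm b bA x xA]; group)
  have mz : (w.1 * g) ∈ C_[z] := mul_mem w.2 i
  have mA : w.1 * g * x * (w.1 * g)⁻¹ * y ∈ A := mul_mem (le_norm_iff.1 le_rfl _ n x xA) yA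
  refine ⟨_, n, mul_inv_eq_iff_eq_mul.2 (mem_cent1.1 mz), e3.le ⟨mA, (s.ker _ (l mA)).1 ?_⟩⟩
  refine (s.pf (w * ⟨g, i⟩ * ⟨x, l xA⟩ * (w * ⟨g, i⟩)⁻¹ * ⟨y, l yA⟩)).symm.trans ?_
  have wc' : f w * f ⟨y, l yA⟩ = f ⟨y, l yA⟩ * f w := mem_cent1.1 wc
  rw [map_mul, map_mul, map_mul, map_inv, map_mul]
  calc _ = f w * (f ⟨g, i⟩ * f ⟨x, l xA⟩ * (f ⟨g, i⟩)⁻¹) * (f w)⁻¹ * f ⟨y, l yA⟩ := by group
    _ = 1 := by rw [r, wc', mul_inv_cancel_right, sq y yA]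

end

end H27.FzB
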