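import Mathlib
import Cfsg.Agent.H06.W1
import Cfsg.Agent.H10.FzF
import Cfsg.Agent.H27.FzB

/-! Groups of Janko-four type: `C(z) ∩ C(t) ≤ N(A)` for `t ∈ D ∩ Q` (namespace `H27.WC3`): `c3`. -/

set_option autoImplicit false
open Cfsg BG Subgroup L.Fz Cfsg.Agent.H06.J Cfsg.Agent.H06.W

namespace H27.WC3
universe u

theorem dp {p n a k j : ℕ} (hp : p.Prime) (h : n ∣ p ^ k * a) (hn : ¬ p ^ (j + 1) ∣ n) : n ∣ p ^ j * a := by
  obtain ⟨e, m, hm, rfl⟩ := Nat.exists_eq_pow_mul_and_not_dvd (n := n) (by rintro rfl; exact hn (dvd_zero _)) p hp.ne_one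
  refine mul_dvd_mul (pow_dvd_pow p (by
    by_contra c
    exact hn ((pow_dvd_pow p (by omega)).mul_right m))) ?_
  exact (((Nat.Prime.coprime_iff_not_dvd hp).2 hm).symm.pow_right k).dvd_of_dvd_mul_left ((dvd_mul_left m _).trans h)

theorem c3 : C3Stmt.{u} := by
  intro G _ _ z Q V _ _ _ Γ _ _ f π ν T d M β q s K Y B A δ c c2 C D h k t tD tB
  have l := s.md.lx
  have n : ν t ≠ 0 := fun e => by
    rcases (s.md.ker t tB.1).1 e with e | e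
    exacts [(h.DA t tD).2 e, h.zD (e ▸ tD)]
  obtain ⟨p7, p11, p9⟩ := C s.gm (commutator_mono c.hk.KM c.hk.KM c.dK) c.pj (ν t) tB.2 n
    (((C_[z] ⊓ C_[t]).subgroupOf C_[z]).map f) (by
      rintro _ ⟨x, m, rfl⟩
      rw [s.pf, s.act x x.2 t tB.1, show x.1 * t = t * x.1 from mem_cent1.1 m.2, mul_inv_cancel_right])
  have a := card_inf_mul_relIndex f.ker ((C_[z] ⊓ C_[t]).subgroupOf C_[z])
  have kf : f.ker = Q.subgroupOf C_[z] := Subgroup.ext fun x => by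
    rw [MonoidHom.mem_ker, s.pf, s.ker _ x.2, mem_subgroupOf]
  have a1 : Nat.card ↥(f.ker ⊓ (C_[z] ⊓ C_[t]).subgroupOf C_[z]) ∣ 8192 := by
    rw [← s.card, ← Nat.card_congr (subgroupOfEquivOfLe l.le).toEquiv, ← kf]; exact card_dvd_of_le inf_le_left
  rw [relIndex_ker, Nat.card_congr (subgroupOfEquivOfLe (inf_le_left : C_[z] ⊓ C_[t] ≤ C_[z])).toEquiv] at a
  have a2 := card_subgroup_dvd_card (((C_[z] ⊓ C_[t]).subgroupOf C_[z]).map f)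
  rw [s.gm.cΓ] at a2
  have a3 := dp (k := 1) (j := 0) (a := 380160) (by norm_num : Nat.Prime 7) a2 p7
  have a4 := dp (k := 1) (j := 0) (a := 34560) (by norm_num : Nat.Prime 11) a3 p11
  have a5 := dp (k := 3) (j := 1) (a := 1280) Nat.prime_three a4 p9
  have a6 : Nat.card ↥(C_[z] ⊓ C_[t]) ∣ 2 ^ 21 * 15 := a ▸ (mul_dvd_mul a1 a5).trans (by norm_num)
  have a7 := dp (j := 19) Nat.prime_two a6 fun r => (h.c19 t tD tB).2 (by
    rw [inf_assoc]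
    exact H27.FzB.SY c.u c.A2 c.cA _ (le_inf c.Az (H20.FtW.EA.cent c.A2 (h.BA tB))) 20 r)
  have o := H10.FzF.orb (N_(A) ⊓ C_[z]) t
  rw [show {x | ∃ m ∈ N_(A) ⊓ C_[z], m * t * m⁻¹ = x} = {t | t ∈ D ∧ t ∈ s.md.pull B} from Set.ext fun x =>
    ⟨fun ⟨m, i, e⟩ => e ▸ ⟨h.Dc m i.1 t tD, h.nB m i.1 (mul_inv_eq_iff_eq_mul.2 (mem_cent1.1 i.2)) t tB⟩, fun i => by
      obtain ⟨m, j, e, e'⟩ := h.trDB t tD tB x i.1 i.2
      exact ⟨m, ⟨j, mem_cent1.2 (mul_inv_eq_iff_eq_mul.1 e)⟩, e'⟩⟩, k.c36, c2.cN, inf_assoc] at o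
  have := Nat.le_of_dvd (by norm_num) a7
  exact (Subgroup.eq_of_le_of_card_ge (inf_le_right : N_(A) ⊓ (C_[z] ⊓ C_[t]) ≤ _) (by omega)).ge.trans inf_le_left

end H27.WC3
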