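import Cfsg.Agent.H27.HomB
import Cfsg.Agent.H16.O8S3

/-!
Automorphisms from relations checked on a base and their action on classes (namespace `H27.MG`):
`dfOk`/`in_defs`, `Mdl.endo`, `exists_auts`, `map_evC`, `cj2`, `cnF`, `emb2`, `orbits_of`.
-/

set_option autoImplicit false

namespace H27.MG
open H13 H14.PK H14.PK.TS H27.PKx Cfsg
open H14.RK (SL gT gsOf ssE ssN ssM defM defE mask Rel Pass)

variable {G : Type*} [Group G] {w n : ℕ} {S : TS G w n} {K : Subgroup G} {Ls bs Ts Us : List ℕ} {N : ℕ}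

theorem in_tw_of {u : List ℕ} (h : ∀ x ∈ u, S.In K (nd (idv w n) Ts x)) : S.In K (tw w n Ts u) := by
  have : ∀ x, S.In K x → S.In K (List.rec (motive := fun _ => ℕ → ℕ) (fun x => x)
      (fun a _ ih x => force (tm w n x (nd (idv w n) Ts a)) ih) u x) := by
    induction u with
    | nil => exact fun _ h => h
    | cons a u ih => exact fun x hx => ih (fun y hy => h y (List.mem_cons_of_mem _ hy)) _ (hx.mul (h a List.mem_cons_self))
  exact this _ In.one

/-- the tables are given by the definitions -/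
noncomputable def dfOk (w n : ℕ) (Ts gs : List ℕ) (ds : List (List ℕ × ℕ × List ℕ)) : Bool :=
  band (allL (fun d => Nat.beq (nd (idv w n) Ts d.2.1) (tm w n (ti w n (tw w n Ts d.1)) (tw w n Ts d.2.2))) ds)
    (force (defM ds (mask gs)) fun M => allLt (bt M) Ts.length)

theorem in_defs {gs : List ℕ} {ds : List (List ℕ × ℕ × List ℕ)} (h : ∀ i ∈ gs, S.In K (nd (idv w n) Ts i))
    (e : dfOk w n Ts gs ds = true) : ∀ t ∈ Ts, S.In K t := fun t ht => by
  obtain ⟨i, hi, rfl⟩ := List.getElem_of_mem ht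
  rw [← List.getD_eq_getElem _ (idv w n), ← nd_eq]
  exact Pass.defM (p := fun i => S.In K (nd (idv w n) Ts i)) (fun d hd a b => by
    beta_reduce
    rw [Nat.eq_of_beq_eq_true (allL_iff.1 (band_eq_true.1 e).1 d hd)]
    exact (in_tw_of a).inv.mul (in_tw_of b)) (fun i hi => h i (H14.RK.bt_mask hi)) i (allLt_iff.1 (band_eq_true.1 e).2 i hi)

theorem Mdl.endo (M : Mdl S Ls bs N) {lv : List SL} {ds : List (List ℕ × ℕ × List ℕ)} (r1 : Rel (gT S Ts) (defE ds (ssE lv)))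
    (r2 : Rel (gT S Us) (defE ds (ssE lv))) (ok : H14.RK.ssOk lv = true) (hN : ssN lv = N)
    (hg : (gsOf lv).map (nd (idv w n) Ts) = Ls) :
    ∃ φ : G →* G, ∀ i, bt (defM ds (ssM lv)) i = true → φ (gn S Ts i) = gn S Us i := by
  have := S.finite
  have r := r1.prod r2
  have r' : Rel (fun i => (gT S Ts i, gT S Us i)) (ssE lv) := fun e he =>
    r e (H14.RK.defE_eq ds _ ▸ List.mem_append_right _ he)
  have k : (H14.RK.cl (fun i => (gT S Ts i, gT S Us i)) (gsOf lv)).map (MonoidHom.fst G G) = ⊤ := by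
    rw [← M.cl, ← hg, cl_gT, H14.RK.map_cl]; rfl
  obtain ⟨φ, -, b⟩ := exists_hom_of_graph _ k ((H14.RK.ss_card r' ok).2.trans (by rw [hN, Subgroup.card_top, M.card]))
  exact ⟨φ.comp (Subgroup.topEquiv (G := G)).symm.toMonoidHom, fun i hi => b (_, _) ((r.pass _).defM r'.ssM i hi) trivial⟩

theorem exists_auts {g : ℕ → G} {I : List ℕ} (hI : H14.RK.cl g I = ⊤) (φ χ : G →* G) (p q : ℕ → ℕ)
    (hp : ∀ i ∈ I, φ (g i) = g (p i)) (hq : ∀ i ∈ I, χ (g i) = g (q i))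
    (e : ∀ i ∈ I, p i ∈ I ∧ q i ∈ I ∧ p (p (p i)) = i ∧ q (q i) = i ∧ q (p (q (p i))) = i) :
    ∃ τ σ : MulAut G, τ ^ 3 = 1 ∧ σ ^ 2 = 1 ∧ (σ * τ) ^ 2 = 1 ∧ (∀ x, τ x = φ x) ∧ ∀ x, σ x = χ x := by
  have k : ∀ f : G →* G, (∀ i ∈ I, f (g i) = g i) → ∀ x, f x = x := fun f h =>
    DFunLike.congr_fun (MonoidHom.eq_of_eqOn_dense (g := MonoidHom.id G) hI (by rintro _ ⟨i, hi, rfl⟩; exact h i hi))
  have h1 := k (φ.comp (φ.comp φ)) fun i hi => by
    simp only [MonoidHom.comp_apply, hp i hi, hp _ (e i hi).1, hp _ (e _ (e i hi).1).1, (e i hi).2.2.1]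
  have h2 := k (χ.comp χ) fun i hi => by simp only [MonoidHom.comp_apply, hq i hi, hq _ (e i hi).2.1, (e i hi).2.2.2.1]
  have h3 := k (χ.comp (φ.comp (χ.comp φ))) fun i hi => by
    simp only [MonoidHom.comp_apply, hp i hi, hq _ (e i hi).1, hp _ (e _ (e i hi).1).2.1, hq _ (e _ (e _ (e i hi).1).2.1).1,
      (e i hi).2.2.2.2]
  exact ⟨φ.toMulEquiv (φ.comp φ) (MonoidHom.ext h1) (MonoidHom.ext h1), χ.toMulEquiv χ (MonoidHom.ext h2) (MonoidHom.ext h2),
    MulEquiv.ext h1, MulEquiv.ext h2, MulEquiv.ext h3, fun _ => rfl, fun _ => rfl⟩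

theorem map_evC {H : Type*} [Group H] {g : ℕ → G} {h : ℕ → H} (φ : G →* H) {a b c : ℕ} (k : ∀ i, a ≤ i → i ≤ b → φ (g i) = h i)
    (e : inF a b 64 c = true) : φ (evC g c) = evC h c := by
  have : ∀ f c, inF a b f c = true → φ (evF g f c) = evF h f c := fun f => by
    induction f with
    | zero => exact fun _ _ => map_one φ
    | succ f ih =>
      intro c e
      rcases c with _ | c
      · exact map_one φ
      · obtain ⟨e1, e2⟩ := band_eq_true.1 (a := band _ _) e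
        rw [evF, evF, if_neg c.succ_ne_zero, if_neg c.succ_ne_zero, map_mul, ih ((c + 1) / 32) e2, k ((c + 1) % 32)
          (Nat.le_of_ble_eq_true (band_eq_true.1 e1).1) (Nat.le_of_ble_eq_true (band_eq_true.1 e1).2)]
  exact this 64 c e

/-- conjugation of a word in `Us` to a word in `Ts` -/
noncomputable def cj2 (w n : ℕ) (bs Ts Us : List ℕ) (c u d : ℕ) : Bool :=
  allL (fun y => Nat.beq (apC w n Ts u (apC w n Us c y)) (apC w n Ts d (apC w n Ts u y))) bs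

theorem cj2_spec (hb : S.Base bs) (h : ∀ t ∈ Ts, S.In ⊤ t) (h' : ∀ t ∈ Us, S.In ⊤ t) {c u d : ℕ}
    (e : cj2 w n bs Ts Us c u d = true) : IsConj (evC (gn S Us) c) (evC (gn S Ts) d) :=
  isConj_iff.2 ⟨evC (gn S Ts) u, mul_inv_eq_iff_eq_mul.2 (hb.ext fun y hy => by
    simpa only [S.ap_mul _ _ (hb.1 y hy), apC_spec h' _ (hb.1 y hy), apC_spec h _ (hb.1 y hy),
      apC_spec h _ (S.ap_lt _ (hb.1 y hy))] using Nat.eq_of_beq_eq_true (allL_iff.1 e y hy))⟩

/-- the number of fixed points of a function -/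
noncomputable def cnF (f : ℕ → ℕ) (n : ℕ) : ℕ :=
  Nat.rec (motive := fun _ => ℕ) (nat_lit 0) (fun i ih => Bool.rec (motive := fun _ => ℕ) ih (Nat.succ ih) (Nat.beq (f i) i)) n

theorem cnF_eq {w n t : ℕ} {f : ℕ → ℕ} (h : ∀ i < n, f i = get w t i) : cnF f n = cnt w n t := by
  induction n with
  | zero => rfl
  | succ n ih =>
    change Bool.rec (motive := fun _ => ℕ) (cnF f n) (cnF f n + 1) (Nat.beq (f n) n) =
      Bool.rec (motive := fun _ => ℕ) (cnt w n t) (cnt w n t + 1) (Nat.beq (get w t n) n)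
    rw [ih fun i hi => h i (by omega), h n (by omega)]

theorem cnF_conj (h : ∀ t ∈ Ts, S.In ⊤ t) {c d : ℕ} (e : IsConj (evC (gn S Ts) c) (evC (gn S Ts) d)) :
    cnF (apC w n Ts c) n = cnF (apC w n Ts d) n :=
  (cnF_eq fun _ => apC_spec h c).trans ((cnt_conj (S := S) e).trans (cnF_eq fun _ => apC_spec h d).symm)

theorem order_evC (hb : S.Base bs) (h : ∀ t ∈ Ts, S.In ⊤ t) {p c : ℕ} (hp : p.Prime) (e : band
    (allL (fun y => Nat.beq (itr (apC w n Ts c) p y) y) bs) (anyL (fun y => bn (Nat.beq (apC w n Ts c y) y)) bs) = true) :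
    orderOf (evC (gn S Ts) c) = p := by
  have := Fact.mk hp
  simp only [band_eq_true, allL_iff, anyL_iff, bn_iff, Nat.beq_eq] at e
  obtain ⟨e, y, a, b⟩ := e
  exact orderOf_eq_prime (hb.2 _ fun y hy => (itr_eq (fun i => apC_spec h _) p (hb.1 y hy)).symm.trans (e y hy))
    fun c => b (by rw [apC_spec h _ (hb.1 y a), c, S.ap_one (hb.1 y a)])

theorem emb2 {A : Type*} [Group A] (ψ : MulAut A →* Equiv.Perm (Fin 4)) (hψ : ψ.ker = Inn A) (hs : Function.Surjective ψ) [Finite G]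
    (e : generalizedFittingSubgroup G ≃* A) [(generalizedFittingSubgroup G).Normal] (hZ : Subgroup.center A = ⊥)
    (h : (generalizedFittingSubgroup G).index = 6) (j : Fin 4) : ∃ f : generalizedFittingSubgroup G ≃* A,
      ∀ α : MulAut A, ψ α j = j ↔ ∃ g : G, ∀ l, f (MulAut.conjNormal g l) = α (f l) := by
  let φ : G →* MulAut A := (MulAut.congr e).toMonoidHom.comp MulAut.conjNormal
  have h0 (g : G) (l) : φ g (e l) = e (MulAut.conjNormal g l) := by simp [φ]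
  have h1 (l : generalizedFittingSubgroup G) : φ l = MulAut.conj (e l) := by
    ext k
    obtain ⟨k, rfl⟩ := e.surjective k
    rw [h0, MulAut.conj_apply, ← map_inv, ← map_mul, ← map_mul]
    congr 1
  have h2 (g : G) (hg : φ g = 1) : g ∈ generalizedFittingSubgroup G := H22.centralizer_fstar_le fun l hl => by
    have := congrArg Subtype.val (e.injective ((h0 g ⟨l, hl⟩).symm.trans (DFunLike.congr_fun hg _)))
    rw [MulAut.conjNormal_apply, mul_inv_eq_iff_eq_mul] at this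
    exact this.symm
  have h4 : (ψ.comp φ).ker = generalizedFittingSubgroup G := by
    ext g
    rw [MonoidHom.mem_ker, MonoidHom.comp_apply, ← MonoidHom.mem_ker, hψ]
    refine ⟨fun ⟨k, hk⟩ => ?_, fun hg => ⟨_, (h1 ⟨g, hg⟩).symm⟩⟩
    obtain ⟨l, rfl⟩ := e.surjective k
    exact (Subgroup.mul_mem_cancel_left _ (inv_mem l.2)).1 (h2 _ (by rw [map_mul, map_inv, h1, ← hk]; exact inv_mul_cancel _))
  obtain ⟨i, hi⟩ := H16.O8S3.s4_sub (ψ.comp φ).range (by rw [← Subgroup.index_ker, h4, h])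
  have h5 : ∀ α : MulAut A, ψ α i = i ↔ ∃ g, φ g = α := fun α => by
    refine ⟨fun a => ?_, fun ⟨g, a⟩ => hi.le ⟨g, congrArg ψ a⟩⟩
    obtain ⟨g, b⟩ := hi.ge (show ψ α ∈ MulAction.stabilizer _ i from a)
    obtain ⟨k, c⟩ : α * (φ g)⁻¹ ∈ Inn A := hψ ▸ (by rw [MonoidHom.mem_ker, map_mul, map_inv, ← b]; exact mul_inv_cancel _)
    obtain ⟨l, rfl⟩ := e.surjective k
    exact ⟨l * g, by rw [map_mul, h1, c, inv_mul_cancel_right]⟩
  obtain ⟨β, hβ⟩ := hs (Equiv.swap i j)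
  refine ⟨e.trans β, fun α => ?_⟩
  have : ψ α j = j ↔ ψ (β⁻¹ * α * β) i = i := by
    simp only [map_mul, map_inv, hβ, Equiv.swap_inv, Equiv.Perm.mul_apply, Equiv.swap_apply_left]
    rw [Equiv.swap_apply_eq_iff, Equiv.swap_apply_left]
  rw [this, h5]
  refine exists_congr fun g => ⟨fun a l => ?_, fun a => MulEquiv.ext fun k => ?_⟩
  · simp [← h0, a]
  · obtain ⟨l, rfl⟩ := e.surjective k
    exact β.injective (by simpa [h0] using a l)

theorem stab_of {A : Type*} [Group A] (ψ : MulAut A →* Equiv.Perm (Fin 4)) (hψ : ψ.ker = Inn A) {τ σ : MulAut A} (h1 : τ ^ 3 = 1)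
    (h2 : σ ^ 2 = 1) (h3 : (σ * τ) ^ 2 = 1) (h4 : τ ∉ Inn A) (h5 : σ ∉ Inn A) : ∃ j, ψ τ j = j ∧ ∀ P : MulAut A → Prop,
      (∀ a, P (MulAut.conj a)) → P τ → P σ → (∀ α β, P α → P β → P (α * β)) → ∀ α, ψ α j = j → P α := by
  obtain ⟨j, a, b⟩ := (by decide +kernel : ∀ t s : Equiv.Perm (Fin 4), t ^ 3 = 1 → s ^ 2 = 1 → (s * t) ^ 2 = 1 → t ≠ 1 → s ≠ 1 →
    ∃ j, t j = j ∧ ∀ x : Equiv.Perm (Fin 4), x j = j → x ∈ [s * s, t, t * t, s, s * t, s * t * t]) (ψ τ) (ψ σ)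
    (by rw [← map_pow, h1, map_one]) (by rw [← map_pow, h2, map_one]) (by rw [← map_mul, ← map_pow, h3, map_one])
    (fun c => h4 (hψ ▸ c)) fun c => h5 (hψ ▸ c)
  refine ⟨j, a, fun P p1 p2 p3 p4 α c => ?_⟩
  obtain ⟨β, d, e⟩ : ∃ β, P β ∧ ψ α = ψ β := by
    have := b _ c
    simp only [← map_mul, List.mem_cons, List.not_mem_nil, or_false] at this
    rcases this with e | e | e | e | e | e <;> refine ⟨_, ?_, e⟩ <;> repeat first | assumption | apply p4
  obtain ⟨k, f⟩ : α * β⁻¹ ∈ Inn A := hψ ▸ (by rw [MonoidHom.mem_ker, map_mul, map_inv, e, mul_inv_cancel])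
  exact inv_mul_cancel_right α β ▸ p4 _ _ (f ▸ p1 k) d

theorem orbits_of {A : Type*} [Group A] [Finite G] {L : Subgroup G} [L.Normal] (f : L ≃* A) {R : MulAut A → Prop}
    (hf : ∀ α, R α ↔ ∃ g : G, ∀ l, f (MulAut.conjNormal g l) = α (f l)) {m k : ℕ} (z : Fin m → A) (o : Fin m → Fin k)
    (r : Fin k → Fin m) (h0 : ∀ i, o (r i) = i) (h1 : ∀ i, orderOf (z i) = 3) (h2 : ∀ i, IsConj (z i ^ 2) (z i))
    (h3 : ∀ i j, IsConj (z i) (z j) → i = j) (h4 : ∀ x : A, x ^ 3 = 1 → x = 1 ∨ ∃ i, IsConj x (z i))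
    (h5 : ∀ α, R α → ∀ i, ∃ j, o j = o i ∧ IsConj (α (z i)) (z j)) (h6 : ∀ i, ∃ α, R α ∧ IsConj (α (z i)) (z (r (o i)))) :
    ∃ Y : Fin k → Subgroup G, (∀ i, Y i ≤ L ∧ Nat.card (Y i) = 3) ∧
      (∀ i j, (∃ g : G, (Y i).map (MulAut.conj g).toMonoidHom = Y j) → i = j) ∧
      ∀ X : Subgroup G, X ≤ L → Nat.card X = 3 → ∃ i, ∃ g : G, X.map (MulAut.conj g).toMonoidHom = Y i := by
  classical
  have o3 : ∀ i, orderOf (f.symm (z i) : G) = 3 := fun i => by rw [Subgroup.orderOf_coe, f.symm.orderOf_eq, h1]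
  refine ⟨fun i => Subgroup.zpowers (f.symm (z (r i)) : G), fun i => ⟨Subgroup.zpowers_le.2 (Subtype.prop _), by
    rw [Nat.card_zpowers, o3]⟩, fun i j ⟨g, e⟩ => ?_, fun X hL hX => ?_⟩
  · obtain ⟨u, a, b⟩ := h5 (MulAut.congr f (MulAut.conjNormal g)) ((hf _).2 ⟨g, fun l => by simp⟩) (r i)
    obtain ⟨l, hl, c⟩ := Finset.mem_image.1 (mem_zpowers_iff_mem_range_orderOf.1 (e.le ⟨_, Subgroup.mem_zpowers _, rfl⟩))
    rw [show MulAut.congr f (MulAut.conjNormal g) (z (r i)) = z (r j) ^ l from f.eq_symm_apply.1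
      (show MulAut.conjNormal g (f.symm (z (r i))) = _ by rw [map_pow]; exact Subtype.ext c.symm)] at b
    rw [o3, Finset.mem_range] at hl
    rw [← h0 i, ← a, ← h3 (r j) u, h0]
    interval_cases l
    · exact absurd (h1 u) (by rw [← show 1 = z u by simpa using b, orderOf_one]; norm_num)
    · simpa using b
    · exact (h2 _).symm.trans b
  · have := Fact.mk Nat.prime_three
    obtain ⟨x, rfl⟩ := (Subgroup.isCyclic_iff_exists_zpowers_eq_top X).1 (isCyclic_of_prime_card hX)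
    rw [Nat.card_zpowers] at hX
    have hx := Subgroup.zpowers_le.1 hL
    obtain ⟨i, a⟩ := (h4 (f ⟨x, hx⟩) (by rw [← map_pow, ← map_one f]; exact congrArg f (Subtype.ext (hX ▸ pow_orderOf_eq_one x)))).resolve_left
      fun c => by simp [show x = 1 from congrArg Subtype.val (f.map_eq_one_iff.1 c)] at hX
    obtain ⟨α, b, c⟩ := h6 i
    obtain ⟨g, b⟩ := (hf α).1 b
    obtain ⟨u, c⟩ := isConj_iff.1 ((α.toMonoidHom.map_isConj a).trans c)
    refine ⟨o i, f.symm u * g, (MonoidHom.map_zpowers _ x).trans (congrArg _ ?_)⟩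
    rw [← c, show α.toMonoidHom _ = _ from (b ⟨x, hx⟩).symm]
    simp [mul_assoc]

end H27.MG
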