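import Cfsg.Agent.H27.SmallMat
import Cfsg.Agent.H13.Words

/-!
Large matrices over `ZMod p`, multiplied by sums of outer products of packed numbers (namespace `H27.BM`).
* `raw`, `get_raw`; `wdOk`, `wdOk_spec` (the product along a word); `widen` (compact literals);
* `units_of`: units satisfying a list of relators.
-/

set_option autoImplicit false

namespace H27.BM
open H13 H14.PK H27.SM

theorem get_get {w n j : ℕ} (x i : ℕ) (hj : j < n) : get w (get (w * n) x i) j = get w x (n * i + j) := by
  apply Nat.eq_of_testBit_eq; intro t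
  simp only [testBit_get]
  by_cases c : t < w
  · have : w * j + t < w * n := by nlinarith
    simp only [c, this, decide_true, Bool.true_and]; congr 1; ring
  · simp [c]

theorem pk_lt {w n : ℕ} {f : ℕ → ℕ} (hw : 0 < w) (hf : ∀ j < n, f j < 2 ^ w) : pk w f n < 2 ^ (w * n) :=
  lt_of_get hw fun i hi => by rw [get_pk hf, if_neg (by omega)]

/-- the product before reduction; `M` is the mask of the first column -/
noncomputable def raw (w n M a b : ℕ) : ℕ :=
  sumLt (fun k => Nat.mul (Nat.land (Nat.shiftRight a (Nat.mul w k)) M) (get (Nat.mul w n) b k)) n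

theorem get_raw {w n c a b : ℕ} (hw : 0 < w) (hc : n * (c * c) < 2 ^ w) (ha : ∀ t, get w a t ≤ c) (hb : ∀ t, get w b t ≤ c) :
    ∀ i < n, ∀ j < n, get w (raw w n (cst (w * n) n (ones w)) a b) (n * i + j) =
      ∑ k ∈ Finset.range n, get w a (n * i + k) * get w b (n * k + j) := by
  intro i hi j hj
  have h0 : 0 < w * n := Nat.mul_pos hw (by omega)
  have h1 : ones w < 2 ^ (w * n) := by
    have := Nat.pow_le_pow_right (n := 2) two_pos (Nat.le_mul_of_pos_right w (by omega : 0 < n))
    have := Nat.two_pow_pos w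
    rw [ones_eq]; omega
  have bd : ∀ i j, ∑ k ∈ Finset.range n, get w a (n * i + k) * get w b (n * k + j) < 2 ^ w := fun i j =>
    lt_of_le_of_lt ((Finset.sum_le_card_nsmul _ _ _ fun k _ => Nat.mul_le_mul (ha _) (hb _)).trans (by simp)) hc
  have e : raw w n (cst (w * n) n (ones w)) a b = pk (w * n) (fun i => pk w (fun j =>
      ∑ k ∈ Finset.range n, get w a (n * i + k) * get w b (n * k + j)) n) n := by
    rw [raw, sumLt_eq]
    simp only [pk, Finset.sum_mul]
    rw [Finset.sum_congr rfl fun i _ => Finset.sum_comm, Finset.sum_comm]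
    refine Finset.sum_congr rfl fun k hk => ?_
    have e1 : Nat.land (Nat.shiftRight a (Nat.mul w k)) (cst (w * n) n (ones w)) = pk (w * n) (fun i => get w a (n * i + k)) n := by
      refine ext_get h0 fun i => ?_
      rw [get_pk fun j _ => (get_lt _ _ _).trans_le (Nat.pow_le_pow_right two_pos (Nat.le_mul_of_pos_right w (by omega)))]
      refine (get_land _ _ _ _).trans ?_
      rw [get_cst h0 h1]
      split_ifs
      · rw [ones_eq, Nat.and_two_pow_sub_one_eq_mod, ← get_zero, get_get _ _ (by omega)]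
        exact get_shiftRight w a k _
      · simp
    have e2 : get (Nat.mul w n) b k = pk w (fun j => get w b (n * k + j)) n := by
      refine (pk_get hw (get_lt (w * n) b k)).symm.trans ?_
      exact Finset.sum_congr rfl fun j hj => by rw [get_get _ _ (Finset.mem_range.1 hj)]
    rw [e1, e2, Nat.mul_eq, pk, pk, Finset.sum_mul_sum]
    exact Finset.sum_congr rfl fun i _ => Finset.sum_congr rfl fun j _ => by ring
  rw [e, ← get_get _ _ hj, get_pk fun i _ => pk_lt hw fun j _ => bd i j, if_pos hi, get_pk fun j _ => bd i j, if_pos hj]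

/-- parameters: prime, size, width, bits of an entry, bits of a quotient, shift -/
structure Par where
  (p n w b d s : ℕ)

namespace Par
variable (P : Par)

/-- the inequalities -/
noncomputable def ok : Bool := band (Nat.blt 0 P.w) (band (Nat.blt (P.n * (ones P.b * ones P.b)) (p2 P.w))
  (band (Nat.blt (ones P.b + ones P.d * P.p) (p2 P.w)) (band (Nat.blt (ones P.b) (p2 P.w)) (Nat.blt (ones P.d) (p2 P.w)))))

/-- the entries are small -/
noncomputable def bd (a : ℕ) : Bool := Nat.beq (Nat.land a (cst P.w (P.n * P.n) (ones P.b))) a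

/-- `x` times the product along the word is `e` -/
noncomputable def wdOk (gs : List ℕ) (e : ℕ) (u : List ℕ) (x : ℕ) : Bool :=
  force (cst (P.w * P.n) P.n (ones P.w)) fun M => force (cst P.w (P.n * P.n) (ones P.b)) fun B =>
  force (cst P.w (P.n * P.n) (ones P.d)) fun D => force (Nat.succ (Nat.div (p2 P.s) P.p)) fun c =>
  List.rec (motive := fun _ => ℕ → Bool) (fun x => Nat.beq x e) (fun l _ ih x => force (nthN gs l) fun g =>
    force (raw P.w P.n M x g) fun X => force (Nat.mul (Nat.land (Nat.shiftRight (Nat.mul X c) P.s) D) P.p) fun q =>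
      force (Nat.land (Nat.sub X q) B) fun r => band (Nat.beq X (Nat.add r q)) (ih r)) u x

/-- the matrix -/
abbrev M (a : ℕ) : Matrix (Fin P.n) (Fin P.n) (ZMod P.p) := toM P.p P.n P.w a

variable {P}

theorem land_le {a k : ℕ} (hw : 0 < P.w) (h : ones k < 2 ^ P.w) (t : ℕ) :
    get P.w (Nat.land a (cst P.w (P.n * P.n) (ones k))) t ≤ ones k := by
  refine (get_land _ _ _ _).trans_le (Nat.and_le_right.trans ?_)
  rw [get_cst hw h]; split_ifs <;> simp

theorem wdOk_spec (h : P.ok = true) {gs : List ℕ} (hg : allL P.bd gs = true) {e : ℕ} (u : List ℕ) {x : ℕ}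
    (hx : P.bd x = true) (k : P.wdOk gs e u x = true) : P.M x * (u.map fun l => P.M (nthN gs l)).prod = P.M e := by
  simp only [ok, band_eq_true, Nat.blt_eq, p2_eq] at h
  obtain ⟨hw, h1, h2, h3, h4⟩ := h
  have hb : ∀ a, P.bd a = true → ∀ t, get P.w a t ≤ ones P.b := fun a ha t => Nat.eq_of_beq_eq_true ha ▸ land_le hw h3 t
  have hg' : ∀ l t, get P.w (nthN gs l) t ≤ ones P.b := fun l t => by
    rw [nthN_eq, List.getD_eq_getElem?_getD]
    rcases c : gs[l]? with _ | a
    · simp
    · exact hb a (allL_iff.1 hg a (List.mem_of_getElem? c)) t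
  replace hx := hb x hx
  simp only [wdOk, force_eq] at k
  induction u generalizing x with
  | nil => rw [Nat.eq_of_beq_eq_true k]; simp
  | cons l u ih =>
    obtain ⟨k1, k2⟩ := band_eq_true.1 k
    rw [List.map_cons, List.prod_cons, ← mul_assoc, ← ih k2 (land_le hw h3)]
    congr 1
    ext i j
    have e1 := get_raw hw h1 hx (hg' l) i i.2 j j.2
    have m := fun y => get_mul (x := Nat.land y (cst P.w (P.n * P.n) (ones P.d))) (c := P.p) fun t =>
      lt_of_le_of_lt (Nat.mul_le_mul_right _ (land_le hw h4 t)) (by omega)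
    rw [Nat.eq_of_beq_eq_true k1, Nat.add_eq, Nat.mul_eq, get_add fun t => by
      rw [m]; exact lt_of_le_of_lt (Nat.add_le_add (land_le hw h3 t) (Nat.mul_le_mul_right _ (land_le hw h4 t))) h2, m] at e1
    have e2 := congrArg (Nat.cast : ℕ → ZMod P.p) e1
    rw [Nat.cast_add, Nat.cast_mul, ZMod.natCast_self, mul_zero, add_zero, Nat.cast_sum, Finset.sum_range] at e2
    simp only [toM, Matrix.mul_apply, Matrix.of_apply]
    exact (Finset.sum_congr rfl fun _ _ => (Nat.cast_mul _ _).symm).trans e2.symm

/-- the unit matrix -/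
def one (P : Par) : ℕ := rep (P.w * (P.n + 1)) P.n

theorem M_one (h : P.ok = true) : P.M P.one = 1 := by
  simp only [ok, band_eq_true, Nat.blt_eq, p2_eq] at h
  ext i j
  have : ∀ t, get P.w P.one t = if t % (P.n + 1) = 0 ∧ t / (P.n + 1) < P.n then 1 else 0 := fun t => by
    conv_lhs => rw [← Nat.div_add_mod t (P.n + 1), ← get_get _ _ (Nat.mod_lt _ (Nat.succ_pos _)), one,
      get_rep (Nat.mul_pos h.1 (Nat.succ_pos _))]
    by_cases c : t / (P.n + 1) < P.n
    · simp only [c, if_true, and_true]
      exact get_small (Nat.one_lt_two_pow h.1.ne') _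
    · simp [c]
  simp only [toM, Matrix.of_apply, this, Matrix.one_apply]
  by_cases c : i = j
  · subst c
    rw [if_pos rfl, if_pos, Nat.cast_one]
    rw [← Nat.succ_mul, Nat.mul_mod_right, Nat.mul_div_cancel_left _ (Nat.succ_pos _)]
    exact ⟨rfl, i.2⟩
  · rw [if_neg c, if_neg, Nat.cast_zero]
    rintro ⟨c1, -⟩
    have h1 : ((P.n + 1 : ℕ) : ℤ) ∣ (j : ℤ) - i := by
      have := Int.natCast_dvd_natCast.2 (Nat.dvd_of_mod_eq_zero c1)
      have h2 := dvd_sub this (dvd_mul_right ((P.n + 1 : ℕ) : ℤ) i)
      rwa [show ((P.n * i + j : ℕ) : ℤ) - ((P.n + 1 : ℕ) : ℤ) * i = j - i by push_cast; ring] at h2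
    have := Int.eq_zero_of_abs_lt_dvd h1 (by have := i.2; have := j.2; rw [abs_lt]; constructor <;> push_cast <;> omega)
    exact c (Fin.ext (by omega))

/-- all the words are trivial -/
noncomputable def relsOk (P : Par) (gs : List ℕ) (rs : List (List ℕ)) : Bool :=
  force P.one fun e => band (P.bd e) (allL (fun u => P.wdOk gs e u e) rs)

theorem relsOk_spec (h : P.ok = true) {gs : List ℕ} (hg : allL P.bd gs = true) {rs : List (List ℕ)}
    (k : P.relsOk gs rs = true) : ∀ u ∈ rs, (u.map fun l => P.M (nthN gs l)).prod = 1 := fun u hu => by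
  obtain ⟨k1, k2⟩ := band_eq_true.1 k
  have := wdOk_spec h hg u k1 (allL_iff.1 k2 u hu)
  rwa [M_one h, one_mul] at this

/-- units satisfying the relators -/
theorem units_of (h : P.ok = true) {gs : List ℕ} (hg : allL P.bd gs = true) {rs : List (List ℕ)} {iv : ℕ}
    (k : P.relsOk gs rs = true) (e : allLt (fun l => anyL (beqW [ivx iv l, l]) rs) gs.length = true)
    (e' : allL (allL fun l => Nat.blt l gs.length) rs = true) :
    ∃ gen : ℕ → GL (Fin P.n) (ZMod P.p), Rels gen rs ∧ (∀ l, gs.length ≤ l → gen l = 1) ∧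
      ∀ l < gs.length, (gen l).1 = P.M (nthN gs l) := by
  have key : ∀ l, ∃ g : GL (Fin P.n) (ZMod P.p), (gs.length ≤ l → g = 1) ∧ (l < gs.length → g.1 = P.M (nthN gs l)) := fun l => by
    by_cases c : l < gs.length
    · obtain ⟨r, r1, r2⟩ := anyL_iff.1 (allLt_iff.1 e l c)
      have := relsOk_spec h hg k [ivx iv l, l] (eq_of_beqW r2 ▸ r1)
      simp only [List.map_cons, List.map_nil, List.prod_cons, List.prod_nil, mul_one] at this
      exact ⟨⟨_, _, mul_eq_one_comm.1 this, this⟩, by omega, fun _ => rfl⟩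
    · exact ⟨1, fun _ => rfl, fun a => absurd a c⟩
  choose gen g1 g2 using key
  refine ⟨gen, fun u hu => Units.ext ?_, g1, g2⟩
  rw [evalW, Units.val_one, ← relsOk_spec h hg k u hu]
  refine (map_list_prod (Units.coeHom _) _).trans ?_
  rw [List.map_map]
  exact congrArg _ (List.map_congr_left fun l hl => g2 l (Nat.blt_eq ▸ allL_iff.1 (allL_iff.1 e' u hu) l hl))

end Par

/-- widen the fields of the rows from `v` to `w` bits -/
noncomputable def widen (v w n a : ℕ) : ℕ :=
  mkT (Nat.mul w n) n fun i => force (get (Nat.mul v n) a i) fun r => mkT w n fun j => get v r j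

end H27.BM
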