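import Mathlib

/-!
Commutator subgroups modulo a normal subgroup.
* `H27.commutator_le_iff_map`, `commutator_le_iff_le_comap`: `⁅X, Z⁆ ≤ N` for normal `N` read in `G ⧸ N`.
* `H27.commutator_sup_le`, `commutator_iSup_le`, `commutator_sup_right_le`: `⁅X ⊔ Y, Z⁆ ≤ N` from the pieces (N normal).
* `H27.three_subgroups_le`: three subgroups lemma modulo a normal subgroup.
* `H27.lowerCentralSeries_normal`, `H27.lowerCentralSeries_sup_eq_bot` (Fitting: class of `H ⊔ K` is at most `c + d`).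
-/

namespace H27

open Subgroup
open scoped commutatorElement

variable {G : Type*} [Group G]

theorem commutator_le_iff_map {X Z N : Subgroup G} [N.Normal] :
    ⁅X, Z⁆ ≤ N ↔ ⁅X.map (QuotientGroup.mk' N), Z.map (QuotientGroup.mk' N)⁆ = ⊥ := by
  rw [← Subgroup.map_commutator, Subgroup.map_eq_bot_iff, QuotientGroup.ker_mk']

theorem commutator_le_iff_le_comap {X Z N : Subgroup G} [N.Normal] :
    ⁅X, Z⁆ ≤ N ↔ X ≤ (centralizer (Z.map (QuotientGroup.mk' N) : Set (G ⧸ N))).comap
      (QuotientGroup.mk' N) := by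
  rw [commutator_le_iff_map, commutator_eq_bot_iff_le_centralizer, Subgroup.map_le_iff_le_comap]

theorem commutator_sup_le {X Y Z N : Subgroup G} [N.Normal] (h1 : ⁅X, Z⁆ ≤ N) (h2 : ⁅Y, Z⁆ ≤ N) :
    ⁅X ⊔ Y, Z⁆ ≤ N := by
  rw [commutator_le_iff_le_comap] at *
  exact sup_le h1 h2

theorem commutator_iSup_le {ι : Sort*} {X : ι → Subgroup G} {Z N : Subgroup G} [N.Normal]
    (h : ∀ i, ⁅X i, Z⁆ ≤ N) : ⁅⨆ i, X i, Z⁆ ≤ N := by
  simp only [commutator_le_iff_le_comap] at *
  exact iSup_le h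

theorem commutator_sup_right_le {X Y Z N : Subgroup G} [N.Normal] (h1 : ⁅Z, X⁆ ≤ N)
    (h2 : ⁅Z, Y⁆ ≤ N) : ⁅Z, X ⊔ Y⁆ ≤ N := by
  rw [commutator_comm] at *
  exact commutator_sup_le h1 h2

theorem commutator_closure_le {S : Set G} {Z N : Subgroup G} [N.Normal]
    (h : ∀ s ∈ S, ∀ z ∈ Z, ⁅s, z⁆ ∈ N) : ⁅closure S, Z⁆ ≤ N := by
  rw [commutator_le_iff_le_comap, closure_le]
  intro s hs
  rw [SetLike.mem_coe, Subgroup.mem_comap, mem_centralizer_iff]
  rintro _ ⟨z, hz, rfl⟩
  rw [← commutatorElement_eq_one_iff_mul_comm, ← map_commutatorElement, ← commutatorElement_inv,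
    map_inv, inv_eq_one]
  exact (QuotientGroup.eq_one_iff _).2 (h s hs z hz)

theorem three_subgroups_le {X Y Z N : Subgroup G} [N.Normal] (h1 : ⁅⁅Y, Z⁆, X⁆ ≤ N)
    (h2 : ⁅⁅Z, X⁆, Y⁆ ≤ N) : ⁅⁅X, Y⁆, Z⁆ ≤ N := by
  rw [commutator_le_iff_map, Subgroup.map_commutator] at *
  exact commutator_commutator_eq_bot_of_rotate h1 h2

theorem lowerCentralSeries_normal (H : Subgroup G) [H.Normal] (n : ℕ) :
    (H.lowerCentralSeries n).Normal := by
  induction n with
  | zero => exact ‹H.Normal›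
  | succ n ih => rw [Subgroup.lowerCentralSeries_succ]; infer_instance

/-- shifted lower central series starting at `⊤` -/
def lcsTop (H : Subgroup G) (n : ℕ) : Subgroup G := if n = 0 then ⊤ else H.lowerCentralSeries (n - 1)

theorem lcsTop_normal (H : Subgroup G) [H.Normal] (n : ℕ) : (lcsTop H n).Normal := by
  unfold lcsTop
  split_ifs
  · infer_instance
  · exact lowerCentralSeries_normal H _

theorem commutator_lcsTop_le (H : Subgroup G) [H.Normal] (n : ℕ) :
    ⁅lcsTop H n, H⁆ ≤ lcsTop H (n + 1) := by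
  rcases n with _ | n
  · exact commutator_le_right _ _
  · exact le_of_eq rfl

theorem lowerCentralSeries_sup_le (H K : Subgroup G) [H.Normal] [K.Normal] (n : ℕ) :
    (H ⊔ K).lowerCentralSeries n ≤
      ⨆ i : {i : ℕ × ℕ // i.1 + i.2 = n + 1}, lcsTop H i.1.1 ⊓ lcsTop K i.1.2 := by
  induction n with
  | zero =>
    apply sup_le
    · exact le_iSup_of_le ⟨(1, 0), rfl⟩ (le_inf le_rfl le_top)
    · exact le_iSup_of_le ⟨(0, 1), rfl⟩ (le_inf le_top le_rfl)
  | succ n ih =>
    rw [Subgroup.lowerCentralSeries_succ]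
    refine (commutator_mono ih le_rfl).trans ?_
    haveI : (⨆ i : {i : ℕ × ℕ // i.1 + i.2 = n + 1 + 1}, lcsTop H i.1.1 ⊓ lcsTop K i.1.2).Normal := by
      haveI := fun i => lcsTop_normal H i
      haveI := fun i => lcsTop_normal K i
      infer_instance
    apply commutator_iSup_le
    rintro ⟨⟨i, j⟩, hij⟩
    haveI := lcsTop_normal H i
    haveI := lcsTop_normal K j
    apply commutator_sup_right_le
    · refine le_iSup_of_le ⟨(i + 1, j), by simp only at hij ⊢; omega⟩ (le_inf ?_ ?_)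
      · exact (commutator_mono inf_le_left le_rfl).trans (commutator_lcsTop_le H i)
      · exact (commutator_mono inf_le_right le_rfl).trans (commutator_le_left _ _)
    · refine le_iSup_of_le ⟨(i, j + 1), by simp only at hij ⊢; omega⟩ (le_inf ?_ ?_)
      · exact (commutator_mono inf_le_left le_rfl).trans (commutator_le_left _ _)
      · exact (commutator_mono inf_le_right le_rfl).trans (commutator_lcsTop_le K j)

theorem lowerCentralSeries_sup_eq_bot (H K : Subgroup G) [H.Normal] [K.Normal] (c d : ℕ)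
    (hH : H.lowerCentralSeries c = ⊥) (hK : K.lowerCentralSeries d = ⊥) :
    (H ⊔ K).lowerCentralSeries (c + d) = ⊥ := by
  rw [eq_bot_iff]
  refine (lowerCentralSeries_sup_le H K _).trans (iSup_le ?_)
  rintro ⟨⟨i, j⟩, hij⟩
  simp only at hij ⊢
  by_cases hi : c + 1 ≤ i
  · refine inf_le_left.trans ?_
    rw [lcsTop, if_neg (by omega), ← hH]
    exact Subgroup.lowerCentralSeries_antitone _ (by omega)
  · refine inf_le_right.trans ?_
    rw [lcsTop, if_neg (by omega), ← hK]
    exact Subgroup.lowerCentralSeries_antitone _ (by omega)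

end H27
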