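import Cfsg.Agent.H27.CovF4D

/-! The double cover of `F₄(2)` in dimension 52 over the field with three elements. Checks. -/

set_option maxRecDepth 100000
set_option Elab.async false

namespace H27.CovF4

open Cfsg H13 H15 H14.PK H14.RK

theorem d2c_0 : rng (fun i => cnOk d2D (nthD (.con [] 0 0, 0) d2cs i)) (nat_lit 0) (nat_lit 305) = true := by decide +kernel

theorem st_0 : rng stOk (nat_lit 0) (nat_lit 6) = true := by decide +kernel

theorem st_1 : rng stOk (nat_lit 6) (nat_lit 6) = true := by decide +kernel

theorem st_2 : rng stOk (nat_lit 12) (nat_lit 6) = true := by decide +kernel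

theorem st_3 : rng stOk (nat_lit 18) (nat_lit 6) = true := by decide +kernel

theorem st_5 : rng stOk (nat_lit 30) (nat_lit 6) = true := by decide +kernel

theorem st_7 : rng stOk (nat_lit 42) (nat_lit 6) = true := by decide +kernel

theorem okc : allL (fun c => band (wfT 832 52 c) (Nat.beq (mul c (mul c (mul c c))) one)) lc = true := by decide +kernel

theorem cd2_1 : relOk (f) (shE 49 (pcE d2D)) (nat_lit 246) (nat_lit 97) = true := by decide +kernel

theorem cc : band (f [29, 0] [0, 29, 3, 6]) (f [32, 1] [1, 32, 6]) = true := by decide +kernel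

theorem d2ok : d2D.ok = true := by decide +kernel

theorem d2h3 : band (Nat.ble d2cs.length d2D.fuel) (allL (fun f => force (d2D.wd f) (bdOk d2D.b d2D.N d2D.t)) d2Fs) = true := by decide +kernel

end H27.CovF4
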