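import Cfsg.Agent.H27.CovF4C0
import Cfsg.Agent.H27.CovF4C1

/-! The double cover of `F₄(2)` in dimension 52 over the field with three elements. -/

set_option maxRecDepth 100000
set_option Elab.async false

namespace H27.CovF4

open Cfsg H13 H15 H14.PK H14.RK

theorem d2c : ∀ i < 305, (fun i => cnOk d2D (nthD (.con [] 0 0, 0) d2cs i)) i = true :=
  (rng_add rng_zero d2c_0)

theorem d2ns {G : Type*} [Group G] [Finite G] {g : ℕ → G} (R : PcRel d2D g)
    (hP : d2D.p ^ d2D.n ≤ Nat.card (Subgroup.closure (g '' Set.Iio d2D.n))) (hG : ¬ 2 ^ 26 ∣ Nat.card G) :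
    NoStem 2 G :=
  noStem_of (D := d2D) (show Nat.Prime 2 by norm_num) d2ok R (allR d2cn d2c) (rng_add rng_zero (tgAll_rng d2t_0)) d2h3 hP hG

theorem c2 : Chk (f) (defE ds []) :=
  (ChkT.zero.add c2_0).chk (by decide +kernel)

theorem cd2 : Chk (f) (shE 49 (pcE d2D)) :=
  ((ChkT.zero.add cd2_0).add cd2_1).chk (by decide +kernel)

theorem st : ∀ r < 48, stOk r = true :=
  (rng_add (rng_add (rng_add (rng_add (rng_add (rng_add (rng_add (rng_add rng_zero st_0) st_1) st_2) st_3) st_4) st_5) st_6) st_7)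

/-- coded vectors -/
noncomputable def V : VCod (ZMod 3) (Fin 52) 52 832 app wfT :=
  vcodP (p := 3) (m := 171) (s := 9) (w := 16) (Equiv.refl _) (by decide +kernel)

theorem h1 : wfT 832 52 one = true := by decide +kernel

theorem h2 : V.mat one = 1 := V.mat_one rfl rfl (by decide +kernel)

theorem ok : ∀ c ∈ lc, (V.sem h1 h2).ok c := fun c hc =>
  have k := band_eq_true.1 (allL_iff.1 okc c hc)
  (V.ok_of_mul h1 h2 k.1 ((V.sem h1 h2).wf_mul k.1 ((V.sem h1 h2).wf_mul k.1 k.1)) (Nat.eq_of_beq_eq_true k.2)).1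

/-- the letters -/
noncomputable def g : ℕ → (Matrix (Fin 52) (Fin 52) (ZMod 3))ˣ := (V.sem h1 h2).gen lc

theorem f_iff {u v : List ℕ} : f u v = true ↔ evalW g u = evalW g v := by
  obtain ⟨a, b⟩ := (V.sem h1 h2).prodW_spec ok u
  obtain ⟨c, d⟩ := (V.sem h1 h2).prodW_spec ok v
  exact ⟨fun e => b.symm.trans ((congrArg _ (Nat.eq_of_beq_eq_true e)).trans d),
    fun e => Nat.beq_eq.mpr (V.sem_inj h1 h2 a c (b.trans (e.trans d.symm)))⟩

theorem snd : Snd g f := fun _ _ => f_iff.1

/-- the cover -/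
noncomputable abbrev E := cl g (List.range 48)

theorem hM : ∀ i, bt (defM ds (mask (List.range 48))) i = true → g i ∈ E :=
  ((c2.rel snd).pass E).defM fun i hi => mem_cl i (bt_mask hi)

theorem hE (i : ℕ) (hi : i < 78) : g i ∈ E :=
  hM i (allLt_iff.1 (show allLt (bt (defM ds (mask (List.range 48)))) 78 = true by decide +kernel) i hi)

theorem f_res {u v : List ℕ} (h : ∀ i ∈ u ++ v, i < 78) : f u v = true ↔ evalW (res E g) u = evalW (res E g) v := by
  rw [f_iff, ← coe_evalW_res fun i hi => hE i (h i (List.mem_append_left _ hi)),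
    ← coe_evalW_res fun i hi => hE i (h i (List.mem_append_right _ hi)), Subtype.coe_inj]

theorem cw_lt {r s : ℕ} (hr : r < 48) (hs : s < 48) : ∀ i ∈ St2.cw Lie.chevF4 r s, i < 78 := fun i hi => by
  obtain ⟨c, hc, rfl⟩ := List.mem_map.1 hi
  obtain ⟨u, e, -⟩ := H11.commTerms_spec (D := Lie.chevF4) (r := ⟨r, hr⟩) (s := ⟨s, hs⟩) (List.mem_filter.1 hc).1
  exact e ▸ u.2.trans (by decide)

theorem ab {A : Type*} [CommGroup A] {a b c d e f k l z : A} (h1 : b * a = a * (b * (k * l))) (h2 : c * (d * (k * z)) = d * c)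
    (h3 : f * e = e * (f * l)) : z = 1 := by
  rw [← mul_assoc, mul_comm e f, eq_comm, mul_eq_left] at h3
  rw [h3, mul_one, ← mul_assoc, mul_comm a b, eq_comm, mul_eq_left] at h1
  rwa [h1, one_mul, ← mul_assoc, mul_comm c d, mul_eq_left] at h2

theorem mult {K : Type*} [Field K] [Fintype K] (hK : Fintype.card K = 2) : HasCyclicSchurMultiplier (Lie.chevF4.group K) 2 := by
  have a := cz
  simp only [band_eq_true, allLt_iff, bn_iff] at a
  obtain ⟨a1, a2, a3⟩ := a
  have R := (c2.rel snd).res hM (by decide +kernel)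
  have b : ∀ u v, (u, v) ∈ defE ds [] → evalW (res E g) u = evalW (res E g) v := fun u v h => R (u, v) h
  have hg : cl (res E g) (List.range 48) = ⊤ := closure_res _
  refine St2.mult hK (g := res E g) (z := res E g 48) hg (Subgroup.mem_center_iff.2 fun x =>
      Subgroup.mem_centralizer_singleton_iff.1 (cl_le (K := Subgroup.centralizer {res E g 48}) (fun i hi => ?_) (hg.ge trivial)))
    (by simpa [sq] using (f_res (by simp)).1 (a1 48 (by norm_num)).1) (fun c => a2 ((f_res (by simp)).2 (by simpa using c)))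
    (fun r hr => by simpa using (f_res (by simp; omega)).1 (a1 r (by omega)).1) (fun r hr s hs c d => ?_)
    (fun c => a3 ((f_res (by simp)).2 (by simpa using c))) ?_ fun hN H => d2ns (((cd2.rel snd).res hM cm).sh.pcRel) (H _ ?_ ?_)
      (by rw [hN]; norm_num)
  · have := List.mem_range.1 hi
    simpa [Subgroup.mem_centralizer_singleton_iff] using (f_res (by simp; omega)).1 (a1 i (by omega)).2
  · have k := cw_lt hr hs
    have := allLt_iff.1 (st r hr) s hs
    simp only [bor_eq_true, Nat.beq_eq] at this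
    refine (this.resolve_left (by simpa using ⟨c, d⟩)).imp (fun e => ?_) fun e => ?_
    · simpa [mul_assoc] using (f_res (by simp; exact ⟨by omega, by omega, by omega, k⟩)).1 e
    · simpa [mul_assoc] using (f_res (by simp; exact ⟨by omega, by omega, by omega, k⟩)).1 e
  · have e1 := congrArg Abelianization.of ((f_res (by simp)).1 (band_eq_true.1 cc).1)
    have e2 := congrArg Abelianization.of (b [7, 14, 3, 48] [14, 7] (by decide +kernel))
    have e3 := congrArg Abelianization.of ((f_res (by simp)).1 (band_eq_true.1 cc).2)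
    simp only [evalW_cons, evalW_nil, mul_one, map_mul] at e1 e2 e3
    exact (Abelianization.ker_of _).le (ab e1 e2 e3)
  · exact Subgroup.subset_closure ⟨24, by decide, by simpa using b [73] [48] (by decide +kernel)⟩
  · intro r h1 h2
    obtain ⟨i, c, d⟩ : ∃ i < 24, ([49 + i], [r]) ∈ defE ds [] := by
      rw [defE_eq]; clear * - h1 h2; interval_cases r <;> decide +kernel
    exact Subgroup.subset_closure ⟨i, c.trans (by decide), by simpa using b _ _ d⟩

end H27.CovF4
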