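import Cfsg.Agent.H27.CovF4D

/-! The double cover of `F₄(2)` in dimension 52 over the field with three elements. Checks. -/

set_option maxRecDepth 100000
set_option Elab.async false

namespace H27.CovF4

open Cfsg H13 H15 H14.PK H14.RK

theorem d2t_0 : tgAll d2D d2cs d2Fs d2la (nat_lit 0) (nat_lit 25) = true := by decide +kernel

theorem st_4 : rng stOk (nat_lit 24) (nat_lit 6) = true := by decide +kernel

theorem st_6 : rng stOk (nat_lit 36) (nat_lit 6) = true := by decide +kernel

theorem cd2_0 : relOk (f) (shE 49 (pcE d2D)) (nat_lit 0) (nat_lit 246) = true := by decide +kernel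

theorem cz : band (allLt (fun r => band (f [r, r] []) (f [r, 48] [48, r])) 49) (band (bn (f [48] [])) (bn (f [24, 23] [23, 24]))) = true := by decide +kernel

theorem c2_0 : relOk (f) (defE ds []) (nat_lit 0) (nat_lit 30) = true := by decide +kernel

theorem cm : force (defM ds (mask (List.range 48))) (fun M => allL (fun e => band (inM M e.1) (inM M e.2)) (shE 49 (pcE d2D))) = true := by decide +kernel

theorem d2cn : Nat.beq d2cs.length 305 = true := by decide +kernel

end H27.CovF4
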