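import Cfsg.Agent.H27.CovG24D0

/-! The double cover of `G₂(4)`. Checks. -/

set_option maxRecDepth 100000
set_option Elab.async false

namespace H27.CovG24

open Cfsg H13 H15 H14.PK H14.RK

theorem c1_8 : relOk (fN 15 9429 nets) (ssE lv) (nat_lit 746) (nat_lit 85) = true := by decide +kernel

theorem c1_10 : relOk (fN 15 9429 nets) (ssE lv) (nat_lit 953) (nat_lit 132) = true := by decide +kernel

theorem c1_7 : relOk (fN 15 9429 nets) (ssE lv) (nat_lit 661) (nat_lit 85) = true := by decide +kernel

theorem c1_9 : relOk (fN 15 9429 nets) (ssE lv) (nat_lit 831) (nat_lit 122) = true := by decide +kernel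

theorem c1_4 : relOk (fN 15 9429 nets) (ssE lv) (nat_lit 381) (nat_lit 106) = true := by decide +kernel

theorem c1_0 : relOk (fN 15 9429 nets) (ssE lv) (nat_lit 0) (nat_lit 121) = true := by decide +kernel

theorem d2c_0 : rng (fun i => cnOk d2D (nthD (.con [] 0 0, 0) d2cs i)) (nat_lit 0) (nat_lit 90) = true := by decide +kernel

theorem d2low : MG.pcLow 15 9429 nets (defM ds (ssM lv)) 45 d2D [(nat_lit 75, [nat_lit 2, nat_lit 6]), (nat_lit 136, [nat_lit 0, nat_lit 1]), (nat_lit 4, (unp (nat_lit 4) (nat_lit 0x95303))), (nat_lit 1365, [nat_lit 3, nat_lit 4])] = true := by decide +kernel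

theorem d5low : MG.pcLow 15 9429 nets (defM ds (ssM lv)) 65 d5D [(nat_lit 323, [nat_lit 1]), (nat_lit 332, [nat_lit 0])] = true := by decide +kernel

theorem cd5_0 : relOk (fN 15 9429 nets) (shE 65 (pcE d5D)) (nat_lit 0) (nat_lit 7) = true := by decide +kernel

theorem cd3_0 : relOk (fN 15 9429 nets) (shE 61 (pcE d3D)) (nat_lit 0) (nat_lit 9) = true := by decide +kernel

theorem d5c_0 : rng (fun i => cnOk d5D (nthD (.con [] 0 0, 0) d5cs i)) (nat_lit 0) (nat_lit 3) = true := by decide +kernel

theorem d3c_0 : rng (fun i => cnOk d3D (nthD (.con [] 0 0, 0) d3cs i)) (nat_lit 0) (nat_lit 5) = true := by decide +kernel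

theorem d3t_0 : tgAll d3D d3cs d3Fs d3la (nat_lit 0) (nat_lit 3) = true := by decide +kernel

theorem d5t_0 : tgAll d5D d5cs d5Fs d5la (nat_lit 0) (nat_lit 2) = true := by decide +kernel

theorem d2cn : Nat.beq d2cs.length 90 = true := by decide +kernel

theorem d3ok : d3D.ok = true := by decide +kernel

theorem d3h3 : band (Nat.ble d3cs.length d3D.fuel) (allL (fun f => force (d3D.wd f) (bdOk d3D.b d3D.N d3D.t)) d3Fs) = true := by decide +kernel

theorem d5cn : Nat.beq d5cs.length 3 = true := by decide +kernel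

end H27.CovG24
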