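import Cfsg.Agent.H27.CovG24D0

/-! The double cover of `G₂(4)`. Checks. -/

set_option maxRecDepth 100000
set_option Elab.async false

namespace H27.CovG24

open Cfsg H13 H15 H14.PK H14.RK

theorem c1_5 : relOk (fN 15 9429 nets) (ssE lv) (nat_lit 487) (nat_lit 91) = true := by decide +kernel

theorem c1_2 : relOk (fN 15 9429 nets) (ssE lv) (nat_lit 207) (nat_lit 88) = true := by decide +kernel

theorem c1_1 : relOk (fN 15 9429 nets) (ssE lv) (nat_lit 121) (nat_lit 86) = true := by decide +kernel

theorem c1_6 : relOk (fN 15 9429 nets) (ssE lv) (nat_lit 578) (nat_lit 83) = true := by decide +kernel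

theorem c1_3 : relOk (fN 15 9429 nets) (ssE lv) (nat_lit 295) (nat_lit 86) = true := by decide +kernel

theorem c1_11 : relOk (fN 15 9429 nets) (ssE lv) (nat_lit 1085) (nat_lit 108) = true := by decide +kernel

theorem cd2_0 : relOk (fN 15 9429 nets) (shE 45 (pcE d2D)) (nat_lit 0) (nat_lit 113) = true := by decide +kernel

theorem d2t_0 : tgAll d2D d2cs d2Fs d2la (nat_lit 0) (nat_lit 13) = true := by decide +kernel

theorem d3low : MG.pcLow 15 9429 nets (defM ds (ssM lv)) 61 d3D [(nat_lit 12, [nat_lit 1]), (nat_lit 22, [nat_lit 0]), (nat_lit 0, [nat_lit 2])] = true := by decide +kernel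

theorem c2_0 : relOk (fN 15 9429 nets) (defE ds []) (nat_lit 0) (nat_lit 24) = true := by decide +kernel

theorem okN : H13.band (Nat.blt 0 15) (H13.band (Nat.ble 9429 (p2 (15 - 1))) (allL (Net.ok 15 9429) nets)) = true := by decide +kernel

theorem d2ok : d2D.ok = true := by decide +kernel

theorem d2h3 : band (Nat.ble d2cs.length d2D.fuel) (allL (fun f => force (d2D.wd f) (bdOk d2D.b d2D.N d2D.t)) d2Fs) = true := by decide +kernel

theorem d3cn : Nat.beq d3cs.length 5 = true := by decide +kernel

theorem d5ok : d5D.ok = true := by decide +kernel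

theorem d5h3 : band (Nat.ble d5cs.length d5D.fuel) (allL (fun f => force (d5D.wd f) (bdOk d5D.b d5D.N d5D.t)) d5Fs) = true := by decide +kernel

end H27.CovG24
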