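import Cfsg.Agent.H27.CovMcD

/-! The triple cover of the McLaughlin group. Checks. -/

set_option maxRecDepth 100000
set_option Elab.async false

namespace H27.CovMc

open Cfsg H13 H15 H14.PK H14.RK

theorem c1_7 : relOk (MG.relS 67100 17 nets) (ssE lv) (nat_lit 84) (nat_lit 11) = true := by decide +kernel

theorem c1_93 : relOk (MG.relS 67100 17 nets) (ssE lv) (nat_lit 615) (nat_lit 7) = true := by decide +kernel

theorem c1_16 : relOk (MG.relS 67100 17 nets) (ssE lv) (nat_lit 140) (nat_lit 6) = true := by decide +kernel

theorem c1_132 : relOk (MG.relS 67100 17 nets) (ssE lv) (nat_lit 1019) (nat_lit 16) = true := by decide +kernel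

theorem c1_117 : relOk (MG.relS 67100 17 nets) (ssE lv) (nat_lit 805) (nat_lit 9) = true := by decide +kernel

theorem c1_64 : relOk (MG.relS 67100 17 nets) (ssE lv) (nat_lit 441) (nat_lit 6) = true := by decide +kernel

theorem c1_121 : relOk (MG.relS 67100 17 nets) (ssE lv) (nat_lit 849) (nat_lit 24) = true := by decide +kernel

theorem c1_73 : relOk (MG.relS 67100 17 nets) (ssE lv) (nat_lit 491) (nat_lit 5) = true := by decide +kernel

theorem c1_108 : relOk (MG.relS 67100 17 nets) (ssE lv) (nat_lit 738) (nat_lit 6) = true := by decide +kernel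

theorem c1_72 : relOk (MG.relS 67100 17 nets) (ssE lv) (nat_lit 486) (nat_lit 5) = true := by decide +kernel

theorem c1_51 : relOk (MG.relS 67100 17 nets) (ssE lv) (nat_lit 362) (nat_lit 10) = true := by decide +kernel

theorem c1_19 : relOk (MG.relS 67100 17 nets) (ssE lv) (nat_lit 157) (nat_lit 5) = true := by decide +kernel

theorem c1_129 : relOk (MG.relS 67100 17 nets) (ssE lv) (nat_lit 981) (nat_lit 11) = true := by decide +kernel

theorem c1_119 : relOk (MG.relS 67100 17 nets) (ssE lv) (nat_lit 829) (nat_lit 11) = true := by decide +kernel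

theorem c1_78 : relOk (MG.relS 67100 17 nets) (ssE lv) (nat_lit 514) (nat_lit 5) = true := by decide +kernel

theorem c1_35 : relOk (MG.relS 67100 17 nets) (ssE lv) (nat_lit 235) (nat_lit 5) = true := by decide +kernel

theorem c1_87 : relOk (MG.relS 67100 17 nets) (ssE lv) (nat_lit 553) (nat_lit 16) = true := by decide +kernel

theorem c1_91 : relOk (MG.relS 67100 17 nets) (ssE lv) (nat_lit 599) (nat_lit 8) = true := by decide +kernel

theorem c1_30 : relOk (MG.relS 67100 17 nets) (ssE lv) (nat_lit 212) (nat_lit 4) = true := by decide +kernel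

theorem c1_111 : relOk (MG.relS 67100 17 nets) (ssE lv) (nat_lit 757) (nat_lit 5) = true := by decide +kernel

theorem c1_34 : relOk (MG.relS 67100 17 nets) (ssE lv) (nat_lit 231) (nat_lit 4) = true := by decide +kernel

theorem c1_38 : relOk (MG.relS 67100 17 nets) (ssE lv) (nat_lit 250) (nat_lit 4) = true := by decide +kernel

theorem c1_84 : relOk (MG.relS 67100 17 nets) (ssE lv) (nat_lit 541) (nat_lit 4) = true := by decide +kernel

theorem cr : band (Nat.ble 275 67100) (MG.all2 (MG.resP 67100 17 nets 9 275) (gsOf lv) Ls) = true := by decide +kernel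

theorem d3ok : d3D.ok = true := by decide +kernel

end H27.CovMc
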