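import Cfsg.Agent.H27.CovMcD

/-! The triple cover of the McLaughlin group. Checks. -/

set_option maxRecDepth 100000
set_option Elab.async false

namespace H27.CovMc

open Cfsg H13 H15 H14.PK H14.RK

theorem c1_43 : relOk (MG.relS 67100 17 nets) (ssE lv) (nat_lit 272) (nat_lit 5) = true := by decide +kernel

theorem c1_109 : relOk (MG.relS 67100 17 nets) (ssE lv) (nat_lit 744) (nat_lit 7) = true := by decide +kernel

theorem c1_67 : relOk (MG.relS 67100 17 nets) (ssE lv) (nat_lit 457) (nat_lit 6) = true := by decide +kernel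

theorem c1_15 : relOk (MG.relS 67100 17 nets) (ssE lv) (nat_lit 134) (nat_lit 6) = true := by decide +kernel

theorem c1_41 : relOk (MG.relS 67100 17 nets) (ssE lv) (nat_lit 263) (nat_lit 5) = true := by decide +kernel

theorem cd3_1 : relOk (MG.relS 67100 17 nets) (shE 28 (pcE d3D)) (nat_lit 22) (nat_lit 13) = true := by decide +kernel

theorem c1_37 : relOk (MG.relS 67100 17 nets) (ssE lv) (nat_lit 245) (nat_lit 5) = true := by decide +kernel

theorem c1_102 : relOk (MG.relS 67100 17 nets) (ssE lv) (nat_lit 676) (nat_lit 18) = true := by decide +kernel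

theorem c1_92 : relOk (MG.relS 67100 17 nets) (ssE lv) (nat_lit 607) (nat_lit 8) = true := by decide +kernel

theorem c1_74 : relOk (MG.relS 67100 17 nets) (ssE lv) (nat_lit 496) (nat_lit 5) = true := by decide +kernel

theorem c1_128 : relOk (MG.relS 67100 17 nets) (ssE lv) (nat_lit 966) (nat_lit 15) = true := by decide +kernel

theorem c1_1 : relOk (MG.relS 67100 17 nets) (ssE lv) (nat_lit 24) (nat_lit 13) = true := by decide +kernel

theorem c1_82 : relOk (MG.relS 67100 17 nets) (ssE lv) (nat_lit 531) (nat_lit 5) = true := by decide +kernel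

theorem c1_0 : relOk (MG.relS 67100 17 nets) (ssE lv) (nat_lit 0) (nat_lit 24) = true := by decide +kernel

theorem c1_130 : relOk (MG.relS 67100 17 nets) (ssE lv) (nat_lit 992) (nat_lit 9) = true := by decide +kernel

theorem c1_100 : relOk (MG.relS 67100 17 nets) (ssE lv) (nat_lit 660) (nat_lit 6) = true := by decide +kernel

theorem c1_13 : relOk (MG.relS 67100 17 nets) (ssE lv) (nat_lit 123) (nat_lit 5) = true := by decide +kernel

theorem c1_44 : relOk (MG.relS 67100 17 nets) (ssE lv) (nat_lit 277) (nat_lit 13) = true := by decide +kernel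

theorem c1_5 : relOk (MG.relS 67100 17 nets) (ssE lv) (nat_lit 67) (nat_lit 11) = true := by decide +kernel

theorem c1_98 : relOk (MG.relS 67100 17 nets) (ssE lv) (nat_lit 648) (nat_lit 6) = true := by decide +kernel

theorem c1_17 : relOk (MG.relS 67100 17 nets) (ssE lv) (nat_lit 146) (nat_lit 6) = true := by decide +kernel

theorem c1_26 : relOk (MG.relS 67100 17 nets) (ssE lv) (nat_lit 194) (nat_lit 4) = true := by decide +kernel

theorem c1_79 : relOk (MG.relS 67100 17 nets) (ssE lv) (nat_lit 519) (nat_lit 4) = true := by decide +kernel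

theorem ct : allLt (fun i => band (Nat.blt (nd 0 Ts i) (p2 (9 * 275))) (MG.resP 67100 17 nets 9 275 (28 + i) (nd 0 Ts i))) 7 = true := by decide +kernel

theorem d3cn : Nat.beq d3cs.length 27 = true := by decide +kernel

end H27.CovMc
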