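import Cfsg.Agent.H27.CovMcD

/-! The triple cover of the McLaughlin group. Checks. -/

set_option maxRecDepth 100000
set_option Elab.async false

namespace H27.CovMc

open Cfsg H13 H15 H14.PK H14.RK

theorem c1_49 : relOk (MG.relS 67100 17 nets) (ssE lv) (nat_lit 344) (nat_lit 6) = true := by decide +kernel

theorem c1_101 : relOk (MG.relS 67100 17 nets) (ssE lv) (nat_lit 666) (nat_lit 10) = true := by decide +kernel

theorem cd3_0 : relOk (MG.relS 67100 17 nets) (shE 28 (pcE d3D)) (nat_lit 0) (nat_lit 22) = true := by decide +kernel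

theorem c1_22 : relOk (MG.relS 67100 17 nets) (ssE lv) (nat_lit 173) (nat_lit 6) = true := by decide +kernel

theorem c1_120 : relOk (MG.relS 67100 17 nets) (ssE lv) (nat_lit 840) (nat_lit 9) = true := by decide +kernel

theorem c1_94 : relOk (MG.relS 67100 17 nets) (ssE lv) (nat_lit 622) (nat_lit 7) = true := by decide +kernel

theorem c1_31 : relOk (MG.relS 67100 17 nets) (ssE lv) (nat_lit 216) (nat_lit 5) = true := by decide +kernel

theorem c1_52 : relOk (MG.relS 67100 17 nets) (ssE lv) (nat_lit 372) (nat_lit 7) = true := by decide +kernel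

theorem c1_61 : relOk (MG.relS 67100 17 nets) (ssE lv) (nat_lit 426) (nat_lit 5) = true := by decide +kernel

theorem c1_65 : relOk (MG.relS 67100 17 nets) (ssE lv) (nat_lit 447) (nat_lit 5) = true := by decide +kernel

theorem c1_110 : relOk (MG.relS 67100 17 nets) (ssE lv) (nat_lit 751) (nat_lit 6) = true := by decide +kernel

theorem c1_50 : relOk (MG.relS 67100 17 nets) (ssE lv) (nat_lit 350) (nat_lit 12) = true := by decide +kernel

theorem c1_133 : relOk (MG.relS 67100 17 nets) (ssE lv) (nat_lit 1035) (nat_lit 28) = true := by decide +kernel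

theorem c1_89 : relOk (MG.relS 67100 17 nets) (ssE lv) (nat_lit 582) (nat_lit 8) = true := by decide +kernel

theorem c1_69 : relOk (MG.relS 67100 17 nets) (ssE lv) (nat_lit 470) (nat_lit 5) = true := by decide +kernel

theorem c1_104 : relOk (MG.relS 67100 17 nets) (ssE lv) (nat_lit 710) (nat_lit 8) = true := by decide +kernel

theorem c1_55 : relOk (MG.relS 67100 17 nets) (ssE lv) (nat_lit 388) (nat_lit 6) = true := by decide +kernel

theorem c1_62 : relOk (MG.relS 67100 17 nets) (ssE lv) (nat_lit 431) (nat_lit 5) = true := by decide +kernel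

theorem c1_53 : relOk (MG.relS 67100 17 nets) (ssE lv) (nat_lit 379) (nat_lit 5) = true := by decide +kernel

theorem c2_0 : relOk (MG.relS 67100 17 nets) (defE ds []) (nat_lit 0) (nat_lit 10) = true := by decide +kernel

theorem c1_75 : relOk (MG.relS 67100 17 nets) (ssE lv) (nat_lit 501) (nat_lit 4) = true := by decide +kernel

theorem c1_42 : relOk (MG.relS 67100 17 nets) (ssE lv) (nat_lit 268) (nat_lit 4) = true := by decide +kernel

theorem c1_80 : relOk (MG.relS 67100 17 nets) (ssE lv) (nat_lit 523) (nat_lit 4) = true := by decide +kernel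

theorem cp : allL (fun e => MG.relS 67100 17 nets e.1 e.2) [(H15.pw [0] 11, []), (H15.pw [1] 8, []), (H15.pw [0, 1] 21, [])] = true := by decide +kernel

theorem d3h3 : band (Nat.ble d3cs.length d3D.fuel) (allL (fun f => force (d3D.wd f) (bdOk d3D.b d3D.N d3D.t)) d3Fs) = true := by decide +kernel

end H27.CovMc
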