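import Cfsg.Agent.H27.CovMcD

/-! The triple cover of the McLaughlin group. Checks. -/

set_option maxRecDepth 100000
set_option Elab.async false

namespace H27.CovMc

open Cfsg H13 H15 H14.PK H14.RK

theorem c1_70 : relOk (MG.relS 67100 17 nets) (ssE lv) (nat_lit 475) (nat_lit 6) = true := by decide +kernel

theorem c1_23 : relOk (MG.relS 67100 17 nets) (ssE lv) (nat_lit 179) (nat_lit 6) = true := by decide +kernel

theorem c1_105 : relOk (MG.relS 67100 17 nets) (ssE lv) (nat_lit 718) (nat_lit 7) = true := by decide +kernel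

theorem c1_20 : relOk (MG.relS 67100 17 nets) (ssE lv) (nat_lit 162) (nat_lit 5) = true := by decide +kernel

theorem c1_60 : relOk (MG.relS 67100 17 nets) (ssE lv) (nat_lit 420) (nat_lit 6) = true := by decide +kernel

theorem c1_103 : relOk (MG.relS 67100 17 nets) (ssE lv) (nat_lit 694) (nat_lit 16) = true := by decide +kernel

theorem c1_21 : relOk (MG.relS 67100 17 nets) (ssE lv) (nat_lit 167) (nat_lit 6) = true := by decide +kernel

theorem c1_3 : relOk (MG.relS 67100 17 nets) (ssE lv) (nat_lit 50) (nat_lit 9) = true := by decide +kernel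

theorem c1_123 : relOk (MG.relS 67100 17 nets) (ssE lv) (nat_lit 887) (nat_lit 19) = true := by decide +kernel

theorem c1_57 : relOk (MG.relS 67100 17 nets) (ssE lv) (nat_lit 401) (nat_lit 5) = true := by decide +kernel

theorem c1_33 : relOk (MG.relS 67100 17 nets) (ssE lv) (nat_lit 226) (nat_lit 5) = true := by decide +kernel

theorem c1_63 : relOk (MG.relS 67100 17 nets) (ssE lv) (nat_lit 436) (nat_lit 5) = true := by decide +kernel

theorem c1_47 : relOk (MG.relS 67100 17 nets) (ssE lv) (nat_lit 321) (nat_lit 14) = true := by decide +kernel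

theorem c1_58 : relOk (MG.relS 67100 17 nets) (ssE lv) (nat_lit 406) (nat_lit 8) = true := by decide +kernel

theorem c1_106 : relOk (MG.relS 67100 17 nets) (ssE lv) (nat_lit 725) (nat_lit 6) = true := by decide +kernel

theorem c1_86 : relOk (MG.relS 67100 17 nets) (ssE lv) (nat_lit 549) (nat_lit 4) = true := by decide +kernel

theorem c1_12 : relOk (MG.relS 67100 17 nets) (ssE lv) (nat_lit 118) (nat_lit 5) = true := by decide +kernel

theorem c1_77 : relOk (MG.relS 67100 17 nets) (ssE lv) (nat_lit 509) (nat_lit 5) = true := by decide +kernel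

theorem c1_76 : relOk (MG.relS 67100 17 nets) (ssE lv) (nat_lit 505) (nat_lit 4) = true := by decide +kernel

theorem c1_95 : relOk (MG.relS 67100 17 nets) (ssE lv) (nat_lit 629) (nat_lit 6) = true := by decide +kernel

theorem c1_27 : relOk (MG.relS 67100 17 nets) (ssE lv) (nat_lit 198) (nat_lit 4) = true := by decide +kernel

theorem c1_54 : relOk (MG.relS 67100 17 nets) (ssE lv) (nat_lit 384) (nat_lit 4) = true := by decide +kernel

theorem c1_85 : relOk (MG.relS 67100 17 nets) (ssE lv) (nat_lit 545) (nat_lit 4) = true := by decide +kernel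

theorem cl3 : band (force (defM ds (ssM lv)) fun K => band (allL (fun e => band (inM K e.1) (inM K e.2)) (shE 28 (pcE d3D))) (allLt (fun i => bt K (28 + i)) d3D.n))
    (band (band (allL (fun i => band (Nat.ble 28 i) (Nat.blt i (28 + d3D.n))) [34, 34]) (MG.relS 67100 17 nets [15] [34, 34]))
      (band (Nat.blt 0 (d3D.p ^ d3D.n)) (Nat.beq (3 * MG.lowN 9 275 (MG.selC 9 275 Ts [(nat_lit 136, (unp (nat_lit 2) (nat_lit 0x2403))), (nat_lit 141, [nat_lit 0, nat_lit 1])]) []) (d3D.p ^ d3D.n)))) = true := by decide +kernel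

end H27.CovMc
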