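import Cfsg.Agent.H27.CovMcD

/-! The triple cover of the McLaughlin group. Checks. -/

set_option maxRecDepth 100000
set_option Elab.async false

namespace H27.CovMc

open Cfsg H13 H15 H14.PK H14.RK

theorem c1_83 : relOk (MG.relS 67100 17 nets) (ssE lv) (nat_lit 536) (nat_lit 5) = true := by decide +kernel

theorem c1_11 : relOk (MG.relS 67100 17 nets) (ssE lv) (nat_lit 112) (nat_lit 6) = true := by decide +kernel

theorem c1_45 : relOk (MG.relS 67100 17 nets) (ssE lv) (nat_lit 290) (nat_lit 18) = true := by decide +kernel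

theorem c1_68 : relOk (MG.relS 67100 17 nets) (ssE lv) (nat_lit 463) (nat_lit 7) = true := by decide +kernel

theorem c1_97 : relOk (MG.relS 67100 17 nets) (ssE lv) (nat_lit 641) (nat_lit 7) = true := by decide +kernel

theorem c1_2 : relOk (MG.relS 67100 17 nets) (ssE lv) (nat_lit 37) (nat_lit 13) = true := by decide +kernel

theorem c1_125 : relOk (MG.relS 67100 17 nets) (ssE lv) (nat_lit 918) (nat_lit 18) = true := by decide +kernel

theorem c1_99 : relOk (MG.relS 67100 17 nets) (ssE lv) (nat_lit 654) (nat_lit 6) = true := by decide +kernel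

theorem c1_46 : relOk (MG.relS 67100 17 nets) (ssE lv) (nat_lit 308) (nat_lit 13) = true := by decide +kernel

theorem c1_107 : relOk (MG.relS 67100 17 nets) (ssE lv) (nat_lit 731) (nat_lit 7) = true := by decide +kernel

theorem c1_8 : relOk (MG.relS 67100 17 nets) (ssE lv) (nat_lit 95) (nat_lit 7) = true := by decide +kernel

theorem c1_127 : relOk (MG.relS 67100 17 nets) (ssE lv) (nat_lit 947) (nat_lit 19) = true := by decide +kernel

theorem c1_112 : relOk (MG.relS 67100 17 nets) (ssE lv) (nat_lit 762) (nat_lit 6) = true := by decide +kernel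

theorem c1_116 : relOk (MG.relS 67100 17 nets) (ssE lv) (nat_lit 784) (nat_lit 21) = true := by decide +kernel

theorem c1_28 : relOk (MG.relS 67100 17 nets) (ssE lv) (nat_lit 202) (nat_lit 5) = true := by decide +kernel

theorem c1_96 : relOk (MG.relS 67100 17 nets) (ssE lv) (nat_lit 635) (nat_lit 6) = true := by decide +kernel

theorem c1_24 : relOk (MG.relS 67100 17 nets) (ssE lv) (nat_lit 185) (nat_lit 5) = true := by decide +kernel

theorem c1_39 : relOk (MG.relS 67100 17 nets) (ssE lv) (nat_lit 254) (nat_lit 4) = true := by decide +kernel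

theorem c1_81 : relOk (MG.relS 67100 17 nets) (ssE lv) (nat_lit 527) (nat_lit 4) = true := by decide +kernel

theorem c1_113 : relOk (MG.relS 67100 17 nets) (ssE lv) (nat_lit 768) (nat_lit 5) = true := by decide +kernel

theorem c1_56 : relOk (MG.relS 67100 17 nets) (ssE lv) (nat_lit 394) (nat_lit 7) = true := by decide +kernel

theorem c1_18 : relOk (MG.relS 67100 17 nets) (ssE lv) (nat_lit 152) (nat_lit 5) = true := by decide +kernel

theorem c1_9 : relOk (MG.relS 67100 17 nets) (ssE lv) (nat_lit 102) (nat_lit 5) = true := by decide +kernel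

theorem cz : MG.zP 67100 17 nets 9 275 898128000 lv 15 3 275 = true := by decide +kernel

theorem d3t_0 : tgAll d3D d3cs d3Fs d3la (nat_lit 0) (nat_lit 7) = true := by decide +kernel

end H27.CovMc
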