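import Cfsg.Agent.H27.CovMcD

/-! The triple cover of the McLaughlin group. Checks. -/

set_option maxRecDepth 100000
set_option Elab.async false

namespace H27.CovMc

open Cfsg H13 H15 H14.PK H14.RK

theorem c1_88 : relOk (MG.relS 67100 17 nets) (ssE lv) (nat_lit 569) (nat_lit 13) = true := by decide +kernel

theorem c1_32 : relOk (MG.relS 67100 17 nets) (ssE lv) (nat_lit 221) (nat_lit 5) = true := by decide +kernel

theorem c1_66 : relOk (MG.relS 67100 17 nets) (ssE lv) (nat_lit 452) (nat_lit 5) = true := by decide +kernel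

theorem c1_122 : relOk (MG.relS 67100 17 nets) (ssE lv) (nat_lit 873) (nat_lit 14) = true := by decide +kernel

theorem c1_115 : relOk (MG.relS 67100 17 nets) (ssE lv) (nat_lit 778) (nat_lit 6) = true := by decide +kernel

theorem c1_14 : relOk (MG.relS 67100 17 nets) (ssE lv) (nat_lit 128) (nat_lit 6) = true := by decide +kernel

theorem c1_131 : relOk (MG.relS 67100 17 nets) (ssE lv) (nat_lit 1001) (nat_lit 18) = true := by decide +kernel

theorem c1_124 : relOk (MG.relS 67100 17 nets) (ssE lv) (nat_lit 906) (nat_lit 12) = true := by decide +kernel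

theorem c1_59 : relOk (MG.relS 67100 17 nets) (ssE lv) (nat_lit 414) (nat_lit 6) = true := by decide +kernel

theorem c1_29 : relOk (MG.relS 67100 17 nets) (ssE lv) (nat_lit 207) (nat_lit 5) = true := by decide +kernel

theorem c1_118 : relOk (MG.relS 67100 17 nets) (ssE lv) (nat_lit 814) (nat_lit 15) = true := by decide +kernel

theorem c1_6 : relOk (MG.relS 67100 17 nets) (ssE lv) (nat_lit 78) (nat_lit 6) = true := by decide +kernel

theorem c1_71 : relOk (MG.relS 67100 17 nets) (ssE lv) (nat_lit 481) (nat_lit 5) = true := by decide +kernel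

theorem c1_126 : relOk (MG.relS 67100 17 nets) (ssE lv) (nat_lit 936) (nat_lit 11) = true := by decide +kernel

theorem c1_36 : relOk (MG.relS 67100 17 nets) (ssE lv) (nat_lit 240) (nat_lit 5) = true := by decide +kernel

theorem c1_4 : relOk (MG.relS 67100 17 nets) (ssE lv) (nat_lit 59) (nat_lit 8) = true := by decide +kernel

theorem c1_90 : relOk (MG.relS 67100 17 nets) (ssE lv) (nat_lit 590) (nat_lit 9) = true := by decide +kernel

theorem c1_40 : relOk (MG.relS 67100 17 nets) (ssE lv) (nat_lit 258) (nat_lit 5) = true := by decide +kernel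

theorem c1_114 : relOk (MG.relS 67100 17 nets) (ssE lv) (nat_lit 773) (nat_lit 5) = true := by decide +kernel

theorem c1_10 : relOk (MG.relS 67100 17 nets) (ssE lv) (nat_lit 107) (nat_lit 5) = true := by decide +kernel

theorem c1_25 : relOk (MG.relS 67100 17 nets) (ssE lv) (nat_lit 190) (nat_lit 4) = true := by decide +kernel

theorem c1_48 : relOk (MG.relS 67100 17 nets) (ssE lv) (nat_lit 335) (nat_lit 9) = true := by decide +kernel

theorem cd3_2 : relOk (MG.relS 67100 17 nets) (shE 28 (pcE d3D)) (nat_lit 35) (nat_lit 8) = true := by decide +kernel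

theorem okN : allL (Net.ok 1 67100) nets = true := by decide +kernel

theorem d3c_0 : rng (fun i => cnOk d3D (nthD (.con [] 0 0, 0) d3cs i)) (nat_lit 0) (nat_lit 27) = true := by decide +kernel

end H27.CovMc
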