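import Cfsg.Agent.H27.CovB
import Cfsg.Agent.H13.Stage

/-!
Covers of large degree given by width-one networks (namespace `H27.MG`): `relS`, `resP`, `exists_resP`, `cover_pl`, `ns_pl`.
-/

set_option autoImplicit false

namespace H27.MG
open H13 H14.PK H14.PK.TS H14.RK H27.PKx Cfsg

/-- equal words, or equal tables -/
noncomputable def relS (m b : ℕ) (nets : List Net) (u v : List ℕ) : Bool := bor (beqW u v) (relP m b nets u v)

/-- the letter `l` acts on the first `n` points by the table `t` -/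
noncomputable def resP (m b : ℕ) (nets : List Net) (w n l t : ℕ) : Bool := band (Nat.ble m (p2 b))
  (force (apP m b nets l (idP m b)) fun X => force t fun t => allLt (fun i => Nat.beq (lv m X i b) (get w t i)) n)

/-- the letter `l` moves the point `j` -/
noncomputable def mvP (m : ℕ) (nets : List Net) (l j : ℕ) : Bool :=
  band (Nat.blt j m) (bn (((nth nets l).ap (p2 j)).testBit j))

variable {m b : ℕ} [NeZero m] {nets : List Net} {h : ℕ → Equiv.Perm (Fin m)} (Y : Sys1 (finPts m) h nets)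
include Y

theorem sndS : Snd h (relS m b nets) := fun _ _ e => (bor_eq_true.1 e).elim (fun e => eq_of_beqW e ▸ rfl)
  fun e => Y.eq_perm (finPts_all m) e

theorem ix_eq (l : ℕ) (j : Fin m) : (finPts m).ix (h l) j = h l j := by
  obtain ⟨a, c⟩ := Y.rep_gen l j j.2
  have d : (finPts m).pt j = j := Fin.ext (Nat.mod_eq_of_lt j.2)
  rw [d] at c
  exact ((congrArg Fin.val c).trans (Nat.mod_eq_of_lt a)).symm

theorem resP_spec {w n l t : ℕ} (e : resP m b nets w n l t = true) (j : Fin m) (hj : (j : ℕ) < n) : (h l j : ℕ) = get w t j := by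
  simp only [resP, band_eq_true, force_eq, Nat.ble_eq, p2_eq, allLt_iff, Nat.beq_eq] at e
  rw [← e.2 j hj, ← ix_eq Y]
  exact ((Y.lv_apP b l _ j.2).trans (lv_idP (Y.rep_gen l j j.2).1 e.1)).symm

theorem mvP_spec {l j : ℕ} (e : mvP m nets l j = true) : h l ≠ 1 := fun c => by
  simp only [mvP, band_eq_true, Nat.blt_eq, bn_iff] at e
  refine e.2 ((Y.testBit_ap l _ e.1).trans ?_)
  rw [show (finPts m).ix (h l) j = j from (ix_eq Y l ⟨j, e.1⟩).trans (by rw [c]; rfl), p2_eq, Nat.testBit_two_pow_self]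

variable {G : Type*} [Group G] {w n : ℕ} {S : TS G w n} {Ls bs : List ℕ} {N : ℕ} (M : Mdl S Ls bs N)
include M

theorem exists_resP {gs : List ℕ} (e : band (Nat.ble n m) (all2 (resP m b nets w n) gs Ls) = true) :
    ∃ σ : cl h gs →* G, Function.Surjective σ ∧
      ∀ (x : cl h gs) (l t : ℕ), x.1 = h l → resP m b nets w n l t = true → ∀ i < n, S.ap (σ x) i = get w t i := by
  obtain ⟨e1, e2⟩ := band_eq_true.1 e
  rw [Nat.ble_eq] at e1
  obtain ⟨e2, e3⟩ := all2_spec e2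
  let r : Equiv.Perm (Fin m) → G → Prop := fun x g => ∀ j : Fin m, (j : ℕ) < n → (x j : ℕ) = S.ap g j
  have r1 : ∀ {x y g k}, r x g → r y k → r (x * y) (g * k) := fun {x y g k} a1 a2 j hj => by
    rw [S.ap_mul _ _ hj, ← a2 j hj]; exact a1 _ (a2 j hj ▸ S.ap_lt k hj)
  have r2 : ∀ {x g k}, r x g → r x k → g = k := fun {x g k} a1 a2 => S.ext fun i hi =>
    (a1 ⟨i, by omega⟩ hi).symm.trans (a2 _ hi)
  have r3 : ∀ l, ∀ t ∈ Ls, resP m b nets w n l t = true → r (h l) (S.el t) := fun l t ht c j hj => by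
    rw [resP_spec Y c j hj, (M.mem t ht).ap_el]
  have r4 : ∀ x : cl h gs, ∃ g, r x.1 g := fun ⟨x, hx⟩ => by
    induction hx using Subgroup.closure_induction'' with
    | one => exact ⟨1, fun j hj => by rw [S.ap_one hj]; rfl⟩
    | mem x hx =>
      obtain ⟨l, hl, rfl⟩ := hx
      obtain ⟨t, ht, c⟩ := e2 l hl
      exact ⟨_, r3 l t ht c⟩
    | inv_mem x hx =>
      obtain ⟨l, hl, rfl⟩ := hx
      obtain ⟨t, ht, c⟩ := e2 l hl
      refine ⟨(S.el t)⁻¹, fun j hj => ?_⟩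
      have k := S.ap_lt (S.el t)⁻¹ hj
      have := r3 l t ht c ⟨S.ap (S.el t)⁻¹ j, by omega⟩ k
      rw [S.ap_ap_inv _ hj, Fin.val_inj] at this
      exact congrArg Fin.val (Equiv.Perm.inv_eq_iff_eq.2 this.symm)
    | mul x y _ _ a1 a2 => exact let ⟨_, b1⟩ := a1; let ⟨_, b2⟩ := a2; ⟨_, r1 b1 b2⟩
  choose f hf using r4
  let σ : cl h gs →* G := MonoidHom.mk' f fun x y => r2 (hf _) (r1 (hf x) (hf y))
  refine ⟨σ, MonoidHom.range_eq_top.1 (eq_top_iff.2 (M.cl.ge.trans (cl_le' fun t ht => ?_))), fun x l t c d i hi =>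
    (hf x ⟨i, by omega⟩ hi).symm.trans (c ▸ resP_spec Y d _ hi)⟩
  obtain ⟨l, hl, c⟩ := e3 t ht
  exact ⟨⟨_, mem_cl l hl⟩, r2 (hf _) (r3 l t ht c)⟩

/-- the conditions on the central letter -/
noncomputable def zP (m b : ℕ) (nets : List Net) (w n N : ℕ) (lv : List SL) (z p j : ℕ) : Bool :=
  band (band (ssOk lv) (Nat.beq (ssN lv) (p * N))) (band (band (bt (ssM lv) z) (relS m b nets (H15.pw [z] p) []))
    (band (allL (fun g => relS m b nets [g, z] [z, g]) (gsOf lv)) (band (resP m b nets w n z (idv w n)) (mvP m nets z j))))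

theorem cover_pl {lv : List SL} (e : band (Nat.ble n m) (all2 (resP m b nets w n) (gsOf lv) Ls) = true)
    (R : Chk (relS m b nets) (ssE lv)) {z p j : ℕ} (hp : p.Prime) (c : zP m b nets w n N lv z p j = true)
    (hc : commutator (cl h (gsOf lv)) = ⊤)
    (ns : ∀ σ : cl h (gsOf lv) →* G, Function.Surjective σ → σ.ker ≤ Subgroup.center _ →
      (∀ (x : cl h (gsOf lv)) (l t : ℕ), x.1 = h l → resP m b nets w n l t = true → ∀ i < n, S.ap (σ x) i = get w t i) →
      (∃ y ∈ σ.ker, y.1 = h z ∧ orderOf y = p) →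
      Nat.card (cl h (gsOf lv)) = p * N → HasCyclicSchurMultiplier (cl h (gsOf lv)) 1) : HasCyclicSchurMultiplier G p := by
  obtain ⟨σ, s1, s2⟩ := exists_resP Y M e
  have : NeZero p := ⟨hp.ne_zero⟩
  have : Unique (ZMod 1) := inferInstanceAs (Unique (Fin 1))
  have := Fact.mk hp
  have R' := R.rel (sndS Y)
  simp only [zP, band_eq_true, allL_iff, Nat.beq_eq] at c
  obtain ⟨⟨c1, c2⟩, ⟨c3, c4⟩, c5, c6, c7⟩ := c
  let y : cl h (gsOf lv) := ⟨h z, R'.ssM z c3⟩
  have a1 : y ^ p = 1 := Subtype.ext (by simpa [H15.evalW_pw] using sndS Y _ _ c4)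
  have a2 : y ∈ Subgroup.center _ := Subgroup.mem_center_iff.2 fun g => Subtype.ext
    (Subgroup.mem_centralizer_singleton_iff.1 (H14.RK.cl_le (K := Subgroup.centralizer {h z})
      (fun i hi => by simpa [Subgroup.mem_centralizer_singleton_iff] using sndS Y _ _ (c5 i hi)) g.2))
  have a3 : σ y = 1 := S.faith _ fun i hi => (s2 y z _ rfl c6 i hi).trans (by rw [← S.tb_one]; exact S.ap_one hi)
  have a4 := (ss_card R' c1).2
  rw [c2] at a4
  have a5 := orderOf_eq_prime a1 fun c => mvP_spec Y c7 (congrArg Subtype.val c)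
  refine H16.hsm_congr (H16.hsm_congr (B := Multiplicative (ZMod p × ZMod 1)) (mult_of_three (q := 1) (r := 1) s1 M.card
    ⟨⟨a3, a2⟩, a1⟩ ⟨one_mem _, one_pow _⟩ ⟨one_mem _, one_pow _⟩ (fun i hi j hj l hl c => by
      have := Nat.eq_zero_of_dvd_of_lt (a5 ▸ orderOf_dvd_of_pow_eq_one (by simpa using c)) hi
      omega) (by simpa using a4) hc fun k => ns σ s1 ?_ s2 ⟨y, a3, rfl, a5⟩ (by simpa using k))
    (AddEquiv.toMultiplicative (AddEquiv.prodCongr (AddEquiv.refl _) AddEquiv.prodUnique)))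
    (AddEquiv.toMultiplicative AddEquiv.prodUnique)
  have d := H16.card_eq_of_surjective σ s1
  have := S.finite
  rw [M.card] at d
  have d4 : Nat.card σ.ker ≤ p := Nat.le_of_mul_le_mul_right (d ▸ a4) (M.card ▸ Nat.card_pos)
  exact (Subgroup.eq_of_le_of_card_ge (Subgroup.zpowers_le.2 a3) (by rwa [Nat.card_zpowers, a5])).ge.trans
    (Subgroup.zpowers_le.2 a2)

omit M in
theorem ns_pl {D : Subgroup (Equiv.Perm (Fin m))} {K : ℕ} (hM : ∀ i, bt K i = true → h i ∈ D) {P : H15.PC} {a : ℕ}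
    (R : Chk (relS m b nets) (shE a (pcE P))) {σ : D →* G}
    (s2 : ∀ (x : D) (l t : ℕ), x.1 = h l → resP m b nets w n l t = true → ∀ i < n, S.ap (σ x) i = get w t i) {z p : ℕ}
    (hy : ∃ y ∈ σ.ker, y.1 = h z ∧ orderOf y = p) {Ts u : List ℕ} {lv : Ch}
    (e : band (force K fun K => band (allL (fun e => band (inM K e.1) (inM K e.2)) (shE a (pcE P))) (allLt (fun i => bt K (a + i)) P.n))
      (band (band (allL (fun i => band (Nat.ble a i) (Nat.blt i (a + P.n))) u) (relS m b nets [z] u))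
        (band (Nat.blt 0 (P.p ^ P.n)) (Nat.beq (p * lowN w n (selC w n Ts lv) []) (P.p ^ P.n)))) = true)
    (e' : ∀ t ∈ Ts, t < 2 ^ (w * n) ∧ ∃ i < P.n, resP m b nets w n (a + i) t = true) {Q : Prop}
    (ns : H15.PcRel P (fun i => res D h (a + i)) →
      P.p ^ P.n ≤ Nat.card (Subgroup.closure ((fun i => res D h (a + i)) '' Set.Iio P.n)) → Q) : Q := by
  obtain ⟨e1, e2⟩ := band_eq_true.1 e
  obtain ⟨e1, e3⟩ := band_eq_true.1 e1
  refine ns ((R.rel (sndS Y)).res hM e1).sh.pcRel ?_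
  set H := Subgroup.closure ((fun i => res D h (a + i)) '' Set.Iio P.n)
  simp only [band_eq_true, Nat.blt_eq, Nat.beq_eq, allL_iff, Nat.ble_eq] at e2
  obtain ⟨⟨e2, e4⟩, e5, e6⟩ := e2
  obtain ⟨y, y1, y2, y3⟩ := hy
  have k : ∀ i < P.n, h (a + i) ∈ H.map D.subtype := fun i hi =>
    ⟨_, Subgroup.subset_closure ⟨i, hi, rfl⟩, coe_res (hM _ (allLt_iff.1 e3 i hi))⟩
  obtain ⟨y', y4, y5⟩ : evalW h u ∈ H.map D.subtype := evalW_mem fun i hi => by
    have := k (i - a) (by have := e2 i hi; omega)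
    rwa [Nat.add_sub_cancel' (e2 i hi).1] at this
  obtain rfl : y' = y := Subtype.ext (y5.trans ((sndS Y _ _ e4).symm.trans (by simp [y2])))
  obtain ⟨ch, b1, b2, -⟩ := low_orb (S := S) (K := H.map σ) (selC_in (Ms := Ts) (fun t ht => by
    obtain ⟨c, i, hi, d⟩ := e' t ht
    obtain ⟨x, x1, x2⟩ := k i hi
    exact ⟨σ x, ⟨x, x1, rfl⟩, tb_eq _ c fun j hj => s2 x _ t x2 d j hj⟩) lv) (fun c => by rw [c] at e6; omega)
  have d := H16.card_eq_of_surjective _ (σ.subgroupMap_surjective H)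
  rw [d, ← e6, ← b2]
  refine Nat.mul_le_mul ?_ b1.le_card
  have : (⟨y', y4⟩ : H) ∈ (σ.subgroupMap H).ker := Subtype.ext y1
  rw [← y3, Subgroup.orderOf_coe (⟨y', y4⟩ : H), ← Nat.card_zpowers]
  exact Subgroup.card_le_of_le (Subgroup.zpowers_le.2 this)

end H27.MG
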