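import Cfsg.Agent.H27.HomB

/-! Sylow and index tools for subgroup classification in models (namespace `H27.MG`):
`KK_cl`, `syl_conj`, `sq_mem`, `mul_dec`, `ncm`, `chr_of`, `chr_map`, `isoB`, `iso_bb`, `cen_up`, `cen_down`. -/

set_option autoImplicit false

namespace H27.MG
open H13 H14.PK H14.PK.TS H27.PKx
open H14.RK (SL gT gsOf ssE ssN fB)

variable {G H : Type*} [Group G] [Group H] {w n v m : ℕ} {S : TS G w n} {S' : TS H v m} {bs bs' Ts Us Ns : List ℕ} {N : ℕ}

theorem KK_cl {k j : ℕ} (h : (List.range' j (k + 1 - j)).map (nd (idv w n) Ts) = Ns) : KK (gn S Ts) k j = S.cl Ns := by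
  rw [← h, TS.cl, KK]
  congr 1
  ext x
  simp only [Set.mem_image, Set.mem_ofPred_eq, List.mem_map, exists_exists_and_eq_and, gn, List.mem_range'_1, Set.mem_Icc]
  exact exists_congr fun i => and_congr_left' (by omega)

theorem syl_conj [Finite G] {p k a : ℕ} (hp : p.Prime) {K P Q : Subgroup G} (h1 : P ≤ K) (h2 : Q ≤ K) (c1 : Nat.card P = p ^ k)
    (c2 : Nat.card Q = p ^ k) (c : Nat.card K = p ^ k * a) (ha : ¬ p ∣ a) : ∃ g ∈ K, P.map (MulAut.conj g).toMonoidHom = Q := by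
  have := Fact.mk hp
  have d : ∀ {P : Subgroup G}, P ≤ K → Nat.card P = p ^ k → ∃ R : Sylow p K, (R : Subgroup K).map K.subtype = P := fun h c1 => by
    have e := (Nat.card_congr (Subgroup.subgroupOfEquivOfLe h).toEquiv).trans c1
    exact ⟨(IsPGroup.of_card e).toSylow (by rwa [index_of_card (pow_pos hp.pos k) e c]), Subgroup.map_subgroupOf_eq_of_le h⟩
  obtain ⟨P, rfl⟩ := d h1 c1
  obtain ⟨Q, rfl⟩ := d h2 c2
  obtain ⟨g, rfl⟩ := MulAction.exists_smul_eq K P Q
  exact ⟨g, g.2, by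
    rw [Subgroup.map_map, show ((g • P : Sylow p K) : Subgroup K) = (P : Subgroup K).map (MulAut.conj g).toMonoidHom from rfl,
      Subgroup.map_map]; rfl⟩

theorem sq_mem [Finite G] {K M : Subgroup G} (h : K ≤ M) (c : Nat.card M ≤ 2 * Nat.card K) {x : G} (hx : x ∈ M) : x * x ∈ K := by
  have e := (K.subgroupOf M).card_mul_index
  rw [Nat.card_congr (Subgroup.subgroupOfEquivOfLe h).toEquiv, mul_comm] at e
  have l := Nat.le_of_mul_le_mul_right (e.le.trans c) Nat.card_pos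
  have := (K.subgroupOf M).index_ne_zero_of_finite
  rcases (by omega : (K.subgroupOf M).index = 1 ∨ (K.subgroupOf M).index = 2) with a | a
  · exact (Subgroup.index_eq_one.1 a).ge (Subgroup.mem_top (⟨x, hx⟩ * ⟨x, hx⟩ : M))
  · exact Subgroup.mul_self_mem_of_index_two a ⟨x, hx⟩

theorem mul_dec [Finite G] {C R T : Subgroup G} (h1 : R ≤ C) (h2 : T ≤ C) (c : Nat.card R * Nat.card T = Nat.card C)
    (d : (Nat.card R).Coprime (Nat.card T)) {y : G} (hy : y ∈ C) : ∃ r ∈ R, ∃ t ∈ T, y = r * t := by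
  rw [← Nat.card_congr (Subgroup.subgroupOfEquivOfLe h1).toEquiv, ← Nat.card_congr (Subgroup.subgroupOfEquivOfLe h2).toEquiv] at c d
  obtain ⟨⟨r, t⟩, e⟩ := (Subgroup.isComplement'_of_coprime c d).2 ⟨y, hy⟩
  exact ⟨_, r.2, _, t.2, (congrArg Subtype.val e).symm⟩

/-- the tables do not commute -/
noncomputable def ncm (w : ℕ) (bs : List ℕ) (E F : ℕ) : Bool := force E fun E => force F fun F =>
  anyL (fun y => bn (Nat.beq (get w E (get w F y)) (get w F (get w E y)))) bs

theorem ncm_spec (hb : S.Base bs) {x y : G} (e : ncm w bs (S.tb x) (S.tb y) = true) : ¬ Commute x y := fun c => by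
  obtain ⟨i, a, e⟩ := anyL_iff.1 e
  exact bn_iff.1 e (Nat.beq_eq ▸ (S.ap_mul _ _ (hb.1 i a)).symm.trans (c.eq ▸ S.ap_mul _ _ (hb.1 i a)))

theorem chr_of {A : Subgroup G} (hA : ∀ a ∈ A, ∀ b ∈ A, Commute a b) {y a u : G} (hy : y ∈ Subgroup.normalizer (A : Set G))
    (ha : a ∈ A) (hu : u ∈ A) (c : Commute (y * a) (u * (y * a) * u⁻¹)) : Commute y (u * y * u⁻¹) := by
  have d : y⁻¹ * u * y * u⁻¹ ∈ A := mul_mem ((Subgroup.mem_normalizer_iff''.1 hy u).1 hu) (inv_mem hu)
  have e : u * (y * a) * u⁻¹ = y * a * (y⁻¹ * u * y * u⁻¹) := by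
    rw [mul_assoc y, (hA _ ha _ d).eq, mul_assoc (y⁻¹ * u * y), (hA _ (inv_mem hu) _ ha).eq]; group
  have f := (Commute.refl (y * a)).inv_right.mul_right c
  rw [e, inv_mul_cancel_left] at f
  have f := f.mul_left (hA _ (inv_mem ha) _ d)
  rw [mul_inv_cancel_right] at f
  simpa [mul_assoc] using (Commute.refl y).mul_right f

theorem chr_map {A T : Subgroup G} (h : ∀ y ∈ T, y ∈ A ↔ ∀ u ∈ T, Commute y (u * y * u⁻¹)) {φ : H →* G} (hφ : Function.Injective φ)
    {T' : Subgroup H} (e : T'.map φ = T) {y : H} (hy : y ∈ T') : φ y ∈ A ↔ ∀ u ∈ T', Commute y (u * y * u⁻¹) := by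
  subst e
  rw [h _ ⟨y, hy, rfl⟩]
  exact ⟨fun a u hu => Commute.of_map hφ (by simpa using a _ ⟨u, hu, rfl⟩), by
    rintro a _ ⟨u, hu, rfl⟩; simpa using (a u hu).map φ⟩

/-- check of the graph of an isomorphism -/
noncomputable def isoB (w n v m N : ℕ) (bs bs' Ts Us : List ℕ) (lv : List SL) (pr pr' : List (List ℕ)) (lw lw' : Ch) : Bool :=
  band (band (H14.RK.ssOk lv) (allL (fun e => band (fB w n bs Ts e.1 e.2) (fB v m bs' Us e.1 e.2)) (ssE lv)))
    (band (Nat.beq (ssN lv) N) (band (lowOk w n N pr ((gsOf lv).map (nd (idv w n) Ts)) lw)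
      (lowOk v m N pr' ((gsOf lv).map (nd (idv v m) Us)) lw')))

theorem iso_bb {lv : List SL} {pr pr' : List (List ℕ)} {lw lw' : Ch} (hb : S.Base bs) (hb' : S'.Base bs') (h : ∀ t ∈ Ts, S.In ⊤ t)
    (h' : ∀ t ∈ Us, S'.In ⊤ t) (hM : Nat.card H = N) (hN : (gsOf lv).map (nd (idv w n) Ts) = Ns)
    (e : isoB w n v m N bs bs' Ts Us lv pr pr' lw lw' = true) : Nonempty (S.cl Ns ≃* H) := by
  have := S.finite
  have := S'.finite
  subst hN
  simp only [isoB, band_eq_true, allL_iff, Nat.beq_eq] at e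
  obtain ⟨⟨e1, e2⟩, e3, e4, e5⟩ := e
  have c := (H14.RK.ss_card (g := fun i => (gT S Ts i, gT S' Us i)) (fun r hr => by
    rw [H14.RK.evalW_prod, H14.RK.evalW_prod, H14.RK.sndB hb h _ _ (e2 r hr).1, H14.RK.sndB hb' h' _ _ (e2 r hr).2]) e1).2
  have l := le_of_ok (K := S.cl ((gsOf lv).map (nd (idv w n) Ts))) e4 fun t ht =>
    (List.forall_mem_map.2 (fun i _ => nd_prop In.one h i) t ht).cl ht
  have k : (H14.RK.cl (fun i => (gT S Ts i, gT S' Us i)) (gsOf lv)).map (MonoidHom.fst G H) =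
      S.cl ((gsOf lv).map (nd (idv w n) Ts)) := by
    rw [cl_gT, H14.RK.cl, H14.RK.cl, MonoidHom.map_closure, Set.image_image]; rfl
  obtain ⟨φ, a, b⟩ := exists_hom_of_graph _ k (c.trans (e3.le.trans l))
  have r : φ.range = ⊤ := Subgroup.eq_top_of_le_card _ (hM ▸ le_of_ok e5 (List.forall_mem_map.2 fun i hi =>
    (nd_prop In.one h' i).of_el (a ▸ ⟨_, H14.RK.mem_cl (g := fun i => (gT S Ts i, gT S' Us i)) i hi, rfl⟩)))
  exact ⟨MulEquiv.ofBijective φ ((MonoidHom.range_eq_top.1 r).bijective_of_nat_card_le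
    ((k ▸ (Nat.le_of_dvd Nat.card_pos (Subgroup.card_map_dvd _ _)).trans (c.trans e3.le)).trans hM.ge))⟩

theorem cen_up {K : Subgroup (G ⧸ Subgroup.center G)} (e : K ≃* H) (h : Subgroup.center H = ⊥) :
    Nat.card (Subgroup.center (K.comap (QuotientGroup.mk' _))) = Nat.card (Subgroup.center G) ∧
      Nonempty (K.comap (QuotientGroup.mk' _) ⧸ Subgroup.center (K.comap (QuotientGroup.mk' (Subgroup.center G))) ≃* H) := by
  let φ := e.toMonoidHom.comp ((QuotientGroup.mk' (Subgroup.center G)).subgroupComap K)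
  have s : Function.Surjective φ := e.surjective.comp
    (MonoidHom.subgroupComap_surjective_of_surjective _ _ (QuotientGroup.mk'_surjective _))
  have k : ∀ x, φ x = 1 ↔ x.1 ∈ Subgroup.center G := fun x =>
    (map_eq_one_iff e e.injective).trans (Subtype.ext_iff.trans (QuotientGroup.eq_one_iff _))
  have c : Subgroup.center _ = φ.ker := le_antisymm (fun y hy => Subgroup.mem_bot.1 (h.le (Subgroup.mem_center_iff.2 fun u => by
    obtain ⟨v, rfl⟩ := s u
    rw [← map_mul, Subgroup.mem_center_iff.1 hy, map_mul]))) fun y hy => Subgroup.mem_center_iff.2 fun u =>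
      Subtype.ext (Subgroup.mem_center_iff.1 ((k y).1 hy) u)
  refine ⟨?_, ⟨(QuotientGroup.quotientMulEquivOfEq c).trans (QuotientGroup.quotientKerEquivOfSurjective φ s)⟩⟩
  rw [c, show φ.ker = (Subgroup.center G).subgroupOf _ from Subgroup.ext k]
  exact Nat.card_congr (Subgroup.subgroupOfEquivOfLe (QuotientGroup.le_comap_mk' _ _)).toEquiv

theorem cen_down [Finite G] {p : ℕ} (hp : p.Prime) (hZ : Nat.card (Subgroup.center G) = p) {K : Subgroup G}
    (h1 : Nat.card (Subgroup.center K) = p) (e : K ⧸ Subgroup.center K ≃* H)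
    (hd : ¬ p * Nat.card H ∣ Nat.card (G ⧸ Subgroup.center G)) :
    Subgroup.center G ≤ K ∧ Nonempty (K.map (QuotientGroup.mk' (Subgroup.center G)) ≃* H) := by
  have := Fact.mk hp
  let φ := (QuotientGroup.mk' (Subgroup.center G)).subgroupMap K
  have k : φ.ker = (Subgroup.center G).subgroupOf K := Subgroup.ext fun x => Subtype.ext_iff.trans (QuotientGroup.eq_one_iff _)
  have l : Subgroup.center G ≤ K := by
    rcases (K.subgroupOf (Subgroup.center G)).eq_bot_or_eq_top_of_prime_card (hp := hZ ▸ this) with a | a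
    · refine (hd ?_).elim
      rw [← h1, ← Nat.card_congr e.toEquiv, mul_comm, ← Subgroup.card_eq_card_quotient_mul_card_subgroup]
      exact Subgroup.card_dvd_of_injective ((QuotientGroup.mk' _).comp K.subtype) ((injective_iff_map_eq_one _).2 fun x hx =>
        Subtype.ext (congrArg Subtype.val (Subgroup.mem_bot.1
          (a.le (show ⟨x.1, (QuotientGroup.eq_one_iff _).1 hx⟩ ∈ K.subgroupOf _ from x.2))) :))
    · exact Subgroup.subgroupOf_eq_top.1 a
  have c : φ.ker = Subgroup.center K := Subgroup.eq_of_le_of_card_ge (fun y hy => Subgroup.mem_center_iff.2 fun u =>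
    Subtype.ext (Subgroup.mem_center_iff.1 (k.le hy) u)) (by
      rw [h1, k, Nat.card_congr (Subgroup.subgroupOfEquivOfLe l).toEquiv, hZ])
  exact ⟨l, ⟨(QuotientGroup.quotientKerEquivOfSurjective φ (MonoidHom.subgroupMap_surjective _ _)).symm.trans
    ((QuotientGroup.quotientMulEquivOfEq c).trans e)⟩⟩

end H27.MG
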