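import Mathlib
import Cfsg.Agent.H01.XH0

/-! Groups of large Fischer type: the order of `C(z) ∩ C(t)` (namespace `H27.Fz`): `cX`, `c19`. -/

set_option autoImplicit false
open Cfsg BG Subgroup H01.XS H01.XF

namespace H27.Fz
universe u
variable {G : Type u} [Group G] [Finite G] {g t z : G} {Q A : Subgroup G}
  {V : Type u} [AddCommGroup V] [Module (ZMod 2) V] [Finite V] {Γ : Type u} [Group Γ] [Finite Γ]
  {T : Γ → V →+ V} {d : Γ} {M : Subgroup Γ} {β : V →+ V →+ ZMod 2} {q : V → ZMod 2} {ν : G → V} {f : C_[z] →* Γ} {π : G → Γ}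

theorem cX (s : Br z Q f π ν T d M β q) (i0 : g * z * g⁻¹ ∈ Q) (n0 : g * z * g⁻¹ ≠ z) (tQ : t ∈ Q) (t2 : t * t = 1)
    (t1 : t ≠ 1) (tz : ¬ IsConj z t) : Nat.card ↥(C_[z] ⊓ C_[t]) = 2 ^ 19 * 405 := by
  have h := s.pt g i0 n0
  have l := s.md.lx
  have n : ν t ≠ 0 := fun e => by
    rcases (s.md.ker t tQ).1 e with e | e
    exacts [t1 e, tz (e ▸ IsConj.refl _)]
  have c1 := (h.cards n ((s.sq t tQ).2 t2) fun ⟨γ, e⟩ => by
    obtain ⟨c, i, rfl⟩ := s.sur γ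
    obtain ⟨k, -, e, -⟩ := s.adj i i0 tQ t2 n e
    exact tz (isConj_iff.2 ⟨k * g, by rw [← e]; group⟩)).1
  have a := card_inf_mul_relIndex f.ker ((C_[z] ⊓ C_[t]).subgroupOf C_[z])
  have e1 : ((C_[z] ⊓ C_[t]).subgroupOf C_[z]).map f = h.S (ν t) := by
    refine le_antisymm ?_ fun γ m => ?_
    · rintro _ ⟨c, m, rfl⟩
      show T (f c) (ν t) = ν t
      rw [s.pf, s.act c c.2 t tQ, show c.1 * t = t * c.1 from mem_cent1.1 m.2, mul_inv_cancel_right]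
    · obtain ⟨c, i, rfl⟩ := s.sur γ
      obtain ⟨k, i, e, e'⟩ := s.adj i tQ tQ t2 n m
      exact ⟨⟨k, i⟩, ⟨i, mem_cent1.2 (mul_inv_eq_iff_eq_mul.1 e)⟩, (s.pf _).trans e'⟩
  have e2 : f.ker ⊓ (C_[z] ⊓ C_[t]).subgroupOf C_[z] = (s.md.pull (β (ν t)).ker).subgroupOf C_[z] := Subgroup.ext fun c =>
    ⟨fun m => by
      have cQ : c.1 ∈ Q := (s.ker c c.2).1 ((s.pf c).symm.trans m.1)
      exact ⟨cQ, (s.b t tQ c cQ).2 (mem_cent1.1 m.2.2).symm⟩,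
    fun m => ⟨(s.pf c).trans ((s.ker c c.2).2 m.1), c.2, mem_cent1.2 ((s.b t tQ c m.1).1 m.2).eq.symm⟩⟩
  have c2 : Nat.card (β (ν t)).ker = 2048 := by
    have b := (β (ν t)).ker.card_mul_index
    obtain ⟨v, hv⟩ := not_forall.1 (mt (h.nd _) n)
    have r : (β (ν t)).range = ⊤ := eq_top_iff.2 fun y _ => by
      rcases H01.XT.z2 y with rfl | rfl
      exacts [zero_mem _, ⟨v, H01.XT.z2' _ hv⟩]
    rw [AddSubgroup.index_ker, r, AddSubgroup.card_top, Nat.card_zmod, h.card] at b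
    omega
  rw [relIndex_ker, e1, c1, e2, Nat.card_congr (subgroupOfEquivOfLe (H := s.md.pull (β (ν t)).ker) fun x m => l.le m.1).toEquiv, s.md.card_pull, c2,
    Nat.card_congr (subgroupOfEquivOfLe inf_le_left).toEquiv] at a
  omega

theorem c19 (s : Br z Q f π ν T d M β q) (i0 : g * z * g⁻¹ ∈ Q) (n0 : g * z * g⁻¹ ≠ z) (e : ∀ x ∈ A, x * x = 1) (zA : z ∈ A)
    (SY : ∀ X : Subgroup G, A ≤ X → ∀ k : ℕ, 2 ^ k ∣ Nat.card X → 2 ^ k ∣ Nat.card ↥(N_(A) ⊓ X))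
    (tA : t ∈ A) (t1 : t ≠ 1) (tz : ¬ IsConj z t) (tQ : t ∈ Q) :
    2 ^ 19 ∣ Nat.card (N_(A) ⊓ centralizer {z} ⊓ centralizer {t} : Subgroup G) ∧
      ¬ 2 ^ 20 ∣ Nat.card (N_(A) ⊓ centralizer {z} ⊓ centralizer {t} : Subgroup G) := by
  have c := cX s i0 n0 tQ (e t tA) t1 tz
  have cm : ∀ x ∈ A, ∀ y ∈ A, x * y = y * x := fun x i y j => by
    rw [← inv_eq_of_mul_eq_one_right (e _ (mul_mem i j)), mul_inv_rev, inv_eq_of_mul_eq_one_right (e x i),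
      inv_eq_of_mul_eq_one_right (e y j)]
  rw [inf_assoc]
  refine ⟨SY (C_[z] ⊓ C_[t]) (fun x i => ⟨mem_cent1.2 (cm x i z zA), mem_cent1.2 (cm x i t tA)⟩) 19 (c ▸ dvd_mul_right _ _), fun r => ?_⟩
  have := r.trans (card_dvd_of_le inf_le_right)
  rw [c] at this
  norm_num at this

end H27.Fz
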