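import Cfsg.Agent.H27.Pt

/-!
Isomorphisms from an invariant incidence relation (namespace `H27.MG`): `incOk`, `cl_inc`, `Mdl.inc`.
-/

set_option autoImplicit false

namespace H27.MG
open H13 H14.PK H14.PK.TS H27.PKx

variable {G H : Type*} [Group G] [Group H] {w n v m : ℕ} {S : TS G w n} {S' : TS H v m}

/-- `x` is one of the `k` entries of the row -/
noncomputable def memR (v k r x : ℕ) : Bool := force x fun x => bn (allLt (fun j => bn (Nat.beq (get v r j) x)) k)

theorem memR_iff {k r x : ℕ} : memR v k r x = true ↔ ∃ j < k, get v r j = x := by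
  simp only [memR, force_eq, bn_iff, allLt_iff, Nat.beq_eq, not_forall, not_not, exists_prop]

/-- the rows of `A` (`k` points each) are permuted by the pairs, and separate the base points -/
noncomputable def incOk (w n v m k A : ℕ) (bs : List ℕ) (cs : List (ℕ × List ℕ)) (Ps : List (ℕ × ℕ)) : Bool := force A fun A =>
  band (band (allLt (fun j => Nat.blt (get v A j) m) (Nat.mul n k))
    (allL (fun p => force p.1 fun T => force p.2 fun U => allLt (fun i => force (get (Nat.mul v k) A i) fun r =>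
      force (get (Nat.mul v k) A (get w T i)) fun r' => allLt (fun j => memR v k r' (get v U (get v r j))) k) n) Ps))
  (band (allL (fun b => force (get (Nat.mul v k) A b) fun r => allLt (fun i => force (get (Nat.mul v k) A i) fun r' =>
      bor (Nat.beq i b) (bn (allLt (fun j => memR v k r' (get v r j)) k))) n) bs)
    (allL (fun c => band (allL (fun i => band (Nat.blt i n) (memR v k (get (Nat.mul v k) A i) c.1)) c.2)
      (allLt (fun x => bor (Nat.beq x c.1) (anyL (fun i => bn (memR v k (get (Nat.mul v k) A i) x)) c.2)) m)) cs))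

theorem cl_inc {k A : ℕ} {bs : List ℕ} {cs : List (ℕ × List ℕ)} {Ps : List (ℕ × ℕ)} (hb : S.Base bs) (hb' : S'.Base (cs.map Prod.fst))
    (h : ∀ t ∈ Ps.map Prod.fst, S.In ⊤ t) (h' : ∀ t ∈ Ps.map Prod.snd, S'.In ⊤ t) (e : incOk w n v m k A bs cs Ps = true) :
    Nonempty (S.cl (Ps.map Prod.fst) ≃* S'.cl (Ps.map Prod.snd)) := by
  simp only [incOk, force_eq, band_eq_true, allLt_iff, allL_iff, anyL_iff, bor_eq_true, bn_iff, Nat.blt_eq, Nat.beq_eq, memR_iff,
    Nat.mul_eq] at e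
  obtain ⟨⟨e1, e2⟩, e3, e4⟩ := e
  let R : ℕ → ℕ → Prop := fun i x => ∃ j < k, get v (get (v * k) A i) j = x
  have lt : ∀ i < n, ∀ x, R i x → x < m := by
    rintro i hi _ ⟨j, hj, rfl⟩
    rw [FC.get_row A i hj]
    exact e1 _ (by nlinarith)
  let D : Submonoid (G × H) :=
    { carrier := {y | ∀ i < n, ∀ x, R i x → R (S.ap y.1 i) (S'.ap y.2 x)}
      one_mem' := fun i hi x hx => by rwa [Prod.fst_one, Prod.snd_one, S.ap_one hi, S'.ap_one (lt i hi x hx)]
      mul_mem' := fun {a b} ha hb i hi x hx => by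
        rw [Prod.fst_mul, Prod.snd_mul, S.ap_mul _ _ hi, S'.ap_mul _ _ (lt i hi x hx)]
        exact ha _ (S.ap_lt _ hi) _ (hb i hi x hx) }
  have := S.finite
  have := S'.finite
  have h3 : (Subgroup.closure ((fun p => (S.el p.1, S'.el p.2)) '' {p | p ∈ Ps})).toSubmonoid ≤ D := by
    rw [Subgroup.closure_toSubmonoid_of_finite, Submonoid.closure_le]
    rintro _ ⟨p, hp, rfl⟩ i hi _ ⟨j, hj, rfl⟩
    rw [(h _ (List.mem_map_of_mem hp)).ap_el, (h' _ (List.mem_map_of_mem hp)).ap_el]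
    exact e2 p hp i hi j hj
  obtain ⟨f⟩ := equiv_of_graph (Subgroup.closure ((fun p => (S.el p.1, S'.el p.2)) '' {p | p ∈ Ps})) fun x hx =>
    ⟨fun c => hb'.2 _ fun b y => by
      obtain ⟨q, a, rfl⟩ := List.mem_map.1 y
      refine ((e4 q a).2 _ (S'.ap_lt _ (hb'.1 _ y))).resolve_right fun ⟨i, a1, a2⟩ => a2 ?_
      have := h3 hx i ((e4 q a).1 i a1).1 _ ((e4 q a).1 i a1).2
      rwa [c, S.ap_one ((e4 q a).1 i a1).1] at this,
    fun c => hb.2 _ fun b y => (e3 b y _ (S.ap_lt _ (hb.1 b y))).resolve_right fun a => a fun j hj => by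
      have := h3 hx b (hb.1 b y) _ ⟨j, hj, rfl⟩
      rwa [c, S'.ap_one (lt b (hb.1 b y) _ ⟨j, hj, rfl⟩)] at this⟩
  refine ⟨(MulEquiv.subgroupCongr ?_).trans (f.trans (MulEquiv.subgroupCongr ?_))⟩ <;>
    rw [TS.cl, MonoidHom.map_closure, Set.image_image] <;> congr 1 <;> ext x <;>
    simp only [Set.mem_image, Set.mem_ofPred_eq, List.mem_map, exists_exists_and_eq_and] <;> rfl

theorem Mdl.inc {k A N N' : ℕ} {bs : List ℕ} {cs : List (ℕ × List ℕ)} {Ps : List (ℕ × ℕ)} (M : Mdl S (Ps.map Prod.fst) bs N)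
    (M' : Mdl S' (Ps.map Prod.snd) (cs.map Prod.fst) N') (e : incOk w n v m k A bs cs Ps = true) : Nonempty (G ≃* H) :=
  let ⟨f⟩ := cl_inc M.base M'.base M.mem M'.mem e
  ⟨(Subgroup.topEquiv.symm.trans (MulEquiv.subgroupCongr M.cl.symm)).trans
    (f.trans ((MulEquiv.subgroupCongr M'.cl).trans Subgroup.topEquiv))⟩

end H27.MG
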