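import Cfsg.Agent.H27.MG2
import Cfsg.Agent.S0243

/-! `PSL(2,8)` on 9 points: `H27.L28.model`. -/

set_option autoImplicit false
set_option maxRecDepth 100000

namespace H27.L28
open H13 H14.PK H14.PK.TS H27.PKx H27.MG Cfsg

def AT : ℕ := nat_lit 0x5397721ab3e4c1de5688fac977053b3e21ade54c1fac688
def MT : ℕ := nat_lit 0x73157889d3f0cfa868356ee0467b98bcbd10fac688000000
theorem fok : fieldOk 8 3 AT MT = true := by decide +kernel

def PT : ℕ := nat_lit 0x39c69859449201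
def Ps : List (ℕ × ℕ) := [(nat_lit 521, nat_lit 0x367458120), (nat_lit 0x448, nat_lit 0x720658431)]
def Ls : List ℕ := [nat_lit 0x367458120, nat_lit 0x720658431]
def bs : List ℕ := [nat_lit 1, nat_lit 0, nat_lit 2]

theorem model (F : Type*) [Field F] [Fintype F] (hF : Fintype.card F = 8) :
    ∃ S : TS (Matrix.ProjectiveSpecialLinearGroup (Fin 2) F) 4 9, Mdl S Ls bs 504 := by
  obtain ⟨C⟩ := FC.table F hF fok
  have hN : Nat.card (Matrix.ProjectiveSpecialLinearGroup (Fin 2) F) = 504 := by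
    have := Cfsg.Agent.S0243.result hF 2 (by norm_num)
    simp [Fin.prod_univ_succ] at this
    omega
  obtain ⟨S, h, -⟩ := C.model (Equiv.refl _) (slToMat 2 F) (QuotientGroup.mk' (Subgroup.center (Matrix.SpecialLinearGroup (Fin 2) F))) (pj := true) (PT := PT) (w := 4)
    (n := 9) (by norm_num) (by norm_num) (by decide +kernel) (Ps := Ps)
    (fun p hp => C.exists_SL (Equiv.refl _) (k := 18) (allL_iff.1 (by decide +kernel : allL (fun p => slOk (opT 8 3 AT) (opT 8 3 MT) 3 2 8 18 p.1) Ps = true) p hp))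
    (allL_iff.1 (by decide +kernel)) hN (pr := [[nat_lit 1, nat_lit 1, nat_lit 1, nat_lit 0, nat_lit 1, nat_lit 0, nat_lit 0, nat_lit 0],
   [nat_lit 1, nat_lit 2, nat_lit 2, nat_lit 1, nat_lit 2],
   [nat_lit 0, nat_lit 0, nat_lit 0, nat_lit 1]]) (lv := [(nat_lit 1, [nat_lit 4]), (nat_lit 0, [nat_lit 2, nat_lit 1]), (nat_lit 2, [nat_lit 0])]) (Ls := Ls) rfl (by decide +kernel)
    (Or.inr ⟨(QuotientGroup.ker_mk' _).le, [[nat_lit 1, nat_lit 1, nat_lit 1, nat_lit 0, nat_lit 1, nat_lit 0, nat_lit 0, nat_lit 0],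
   [nat_lit 1, nat_lit 2, nat_lit 2, nat_lit 1, nat_lit 2]], nat_lit 1, [nat_lit 1, nat_lit 0], by decide +kernel⟩)
  exact ⟨S, h⟩

end H27.L28
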