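import Cfsg.Agent.H27.MG2
import Cfsg.Agent.S0243

/-! `PSL(3,4)` on 21 points: `H27.L34.model`. -/

set_option autoImplicit false
set_option maxRecDepth 100000

namespace H27.L34
open H13 H14.PK H14.PK.TS H27.PKx H27.MG Cfsg

def AT : ℕ := nat_lit 0x1b4eb1e4
def MT : ℕ := nat_lit 0x9c78e400
theorem fok : fieldOk 4 2 AT MT = true := by decide +kernel

def PT : ℕ := nat_lit 0x3de75d31b6996485d65551140d245101
def Ps : List (ℕ × ℕ) := [(nat_lit 0x2c815, nat_lit 0x120cd5463c62411a989dc659600), (nat_lit 0x3ef59, nat_lit 0x1349503930873404a046815bdcd)]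
def Ls : List ℕ := [nat_lit 0x120cd5463c62411a989dc659600, nat_lit 0x1349503930873404a046815bdcd]
def bs : List ℕ := [nat_lit 1, nat_lit 0, nat_lit 2, nat_lit 5]

theorem model (F : Type*) [Field F] [Fintype F] (hF : Fintype.card F = 4) :
    ∃ S : TS (Matrix.ProjectiveSpecialLinearGroup (Fin 3) F) 5 21, Mdl S Ls bs 20160 := by
  obtain ⟨C⟩ := FC.table F hF fok
  have hN : Nat.card (Matrix.ProjectiveSpecialLinearGroup (Fin 3) F) = 20160 := by
    have := Cfsg.Agent.S0243.result hF 3 (by norm_num)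
    simp [Fin.prod_univ_succ] at this
    omega
  obtain ⟨S, h, -⟩ := C.model (Equiv.refl _) (slToMat 3 F) (QuotientGroup.mk' (Subgroup.center (Matrix.SpecialLinearGroup (Fin 3) F))) (pj := true) (PT := PT) (w := 5)
    (n := 21) (by norm_num) (by norm_num) (by decide +kernel) (Ps := Ps)
    (fun p hp => C.exists_SL (Equiv.refl _) (k := 35) (allL_iff.1 (by decide +kernel : allL (fun p => slOk (opT 4 2 AT) (opT 4 2 MT) 2 3 4 35 p.1) Ps = true) p hp))
    (allL_iff.1 (by decide +kernel)) hN (pr := [[nat_lit 1, nat_lit 0, nat_lit 0, nat_lit 0, nat_lit 1, nat_lit 1, nat_lit 1],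
   [nat_lit 1, nat_lit 2, nat_lit 1, nat_lit 1],
   [nat_lit 1, nat_lit 1],
   [nat_lit 1, nat_lit 1, nat_lit 0, nat_lit 1, nat_lit 1, nat_lit 2, nat_lit 1, nat_lit 0, nat_lit 2, nat_lit 2, nat_lit 1],
   [nat_lit 2, nat_lit 2, nat_lit 1, nat_lit 2, nat_lit 2, nat_lit 1, nat_lit 3, nat_lit 1, nat_lit 2, nat_lit 1, nat_lit 2, nat_lit 1],
   [nat_lit 3, nat_lit 3, nat_lit 2, nat_lit 2, nat_lit 2, nat_lit 4, nat_lit 3, nat_lit 2],
   [nat_lit 5, nat_lit 5, nat_lit 4, nat_lit 5, nat_lit 4, nat_lit 4, nat_lit 3, nat_lit 3],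
   [nat_lit 0, nat_lit 3, nat_lit 1, nat_lit 3, nat_lit 1, nat_lit 3],
   [nat_lit 2, nat_lit 2, nat_lit 3, nat_lit 2, nat_lit 1],
   [nat_lit 2, nat_lit 3, nat_lit 3],
   [nat_lit 4, nat_lit 5]]) (lv := [(nat_lit 1, [nat_lit 11, nat_lit 12]), (nat_lit 0, [nat_lit 10, nat_lit 9]), (nat_lit 2, [nat_lit 7]), (nat_lit 5, [nat_lit 3, nat_lit 2, nat_lit 1, nat_lit 0])]) (Ls := Ls) rfl (by decide +kernel)
    (Or.inr ⟨(QuotientGroup.ker_mk' _).le, [[nat_lit 1, nat_lit 0, nat_lit 0, nat_lit 0, nat_lit 1, nat_lit 1, nat_lit 1],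
   [nat_lit 1, nat_lit 2, nat_lit 1, nat_lit 1],
   [nat_lit 1, nat_lit 1]], nat_lit 1, [nat_lit 2, nat_lit 1, nat_lit 0], by decide +kernel⟩)
  exact ⟨S, h⟩

end H27.L34
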