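import Mathlib

/-! Abstract lemmas on a centraliser of shape `3^2.U.2` (namespace `H27.MtL3b`): `d27`, `nrm`, `shape`, `lay`. -/

set_option autoImplicit false

namespace H27.MtL3b
open Subgroup Function

theorem p3 {G : Type*} [Group G] {g : G} (h : g ^ 3 = 1) : IsPGroup 3 (zpowers g) := by
  rintro ⟨_, k, rfl⟩
  exact ⟨1, Subtype.ext (by rw [coe_pow, pow_one, ← zpow_natCast, ← zpow_mul, mul_comm, zpow_mul, zpow_natCast, h, one_zpow, coe_one])⟩

theorem d27 {G : Type*} [Group G] [Finite G] {K : Subgroup G} {x a b : G} (hx : x ∈ K) (ha : a ∈ K) (hb : b ∈ K) (x3 : x ^ 3 = 1)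
    (a3 : a ^ 3 = 1) (b3 : b ^ 3 = 1) (x1 : x ≠ 1) (ax : a * x = x * a) (bx : b * x = x * b) (ba : b * a = a * x * b) :
    27 ∣ Nat.card K := by
  have : Fact (Nat.Prime 3) := ⟨Nat.prime_three⟩
  have nb : b * a ≠ a * b := fun e => x1 (by rw [ba, mul_left_inj, mul_eq_left] at e; exact e)
  have nm : ∀ (g : G) (P : Subgroup G), P ≤ P.comap (MulAut.conj g).toMonoidHom → zpowers g ≤ normalizer (P : Set G) := fun g P h =>
    zpowers_le.2 (mem_normalizer_fintype fun n hn => h hn)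
  have P1 := (p3 x3).to_sup_of_normal_left' (p3 a3) (nm a _ (zpowers_le.2 (by
    change a * x * a⁻¹ ∈ zpowers x; rw [ax, mul_inv_cancel_right]; exact mem_zpowers _)))
  have P2 := P1.to_sup_of_normal_left' (p3 b3) (nm b _ (sup_le (zpowers_le.2 (by
    change b * x * b⁻¹ ∈ zpowers x ⊔ zpowers a; rw [bx, mul_inv_cancel_right]; exact mem_sup_left (mem_zpowers _))) (zpowers_le.2 (by
    change b * a * b⁻¹ ∈ zpowers x ⊔ zpowers a; rw [ba, mul_inv_cancel_right, ax]; exact mul_mem_sup (mem_zpowers _) (mem_zpowers _)))))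
  have lt : ∀ {P Q : Subgroup G} {g : G}, P ≤ Q → g ∈ Q → g ∉ P → Nat.card P < Nat.card Q := fun h q p =>
    not_le.1 fun r => p (eq_of_le_of_card_ge h r ▸ q)
  have l0 := lt (P := ⊥) bot_le (mem_zpowers x) x1
  have l1 := lt (le_sup_left : zpowers x ≤ zpowers x ⊔ zpowers a) (mem_sup_right (mem_zpowers a)) fun r =>
    nb (mem_centralizer_singleton_iff.1 (zpowers_le.2 (mem_centralizer_singleton_iff.2 bx.symm) r)).symm
  have l2 := lt (le_sup_left : zpowers x ⊔ zpowers a ≤ zpowers x ⊔ zpowers a ⊔ zpowers b) (mem_sup_right (mem_zpowers b)) fun r =>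
    nb (mem_centralizer_singleton_iff.1 (sup_le (zpowers_le.2 (mem_centralizer_singleton_iff.2 ax.symm))
      (zpowers_le.2 (mem_centralizer_singleton_iff.2 rfl)) r))
  obtain ⟨i, e0⟩ := (p3 x3).exists_card_eq
  obtain ⟨j, e1⟩ := P1.exists_card_eq
  obtain ⟨k, e2⟩ := P2.exists_card_eq
  refine Dvd.dvd.trans ?_ (card_dvd_of_le (sup_le (sup_le (zpowers_le.2 hx) (zpowers_le.2 ha)) (zpowers_le.2 hb)))
  rw [card_bot, e0, ← pow_zero 3] at l0
  rw [e0, e1] at l1
  rw [e1, e2] at l2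
  rw [Nat.pow_lt_pow_iff_right (by norm_num)] at l0 l1 l2
  exact e2 ▸ pow_dvd_pow 3 (by omega : 3 ≤ k)

theorem zp3 {G : Type*} [Group G] {y : G} (h : y ^ 3 = 1) (i : ℤ) : y ^ i = 1 ∨ y ^ i = y ∨ y ^ i = y⁻¹ := by
  have h' : y ^ (3 : ℤ) = 1 := by exact_mod_cast h
  rw [zpow_eq_zpow_emod i h']
  have : i % 3 = 0 ∨ i % 3 = 1 ∨ i % 3 = 2 := by omega
  rcases this with e | e | e <;> rw [e]
  · simp
  · simp
  · refine .inr (.inr (eq_inv_of_mul_eq_one_left ?_)); rw [← h']; group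

/-- the shape of the centraliser -/
structure Sh {C U : Type*} [Group C] [Group U] (x y : C) (ρ : centralizer {y} →* U) : Prop where
  xc : ∀ c, c * x = x * c
  x3 : x ^ 3 = 1
  y3 : y ^ 3 = 1
  ny : y ∉ zpowers x
  i2 : (centralizer ({y} : Set C)).index = 2
  out : ∀ c, c ∉ centralizer ({y} : Set C) → c * y * c⁻¹ = y⁻¹ * x
  surj : Surjective ρ
  ker : ∀ a, ρ a = 1 ↔ ∃ i j : ℤ, (a : C) = y ^ i * x ^ j

namespace Sh
variable {C U : Type*} [Group C] [Group U] {x y : C} {ρ : centralizer {y} →* U} (h : Sh x y ρ)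
include h

theorem nz : (zpowers x).Normal := ⟨fun n ⟨k, e⟩ g => ⟨k, by
  rw [← e, ((show Commute g x from h.xc g).zpow_right k).eq, mul_inv_cancel_right]⟩⟩

theorem nrm [IsSimpleGroup U] (K : Subgroup C) [n : K.Normal] (hx : x ∈ K) (hy : y ∉ K) :
    K ≤ zpowers x ∨ ∀ t ∈ centralizer ({y} : Set C), t ^ 3 ∈ K := by
  rcases ((Normal.subgroupOf n (centralizer {y})).map ρ h.surj).eq_bot_or_eq_top with e | e
  · refine .inl fun k hk => ?_
    by_cases m : k ∈ centralizer ({y} : Set C)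
    · obtain ⟨i, j, r⟩ := (h.ker ⟨k, m⟩).1 (mem_bot.1 (e ▸ mem_map_of_mem ρ hk))
      replace r : k = y ^ i * x ^ j := r
      have : y ^ i ∈ K := (mul_mem_cancel_right (zpow_mem hx j)).1 (r ▸ hk)
      rcases zp3 h.y3 i with s | s | s <;> rw [s] at this r
      exacts [⟨j, by rw [r, one_mul]⟩, (hy this).elim, (hy (inv_mem_iff.1 this)).elim]
    · have := mul_mem hk (n.conj_mem _ (inv_mem hk) y)
      rw [show k * (y * k⁻¹ * y⁻¹) = k * y * k⁻¹ * y⁻¹ by group, h.out k m, mul_assoc, ← h.xc, ← mul_assoc,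
        mul_mem_cancel_right hx, show y⁻¹ * y⁻¹ = (y ^ 3)⁻¹ * y by group, h.y3, inv_one, one_mul] at this
      exact (hy this).elim
  · refine .inr fun t ht => ?_
    obtain ⟨k, hk, r⟩ := e.ge (mem_top (ρ ⟨t, ht⟩))
    obtain ⟨i, j, r⟩ := (h.ker (k⁻¹ * ⟨t, ht⟩)).1 (by rw [map_mul, map_inv, r, inv_mul_cancel])
    replace r : t = k * (y ^ i * x ^ j) := inv_mul_eq_iff_eq_mul.1 r
    have c1 : Commute (k : C) (y ^ i) := (show Commute _ _ from mem_centralizer_singleton_iff.1 k.2).zpow_right i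
    have c2 : ∀ c : C, Commute c (x ^ j) := fun c => (show Commute _ _ from h.xc c).zpow_right j
    have e3 : ∀ {z : C} (i : ℤ), z ^ 3 = 1 → (z ^ i) ^ 3 = 1 := fun i r => by
      rw [← zpow_natCast, ← zpow_mul, mul_comm, zpow_mul, zpow_natCast, r, one_zpow]
    rw [r, (c1.mul_right (c2 _)).mul_pow, (c2 _).mul_pow, e3 i h.y3, e3 j h.x3, mul_one, mul_one]
    exact pow_mem hk 3

theorem o2 [Finite U] [IsSimpleGroup U] (h5 : 5 ∣ Nat.card U) [(zpowers x).Normal] (N : Subgroup (C ⧸ zpowers x)) (n : N.Normal)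
    (p : IsPGroup 2 N) : N = ⊥ := by
  have : Fact (Nat.Prime 5) := ⟨Nat.prime_five⟩
  have := n.comap (QuotientGroup.mk' (zpowers x))
  rcases h.nrm (N.comap (QuotientGroup.mk' (zpowers x))) (by
      rw [mem_comap, show QuotientGroup.mk' _ x = 1 from (QuotientGroup.eq_one_iff x).2 (mem_zpowers x)]; exact one_mem _) (fun r => by
      obtain ⟨k, e⟩ := p ⟨_, r⟩
      have a : QuotientGroup.mk' (zpowers x) y ^ 2 ^ k = 1 := congrArg Subtype.val e
      have b : QuotientGroup.mk' (zpowers x) y ^ 3 = 1 := by rw [← map_pow, h.y3, map_one]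
      have := pow_gcd_eq_one.2 ⟨a, b⟩
      rw [Nat.Coprime.pow_left k (by norm_num), pow_one] at this
      exact h.ny ((QuotientGroup.eq_one_iff y).1 this)) with e | e
  · refine eq_bot_iff.2 fun a ha => ?_
    obtain ⟨a, rfl⟩ := QuotientGroup.mk_surjective a
    exact (QuotientGroup.eq_one_iff a).2 (e ha)
  · obtain ⟨u, hu⟩ := exists_prime_orderOf_dvd_card' 5 h5
    obtain ⟨t, rfl⟩ := h.surj u
    obtain ⟨k, r⟩ := p ⟨_, e t t.2⟩
    obtain ⟨j, r⟩ := (QuotientGroup.eq_one_iff ((t.1 ^ 3) ^ 2 ^ k)).1 (congrArg Subtype.val r)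
    have := orderOf_dvd_of_pow_eq_one ((map_pow ρ t (3 * 2 ^ k)).symm.trans ((h.ker _).2 ⟨0, j, by
      rw [zpow_zero, one_mul, coe_pow, pow_mul]; exact r.symm⟩))
    rw [hu] at this
    exact absurd (Nat.prime_five.dvd_of_dvd_pow ((Nat.Coprime.dvd_mul_left (by norm_num)).1 this)) (by norm_num)

theorem shape [(zpowers x).Normal] : ∃ (N M : Subgroup (C ⧸ zpowers x)) (_ : N.Normal) (_ : M.Normal), N ≤ M ∧ Nat.card N = 3 ∧
    Nonempty (M ⧸ N.subgroupOf M ≃* U) ∧ M.index = 2 := by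
  have : Fact (Nat.Prime 3) := ⟨Nat.prime_three⟩
  let π := QuotientGroup.mk' (zpowers x)
  have px : π x = 1 := (QuotientGroup.eq_one_iff x).2 (mem_zpowers x)
  have i2 : ((centralizer {y}).map π).index = 2 := (index_map_eq _ (QuotientGroup.mk'_surjective _) (by
    rw [QuotientGroup.ker_mk']; exact zpowers_le.2 (mem_centralizer_singleton_iff.2 (h.xc y).symm))).trans h.i2
  have n : (zpowers (π y)).Normal := ⟨by
    rintro _ ⟨k, rfl⟩ g
    obtain ⟨g, rfl⟩ := QuotientGroup.mk'_surjective _ g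
    rw [← conj_zpow]
    refine zpow_mem ?_ k
    rw [← map_inv, ← map_mul, ← map_mul]
    by_cases m : g ∈ centralizer ({y} : Set C)
    · rw [mem_centralizer_singleton_iff.1 m, mul_inv_cancel_right]; exact mem_zpowers _
    · rw [h.out g m, map_mul, px, mul_one, map_inv]; exact inv_mem (mem_zpowers _)⟩
  let α := (QuotientGroup.mk' ((zpowers (π y)).subgroupOf ((centralizer {y}).map π))).comp (π.subgroupMap (centralizer {y}))
  have sα : Surjective α := (QuotientGroup.mk'_surjective _).comp (π.subgroupMap_surjective _)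
  have k : α.ker = ρ.ker := Subgroup.ext fun a => (QuotientGroup.eq_one_iff _).trans (Iff.trans ⟨fun ⟨i, r⟩ => by
      obtain ⟨j, s⟩ := QuotientGroup.eq.1 (show ((y ^ i : C) : C ⧸ zpowers x) = (a : C) from (map_zpow π y i).trans r)
      exact ⟨i, j, inv_mul_eq_iff_eq_mul.1 s.symm⟩, fun ⟨i, j, r⟩ => ⟨i, by
      change π y ^ i = π a
      rw [r, map_mul, map_zpow, map_zpow, px, one_zpow, mul_one]⟩⟩ (h.ker a).symm)
  refine ⟨zpowers (π y), (centralizer {y}).map π, n, normal_of_index_eq_two i2,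
    zpowers_le.2 (mem_map_of_mem π (mem_centralizer_singleton_iff.2 rfl)), ?_, ⟨((QuotientGroup.quotientKerEquivOfSurjective α sα).symm.trans
      (QuotientGroup.quotientMulEquivOfEq k)).trans (QuotientGroup.quotientKerEquivOfSurjective ρ h.surj)⟩, i2⟩
  rw [Nat.card_zpowers]
  exact orderOf_eq_prime (by rw [← map_pow, h.y3, map_one]) fun r => h.ny ((QuotientGroup.eq_one_iff y).1 r)

end Sh

theorem card_cj {G : Type*} [Group G] (t a : G) : Nat.card (centralizer {a}) = Nat.card (centralizer {t * a * t⁻¹}) :=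
  Nat.card_congr ((MulAut.conj t).toEquiv.subtypeEquiv fun x => by
    simp [mem_centralizer_singleton_iff, mul_assoc]; simp [← mul_assoc])

theorem lay {Γ S U : Type*} [Group Γ] [Finite Γ] [Group S] [Group U] {x y w s : Γ} (ex : y * w = x) {σ : centralizer {y} →* S}
    {hw : w ∈ centralizer {y}} {c : S} (ec : σ ⟨w, hw⟩ = c) {φ : centralizer {c} →* U} {n : ℕ} (oy : orderOf y = 3)
    (sy : s * y = w * s) (sw : s * w = y * s) (ne : w ≠ y) (surj : Surjective σ) (ker : ∀ a, σ a = 1 ↔ (a : Γ) ∈ zpowers y)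
    (surj' : Surjective φ) (ker' : ∀ d, φ d = 1 ↔ (d : S) ∈ zpowers c) (card : Nat.card (centralizer {c}) = n)
    (le : Nat.card (centralizer {x}) ≤ 6 * n) (lt : 6 * n < Nat.card (centralizer {y})) :
    ∃ (hy : y ∈ centralizer {x}) (ρ : _ →* U), Sh (⟨x, mem_centralizer_singleton_iff.2 rfl⟩ : centralizer {x}) ⟨y, hy⟩ ρ := by
  subst ex ec
  have wy := mem_centralizer_singleton_iff.1 hw
  have y3 : y ^ 3 = 1 := oy ▸ pow_orderOf_eq_one y
  have ws : w = s * y * s⁻¹ := eq_mul_inv_of_mul_eq sy.symm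
  have w3 : w ^ 3 = 1 := by rw [ws, conj_pow, y3, mul_one, mul_inv_cancel]
  have hy : y ∈ centralizer {y * w} := mem_centralizer_singleton_iff.2 (by rw [mul_assoc, wy])
  have hs : s ∈ centralizer {y * w} := mem_centralizer_singleton_iff.2 (by rw [← mul_assoc, sy, mul_assoc, sw, ← mul_assoc, wy])
  let y' : centralizer {y * w} := ⟨y, hy⟩
  have my : ∀ {a : centralizer {y * w}}, a ∈ centralizer {y'} ↔ (a : Γ) * y = y * a :=
    mem_centralizer_singleton_iff.trans Subtype.ext_iff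
  have ns : (⟨s, hs⟩ : centralizer {y * w}) ∉ centralizer {y'} := fun r => ne (mul_right_cancel (sy.symm.trans (my.1 r)))
  let ι : centralizer {y'} →* centralizer {y} := ((Subgroup.subtype _).comp (Subgroup.subtype _)).codRestrict _ fun a =>
    mem_centralizer_singleton_iff.2 (my.1 a.2)
  let τ : centralizer {y'} →* centralizer {σ ⟨w, hw⟩} := (σ.comp ι).codRestrict _ fun a => mem_centralizer_singleton_iff.2 (by
    rw [MonoidHom.comp_apply, ← map_mul, ← map_mul]
    refine congrArg σ (Subtype.ext (mul_left_cancel (a := y) ?_))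
    change y * (a * w) = y * (w * a)
    rw [← mul_assoc, ← my.1 a.2, mul_assoc, mem_centralizer_singleton_iff.1 a.1.2, mul_assoc])
  have nc : ∀ a : Γ, a * w * a⁻¹ ≠ y * w := fun a r => by
    have := card_cj a w
    rw [r] at this
    have b := card_cj s y
    rw [← ws] at b
    omega
  have sτ : Surjective τ := fun d => by
    obtain ⟨a, e⟩ := surj d
    have ay := mem_centralizer_singleton_iff.1 a.2
    obtain ⟨k, r⟩ := (ker (a * ⟨w, hw⟩ * a⁻¹ * ⟨w, hw⟩⁻¹)).1 (by
      rw [map_mul, map_mul, map_mul, map_inv, map_inv, e, mem_centralizer_singleton_iff.1 d.2]; group)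
    replace r : y ^ k * w = a * w * (a : Γ)⁻¹ := eq_mul_inv_iff_mul_eq.1 r
    rcases zp3 y3 k with t | t | t <;> rw [t] at r
    · rw [one_mul, eq_mul_inv_iff_mul_eq] at r
      exact ⟨⟨⟨a, mem_centralizer_singleton_iff.2 (by rw [← mul_assoc, ay, mul_assoc, ← r, mul_assoc])⟩, my.2 ay⟩, Subtype.ext e⟩
    · exact (nc _ r.symm).elim
    · refine (nc (a : Γ)⁻¹ ?_).elim
      calc _ = (a : Γ)⁻¹ * (y * (y⁻¹ * w)) * a := by group
        _ = (a : Γ)⁻¹ * (y * a) * w := by rw [r]; group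
        _ = _ := by rw [← ay]; group
  have i2 : (centralizer {y'}).index = 2 := by
    have a := (centralizer {y'}).index_mul_card
    have b := τ.ker.card_mul_index
    rw [index_ker, MonoidHom.range_eq_top.2 sτ, card_top, card] at b
    have c : 3 ≤ Nat.card τ.ker := Nat.le_of_dvd Nat.card_pos (by
      have := orderOf_dvd_natCard (⟨⟨y', my.2 rfl⟩, Subtype.ext ((ker _).2 (mem_zpowers y))⟩ : τ.ker)
      rwa [← orderOf_coe, ← orderOf_coe, ← orderOf_coe, oy] at this)
    have d : (centralizer {y'}).index ≠ 1 := fun r => ns (index_eq_one.1 r ▸ mem_top _)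
    have e : (centralizer {y'}).index ≠ 0 := index_ne_zero_of_finite
    have f : 0 < Nat.card (centralizer {y'}) := Nat.card_pos
    by_contra g
    have : 3 ≤ (centralizer {y'}).index := by omega
    have : 0 < n := by rcases n with _ | n; · simp at b; omega
                       omega
    nlinarith
  refine ⟨hy, φ.comp τ, fun c => Subtype.ext (mem_centralizer_singleton_iff.1 c.2), Subtype.ext ?_, Subtype.ext y3, fun ⟨k, r⟩ => ns ?_, i2,
    fun c hc => Subtype.ext ?_, surj'.comp sτ, fun a => (ker' _).trans ⟨fun ⟨j, r⟩ => ?_, fun ⟨i, j, r⟩ => ⟨j, ?_⟩⟩⟩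
  · change (y * w) ^ 3 = 1
    rw [(show Commute y w from wy.symm).mul_pow, y3, w3, mul_one]
  · refine mem_centralizer_singleton_iff.2 ?_
    rw [show y' = _ from r.symm]
    exact (show Commute _ _ from Subtype.ext (mem_centralizer_singleton_iff.1 hs)).zpow_right k
  · have := my.1 ((mul_mem_iff_of_index_two i2).2 (iff_of_false (mt inv_mem_iff.1 ns) hc))
    change s⁻¹ * c * y = y * (s⁻¹ * c) at this
    change c * y * (c : Γ)⁻¹ = y⁻¹ * (y * w)
    calc _ = s * (s⁻¹ * c * y) * (c : Γ)⁻¹ := by group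
      _ = s * y * s⁻¹ := by rw [this]; group
      _ = _ := by rw [inv_mul_cancel_left]; exact ws.symm
  · obtain ⟨i, t⟩ := (ker (ι a * (⟨w, hw⟩ ^ j)⁻¹)).1 (by rw [map_mul, map_inv, map_zpow]; exact mul_inv_eq_one.2 r.symm)
    refine ⟨i - j, j, Subtype.ext ?_⟩
    change y ^ i = a * (w ^ j)⁻¹ at t
    change (a : Γ) = y ^ (i - j) * (y * w) ^ j
    rw [(show Commute y w from wy.symm).mul_zpow, ← mul_assoc, ← zpow_add, sub_add_cancel, t, inv_mul_cancel_right]
  · have yy : y ∈ centralizer {y} := mem_centralizer_singleton_iff.2 rfl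
    have : ι a = ⟨y, yy⟩ ^ i * (⟨y, yy⟩ * ⟨w, hw⟩) ^ j := Subtype.ext (show (a : Γ) = y ^ i * (y * w) ^ j from
      congrArg (fun t : centralizer {y * w} => (t : Γ)) r)
    change σ ⟨w, hw⟩ ^ j = σ (ι a)
    rw [this, map_mul, map_zpow, map_zpow, map_mul, (ker ⟨y, yy⟩).2 (mem_zpowers y), one_zpow, one_mul, one_mul]

end H27.MtL3b
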