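import Cfsg.Agent.H27.O83D

/-! Triality of `PΩ⁺(8,3)`: checks. -/

set_option autoImplicit false
set_option maxRecDepth 100000

namespace H27.O83
set_option Elab.async false
open H13 H15 H14.PK H14.RK

theorem cB_0 : relOk (fB 11 1080 bs TB) (defE ds (ssE lv)) (nat_lit 0) (nat_lit 826) = true := by decide +kernel

theorem cB_1 : relOk (fB 11 1080 bs TB) (defE ds (ssE lv)) (nat_lit 826) (nat_lit 798) = true := by decide +kernel

theorem cB_2 : relOk (fB 11 1080 bs TB) (defE ds (ssE lv)) (nat_lit 1624) (nat_lit 750) = true := by decide +kernel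

theorem cB_3 : relOk (fB 11 1080 bs TB) (defE ds (ssE lv)) (nat_lit 2374) (nat_lit 943) = true := by decide +kernel

theorem cB : Chk (fB 11 1080 bs TB) (defE ds (ssE lv)) :=
  ((((ChkT.zero.add cB_0).add cB_1).add cB_2).add cB_3).chk (by decide +kernel)

theorem dB : MG.dfOk 11 1080 TB [0, 1] dsA = true := by decide +kernel

end H27.O83
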