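import Cfsg.Agent.H27.MG2
import Cfsg.Agent.S0245
import Cfsg.Agent.S0246

/-! `PSp(6,2)` on 63 points: `H27.Sp62.model`. -/

set_option autoImplicit false
set_option maxRecDepth 100000

namespace H27.Sp62
open H13 H14.PK H14.PK.TS H27.PKx H27.MG Cfsg

def J0 : ℕ := nat_lit 0x102060408
def PT : ℕ := nat_lit 0x3ffbdf3beb9e37db5d33cb1c2fbadb2baa9a279a59238a181f79d71b69961759551349140f38d30b289207185103081
def Ps : List (ℕ × ℕ) := [(nat_lit 0xddeed1c70, nat_lit 0x290d1ed9ce12f16c98c1af94d4eac0a429cc8c8b46bc484a80bb85b0788998da03a8190fbd3c59cd7f55e51ddbd5ded), (nat_lit 0x1f0a7eb1f, nat_lit 0x2e14988782c0df204ac6b612b949ed5ccf74346cfe11eb67705d3f15fb267d59ac58bfb5233009c2a653aa04d98b928)]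
def Ls : List ℕ := [nat_lit 0x290d1ed9ce12f16c98c1af94d4eac0a429cc8c8b46bc484a80bb85b0788998da03a8190fbd3c59cd7f55e51ddbd5ded, nat_lit 0x2e14988782c0df204ac6b612b949ed5ccf74346cfe11eb67705d3f15fb267d59ac58bfb5233009c2a653aa04d98b928]
def bs : List ℕ := [nat_lit 0, nat_lit 1, nat_lit 3, nat_lit 7, nat_lit 15, nat_lit 31]

theorem model (F : Type*) [Field F] [Fintype F] (hF : Fintype.card F = 2) :
    ∃ S : TS (PSp 3 F) 6 63, Mdl S Ls bs 1451520 := by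
  let C := FC.prime F (p := 2) (s := 1) (by norm_num) hF (by norm_num)
  have hN : Nat.card (PSp 3 F) = 1451520 := by
    have h1 := Cfsg.Agent.S0245.result hF 3
    have h2 := Cfsg.Agent.S0246.result hF 3 (by norm_num)
    have h3 := (Subgroup.center (Matrix.symplecticGroup (Fin 3) F)).card_eq_card_quotient_mul_card_subgroup
    rw [h1, h2] at h3
    generalize Nat.card (PSp 3 F) = x at h3 ⊢
    simp [Finset.prod_range_succ] at h3
    omega
  obtain ⟨S, h, -⟩ := C.model finSumFinEquiv _ (QuotientGroup.mk' (Subgroup.center (Matrix.symplecticGroup (Fin 3) F))) (pj := true) (PT := PT) (w := 6)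
    (n := 63) (by norm_num) (by norm_num) (by decide +kernel) (Ps := Ps)
    (fun p hp => C.exists_Sp finSumFinEquiv (m1 := 1) (by decide +kernel) (by decide +kernel) (allL_iff.1 (by decide +kernel : allL (fun p => Nat.beq (mm (adP 2) (muP 2) 1 6 (mm (adP 2) (muP 2) 1 6 p.1 J0) (mtr 1 6 p.1)) J0) Ps = true) p hp))
    (allL_iff.1 (by decide +kernel)) hN (pr := [[nat_lit 0, nat_lit 0, nat_lit 1],
   [nat_lit 0, nat_lit 0, nat_lit 0, nat_lit 0, nat_lit 1],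
   [nat_lit 1, nat_lit 1, nat_lit 2, nat_lit 2, nat_lit 1, nat_lit 3, nat_lit 3],
   [nat_lit 1, nat_lit 1, nat_lit 1, nat_lit 0],
   [nat_lit 2, nat_lit 0, nat_lit 0, nat_lit 0, nat_lit 2],
   [nat_lit 1, nat_lit 3, nat_lit 2, nat_lit 3, nat_lit 2, nat_lit 1, nat_lit 3, nat_lit 3, nat_lit 2],
   [nat_lit 4, nat_lit 2, nat_lit 2, nat_lit 4, nat_lit 3, nat_lit 2, nat_lit 3, nat_lit 4, nat_lit 4, nat_lit 4],
   [nat_lit 0, nat_lit 2, nat_lit 0, nat_lit 1],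
   [nat_lit 2, nat_lit 2, nat_lit 2, nat_lit 3, nat_lit 2, nat_lit 2, nat_lit 3, nat_lit 2, nat_lit 2, nat_lit 1],
   [nat_lit 4, nat_lit 3, nat_lit 3, nat_lit 2],
   [nat_lit 4, nat_lit 3, nat_lit 5, nat_lit 4, nat_lit 3, nat_lit 4, nat_lit 5, nat_lit 3, nat_lit 5],
   [nat_lit 4, nat_lit 5, nat_lit 5, nat_lit 5, nat_lit 4, nat_lit 6, nat_lit 6, nat_lit 4, nat_lit 4, nat_lit 4, nat_lit 6],
   [nat_lit 5, nat_lit 7, nat_lit 7, nat_lit 7, nat_lit 5, nat_lit 7, nat_lit 7, nat_lit 5],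
   [nat_lit 4, nat_lit 1, nat_lit 4, nat_lit 0, nat_lit 2, nat_lit 5],
   [nat_lit 4, nat_lit 3, nat_lit 1, nat_lit 3],
   [nat_lit 1, nat_lit 4, nat_lit 1, nat_lit 1, nat_lit 0]]) (lv := [(nat_lit 0, [nat_lit 16, nat_lit 17]), (nat_lit 1, [nat_lit 14, nat_lit 13]), (nat_lit 3, [nat_lit 11, nat_lit 9]), (nat_lit 7, [nat_lit 8, nat_lit 7, nat_lit 6]), (nat_lit 15, [nat_lit 2, nat_lit 5]), (nat_lit 31, [nat_lit 0])]) (Ls := Ls) rfl (by decide +kernel)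
    (Or.inr ⟨(QuotientGroup.ker_mk' _).le, [[nat_lit 0, nat_lit 0, nat_lit 1],
   [nat_lit 0, nat_lit 0, nat_lit 0, nat_lit 0, nat_lit 1],
   [nat_lit 1, nat_lit 1, nat_lit 2, nat_lit 2, nat_lit 1, nat_lit 3, nat_lit 3],
   [nat_lit 1, nat_lit 1, nat_lit 1, nat_lit 0]], nat_lit 0, [nat_lit 2, nat_lit 1, nat_lit 0], by decide +kernel⟩)
  exact ⟨S, h⟩

end H27.Sp62
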