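import Cfsg.Agent.H27.Cov
import Cfsg.Agent.H11.Hat
import Cfsg.Agent.L.RD5
import Cfsg.Agent.S1062

/-!
Steinberg relations over the field with two elements, up to a central involution (namespace `H27.St2`): `cw`, `stRel`, `mult`.
-/

set_option autoImplicit false

namespace H27.St2
open H13 H14.RK H11 H11.StSys Cfsg Cfsg.Lie

/-- the letters of the commutator formula -/
def cw (D : ChevalleyDatum) (r s : ℕ) : List ℕ := ((D.commTerms r s).filter fun c => decide (c.2.1 % 2 = 1)).map Prod.fst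

variable {K : Type*} [Field K] [Fintype K] (hK : Fintype.card K = 2) {E : Type} [Group E]

open Classical in
/-- the root elements -/
noncomputable def yy (D : ChevalleyDatum) (K : Type*) [Field K] (g : ℕ → E) (r : Root D) (t : K) : E := if t = 0 then 1 else g r

include hK

theorem two (t : K) : t = 0 ∨ t = 1 := by
  classical
  by_contra! h
  have := Finset.card_le_univ ({0, 1, t} : Finset K)
  rw [Finset.card_eq_three.2 ⟨0, 1, t, zero_ne_one, h.1.symm, h.2.symm, rfl⟩] at this
  omega

theorem chr : CharP K 2 := (CharP.charP_iff_prime_eq_zero Nat.prime_two).2 (hK ▸ FiniteField.cast_card_eq_zero K)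

theorem stRel {D : ChevalleyDatum} [Good D] {g : ℕ → E} (h1 : ∀ r : Root D, g r * g r = 1)
    (h2 : ∀ r s : Root D, s ≠ r → s ≠ r.rev → g s * g r = g r * g s * evalW g (cw D r s)) : StRel (yy D K g) := by
  classical
  have := chr hK
  have y0 : ∀ r, yy D K g r 0 = 1 := fun r => if_pos rfl
  have y1 : ∀ r, yy D K g r 1 = g r := fun r => if_neg one_ne_zero
  refine ⟨fun r t u => ?_, fun r s a b t u => ?_⟩
  · rcases two hK t with rfl | rfl <;> rcases two hK u with rfl | rfl <;> simp [y0, y1, h1, CharTwo.add_self_eq_zero]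
  have k : ∀ l : List (ℕ × ℤ × ℕ × ℕ), (∀ c ∈ l, c ∈ D.commTerms r s) →
      wordG (yy D K g) (l.map fun c => (c.1, (c.2.1 : K) * (-t) ^ c.2.2.1 * u ^ c.2.2.2)) =
        if t = 1 ∧ u = 1 then evalW g ((l.filter fun c => decide (c.2.1 % 2 = 1)).map Prod.fst) else 1 := fun l hl => by
    induction l with
    | nil => simp
    | cons c l ih =>
      obtain ⟨x, y⟩ := List.forall_mem_cons.1 hl
      obtain ⟨v, e, i1, i2, -⟩ := commTerms_spec x
      rw [List.map_cons, wordG_cons, ih y, e, xNat_val]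
      have i3 : c.2.2.1 ≠ 0 := by omega
      have i4 : c.2.2.2 ≠ 0 := by omega
      rcases two hK t with rfl | rfl
      · simp [i3, y0]
      rcases two hK u with rfl | rfl
      · simp [i4, y0]
      rcases Int.emod_two_eq_zero_or_one c.2.1 with d | d
      · rw [(CharP.intCast_eq_zero_iff K 2 _).2 (Int.dvd_of_emod_eq_zero d)]; simp [d, y0]
      · rw [CharP.intCast_eq_intCast_mod K 2 (a := c.2.1), show c.2.1 % (2 : ℕ) = 1 from d]; simp [d, y1, e, CharTwo.neg_eq]
  rw [ChevalleyDatum.commWord, k _ fun _ h => h]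
  rcases two hK t with rfl | rfl <;> rcases two hK u with rfl | rfl <;> simp [y0, y1]
  exact h2 r s a b

theorem mult [Finite E] {g : ℕ → E} {z : E} (hgen : cl g (List.range 48) = ⊤) (hz : z ∈ Subgroup.center E) (z2 : z ^ 2 = 1)
    (z1 : z ≠ 1) (h1 : ∀ r < 48, g r * g r = 1) (h2 : ∀ r < 48, ∀ s < 48, s ≠ r → r + s ≠ 47 →
      g s * g r = g r * g s * evalW g (cw chevF4 r s) ∨ g s * g r = z * (g r * g s * evalW g (cw chevF4 r s)))
    (h3 : g 24 * g 23 ≠ g 23 * g 24) (h4 : z ∈ commutator E)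
    (ns : Nat.card E = 2 * 3311126603366400 →
      (∀ H : Subgroup E, z ∈ H → (∀ r < 48, 24 ≤ r → g r ∈ H) → 2 ^ 25 ≤ Nat.card H) → H15.NoStem 2 E) :
    HasCyclicSchurMultiplier (chevF4.group K) 2 := by
  have := chr hK
  have : Unique (ZMod 1) := inferInstanceAs (Unique (Fin 1))
  have : Nonempty (Node chevF4) := ⟨⟨0, by decide⟩⟩
  have hZ : Subgroup.zpowers z ≤ Subgroup.center E := Subgroup.zpowers_le.2 hz
  have : (Subgroup.zpowers z).Normal := ⟨fun a ha b => by rw [Subgroup.mem_center_iff.1 (hZ ha) b]; simpa using ha⟩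
  let π := QuotientGroup.mk' (Subgroup.zpowers z)
  have πs : Function.Surjective π := QuotientGroup.mk'_surjective _
  have πk : π.ker = Subgroup.zpowers z := QuotientGroup.ker_mk' _
  have πz : π z = 1 := πk.ge (Subgroup.mem_zpowers z)
  have oz : orderOf z = 2 := orderOf_eq_prime z2 z1
  have y1 : ∀ r, yy chevF4 K (fun i => π (g i)) r 1 = π (g r) := fun r => if_neg one_ne_zero
  have R : StRel (yy chevF4 K fun i => π (g i)) := stRel hK (fun r => by rw [← map_mul, h1 r r.2, map_one]) fun r s a b => by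
    have := (h2 r r.2 s s.2 (fun c => a (Fin.ext c)) fun c => b (Fin.ext (by
      rw [Fin.val_rev]; change s.1 = 48 - (r.1 + 1); omega))).imp (congrArg π) (congrArg π)
    simpa [πz, H15.map_evalW'] using this
  obtain ⟨S, hx, hS⟩ := L.RD.exists_sys (StSys.perfect5 (by simp) (scSys_grp chevF4 K)) R
    ⟨⟨24, by decide⟩, 1, fun c => h3 (Subgroup.mem_center_iff.1 (hZ (πk.le ((y1 _).symm.trans c))) _).symm⟩ (by
      rw [eq_top_iff, ← MonoidHom.range_eq_top.2 πs, MonoidHom.range_eq_map, ← hgen, map_cl]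
      exact cl_le fun i hi => Subgroup.subset_closure ⟨⟨i, List.mem_range.1 hi⟩, 1, (y1 ⟨i, List.mem_range.1 hi⟩).symm⟩)
  have hi : Function.Injective (S.θG hS) := by
    rw [← MonoidHom.ker_eq_bot_iff, θG_ker, ← center_eq_ker hS, center_eq_map S.hMul_of_finite hS,
      Subgroup.card_eq_one.1 (kerF4 Kˣ), Subgroup.map_bot]
  have hN : Nat.card (chevF4.group K) = 3311126603366400 := (Cfsg.Agent.S1062.result hK).trans (by norm_num)
  have hN' := (Nat.card_congr (Equiv.ofBijective _ ⟨hi, θG_surjective hS⟩)).trans hN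
  have hE : Nat.card E = 2 * 3311126603366400 := by
    rw [H16.card_eq_of_surjective π πs, πk, Nat.card_zpowers, oz, hN']
  have hp : commutator E = ⊤ := by
    have := congrArg (Subgroup.comap π) ((H16.map_commutator_eq (ξ := MonoidHom.id _) (η := π) (by simp) πs).trans
      (StSys.perfect5 (by simp) hS))
    rwa [Subgroup.comap_map_eq, πk, sup_eq_left.2 (Subgroup.zpowers_le.2 h4), Subgroup.comap_top] at this
  refine H16.hsm_congr (H16.hsm_congr (B := Multiplicative (ZMod 2 × ZMod 1)) (MG.mult_of_three (q := 1) (r := 1)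
    (σ := (S.θG hS).comp π) ((θG_surjective hS).comp πs) hN
    ⟨⟨by simp [πz], hz⟩, z2⟩ ⟨one_mem _, one_pow _⟩ ⟨one_mem _, one_pow _⟩ (fun i hi j hj l hl c => by
      have := Nat.eq_zero_of_dvd_of_lt (oz ▸ orderOf_dvd_of_pow_eq_one (by simpa using c)) hi
      omega) (by simpa using hE.le) hp fun _ => H15.hasTrivial_of_noStem fun p pp => ?_)
    (AddEquiv.toMultiplicative (AddEquiv.prodCongr (AddEquiv.refl _) AddEquiv.prodUnique)))
    (AddEquiv.toMultiplicative AddEquiv.prodUnique)
  rcases eq_or_ne p 2 with rfl | p2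
  · refine ns hE fun H a b => ?_
    have c : S.U ≤ H.map π := US_le.2 fun r hr t => by
      rw [hx]
      rcases two hK t with rfl | rfl
      · rw [yy, if_pos rfl]; exact one_mem _
      · exact y1 r ▸ ⟨_, b r r.2 (by have := isPos_iff_val.1 hr; change 48 < _ at this; omega), rfl⟩
    have d := Subgroup.card_le_of_le c
    rw [card_U, Nat.card_eq_fintype_card, hK] at d
    rw [H16.card_eq_of_surjective _ (π.subgroupMap_surjective H), pow_succ']
    refine Nat.mul_le_mul ?_ d
    rw [← oz, Subgroup.orderOf_coe (⟨z, a⟩ : H), ← Nat.card_zpowers]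
    exact Subgroup.card_le_of_le (Subgroup.zpowers_le.2 (Subtype.ext πz))
  · refine noStem_up hp πs (πk.le.trans hZ) fun X _ _ ξ hξ he => Subgroup.card_eq_one.1 (Nat.dvd_one.1 ?_)
    have := Fact.mk Nat.prime_two
    refine kerF4 Kˣ ▸ card_ker_dvd hξ hS (PF.lifts (p := 2) ⟨hξ.2.1, fun x a b => ?_⟩ hξ.1 S)
    have := pow_gcd_eq_one.2 ⟨b, he x a⟩
    rwa [((Nat.coprime_primes Nat.prime_two pp).2 p2.symm).gcd_eq_one, pow_one] at this

end H27.St2
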