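import Mathlib
import Cfsg.Agent.H10.Wedge
import Cfsg.Agent.H10.Subf3
import Cfsg.Agent.H10.UField

/-! The symplectic subfield subgroup of `GU₄` as the stabiliser of a point of the exterior square (`core`). -/

set_option autoImplicit false
open Cfsg Matrix Cfsg.Geo H10

namespace H27.Su47

variable {F : Type*} [Field F]

theorem memF [Finite F] (F₀ : Subfield F) {x : F} : x ∈ F₀ ↔ x ^ Nat.card F₀ = x := by
  classical
  have := Fintype.ofFinite F
  have h1 : ∀ y ∈ F₀, y ^ Nat.card F₀ = y := fun y hy => by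
    rw [Nat.card_eq_fintype_card]; exact congrArg Subtype.val (FiniteField.pow_card (⟨y, hy⟩ : F₀))
  refine ⟨h1 x, fun h => ?_⟩
  by_contra hx
  have hc : 1 < Nat.card F₀ := Finite.one_lt_card
  have : (insert x (F₀ : Set F).toFinset).card ≤ Nat.card F₀ := by
    rw [← FiniteField.X_pow_card_sub_X_natDegree_eq F hc]
    refine Polynomial.card_le_degree_of_subset_roots fun y hy => ?_
    rw [Polynomial.mem_roots (FiniteField.X_pow_card_sub_X_ne_zero F hc)]
    rcases Finset.mem_insert.1 hy with rfl | hy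
    · simpa [sub_eq_zero] using h
    · simpa [sub_eq_zero] using h1 y (by simpa using hy)
  rw [Finset.card_insert_of_notMem (by simpa using hx), Set.toFinset_card, ← Nat.card_eq_fintype_card] at this
  exact Nat.not_succ_le_self _ this

theorem sub_iff {K : Subfield F} {P g : GL (Fin 4) F} : g ∈ subfieldSubgroup K P ↔
    ∃ c : F, c ≠ 0 ∧ ∀ i j, c * ((P⁻¹).1 * g.1 * P.1) i j ∈ K := by
  rw [mem_subfieldSubgroup_iff]
  refine exists_congr fun c => and_congr_right fun _ => ⟨fun h i j => ?_, fun h => ?_⟩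
  · have := mem_ratL.1 (h _ (single_mem_ratL j)) i
    rwa [mulVec_smul, mulVec_mulVec, mulVec_mulVec, mulVec_single_one] at this
  · rintro _ ⟨u, hu, rfl⟩
    refine mem_ratL.2 fun i => ?_
    rw [mulVec_smul, mulVec_mulVec, mulVec_mulVec, ← smul_mulVec]
    exact K.sum_mem (t := Finset.univ) (f := fun j => c * ((P⁻¹).1 * g.1 * P.1) i j * u j) fun j _ => K.mul_mem (h i j) (hu j)

/-- the Pfaffian -/
def pf (x : Fin 3 ⊕ Fin 3 → F) : F := x (.inl 0) * x (.inr 0) + x (.inl 1) * x (.inr 1) + x (.inl 2) * x (.inr 2)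

theorem ad (v : Fin 3 ⊕ Fin 3 → F) : alt6 v * alt6 (v ∘ Sum.swap) = -pf v • (1 : Matrix (Fin 4) (Fin 4) F) := by
  rw [pf]; ext i j; fin_cases i <;> fin_cases j <;> simp [alt6, mul_apply, Fin.sum_univ_four] <;> ring

theorem aT (v : Fin 3 ⊕ Fin 3 → F) : (alt6 v)ᵀ = -alt6 v := by ext i j; fin_cases i <;> fin_cases j <;> simp [alt6]

theorem amap (σ : F →+* F) (v : Fin 3 ⊕ Fin 3 → F) : (alt6 v).map σ = alt6 (σ ∘ v) := by
  ext i j; fin_cases i <;> fin_cases j <;> simp [alt6]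

theorem core [Finite F] {q : ℕ} (hF : Nat.card F = q ^ 2) {K : Subfield F} (hK : ∀ c, c ∈ K ↔ c ^ q = c) (P : GL (Fin 4) F)
    (hu : ∀ u : Fin 4 → F, (∀ i, u i ∈ K) → hermForm 4 F q (P.1 *ᵥ u) (P.1 *ᵥ u) = 0) :
    ∃ v : Fin 3 ⊕ Fin 3 → F, (∀ i, v i.swap = v i ^ q) ∧ pf v ≠ 0 ∧ ∀ g : GL (Fin 4) F, g.1ᵀ * g.1.map (· ^ q) = 1 →
      ((∃ c : F, c • v = L2 g.1 *ᵥ v) ↔ g ∈ subfieldSubgroup K P) := by
  let σ := conj hF
  have ss : ∀ X : Matrix (Fin 4) (Fin 4) F, (X.map σ).map σ = X := fun X => by ext i j; exact conj_conj hF _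
  have e : ∀ u : Fin 4 → F, (∀ i, u i ∈ K) → u ⬝ᵥ (P.1ᵀ * P.1.map σ) *ᵥ u = 0 := fun u h => by
    rw [← hu u h, ← mulVec_mulVec, dotProduct_mulVec, vecMul_transpose]
    refine Finset.sum_congr rfl fun i _ => congrArg _ ?_
    change _ = σ _
    rw [RingHom.map_mulVec]
    congr 1
    exact funext fun j => ((hK _).1 (h j)).symm
  have s1 : ∀ i j : Fin 4, (Pi.single i 1 : Fin 4 → F) j ∈ K := fun i j => by by_cases h : j = i <;> simp [h]
  have h2 : ∀ i, (P.1ᵀ * P.1.map σ) i i = 0 := fun i => by simpa using e _ (s1 i)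
  have h1 : ∀ i j, (P.1ᵀ * P.1.map σ) j i = -(P.1ᵀ * P.1.map σ) i j := fun i j => by
    have := e (Pi.single i 1 + Pi.single j 1) fun k => K.add_mem (s1 i k) (s1 j k)
    simp only [mulVec_add, add_dotProduct, dotProduct_add, mulVec_single_one, single_one_dotProduct, col_apply, h2] at this
    linear_combination this
  have PQ : P.1 * (P⁻¹).1 = 1 := P.mul_inv
  have QP : (P⁻¹).1 * P.1 = 1 := P.inv_mul
  have PQ' : P.1.map σ * (P⁻¹).1.map σ = 1 := by rw [← Matrix.map_mul, PQ]; simp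
  have QP' : (P⁻¹).1.map σ * P.1.map σ = 1 := by rw [← Matrix.map_mul, QP]; simp
  have QPt : (P⁻¹).1ᵀ * P.1ᵀ = 1 := by rw [← transpose_mul, PQ, transpose_one]
  obtain ⟨t, ht⟩ : ∃ t, alt6 t = -(P.1 * (P⁻¹).1.map σ) := by
    refine ⟨L2 (P.1 * (P⁻¹).1.map σ * (P⁻¹).1ᵀ) *ᵥ coord6 (P.1ᵀ * P.1.map σ), neg_eq_iff_eq_neg.1 ?_⟩
    rw [← aT, alt6_L2, alt6_coord6 h1 h2, mul_assoc _ (P⁻¹).1ᵀ, ← mul_assoc (P⁻¹).1ᵀ, QPt, one_mul, mul_assoc P.1, QP',
      mul_one, transpose_mul (P.1 * _), transpose_transpose, ← mul_assoc, PQ, one_mul, transpose_transpose]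
  have ht' : alt6 (σ ∘ t) = -(P.1.map σ * (P⁻¹).1) := by
    rw [← amap, ht, Matrix.map_neg _ (map_neg σ), Matrix.map_mul, ss]
  have i1 : alt6 (σ ∘ t) * alt6 t = 1 := by
    rw [ht, ht', neg_mul_neg, mul_assoc, ← mul_assoc (P⁻¹).1, QP, one_mul, PQ']
  have sw : t ∘ Sum.swap = -pf t • (σ ∘ t) := alt6_injective (by
    rw [alt6_smul, ← one_mul (alt6 (t ∘ _)), ← i1, mul_assoc, ad, mul_smul_comm, mul_one])
  have sw' : ∀ i, t i.swap = -pf t * t i ^ q := fun i => congrFun sw i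
  have t0 : t ≠ 0 := by
    rintro rfl
    have := alt6_smul (0 : F) (0 : Fin 3 ⊕ Fin 3 → F)
    rw [zero_smul, zero_smul] at this
    rw [this, mul_zero] at i1
    exact zero_ne_one i1
  have n1 : (-pf t) ^ q * -pf t = 1 := by
    obtain ⟨i, hi⟩ := Function.ne_iff.1 t0
    have a := sw' i.swap
    rw [Sum.swap_swap, sw' i, mul_pow, pow_q_q hF] at a
    exact mul_right_cancel₀ hi (by linear_combination -a)
  have p0 : pf t ≠ 0 := fun h => by simp [h] at n1
  obtain ⟨d, d0, hd⟩ := exists_hilbert90 hF n1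
  refine ⟨d⁻¹ • t, fun i => ?_, ?_, fun g hg => ?_⟩
  · simp only [Pi.smul_apply, smul_eq_mul, sw', ← hd, mul_pow, inv_pow]; field_simp
  · have : pf (d⁻¹ • t) = d⁻¹ ^ 2 * pf t := by simp only [pf, Pi.smul_apply, smul_eq_mul]; ring
    rw [this]; exact mul_ne_zero (pow_ne_zero _ (inv_ne_zero d0)) p0
  change g.1ᵀ * g.1.map σ = 1 at hg
  have hg' : g.1.map σ * g.1ᵀ = 1 := mul_eq_one_comm.1 hg
  have k : ∀ c : F, c • d⁻¹ • t = L2 g.1 *ᵥ d⁻¹ • t ↔
      (P⁻¹).1 * g.1 * P.1 = c • ((P⁻¹).1 * g.1 * P.1).map σ := fun c => by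
    rw [smul_comm, mulVec_smul, (smul_right_injective _ (inv_ne_zero d0)).eq_iff, ← alt6_injective.eq_iff, alt6_smul,
      alt6_L2, ht, Matrix.map_mul, Matrix.map_mul, smul_neg, mul_neg, neg_mul, neg_inj]
    constructor
    · intro h
      have := congrArg (fun X => (P⁻¹).1 * X * (g.1.map σ * P.1.map σ)) h
      simp only [mul_smul_comm, smul_mul_assoc, ← mul_assoc, QP, one_mul] at this
      rw [this, mul_assoc _ g.1ᵀ, hg, mul_one, mul_assoc _ _ (P.1.map σ), QP', mul_one]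
    · intro h
      have := congrArg (fun X => P.1 * X * ((P⁻¹).1.map σ * g.1ᵀ)) h
      simp only [mul_smul_comm, smul_mul_assoc, ← mul_assoc, PQ, one_mul] at this
      rw [← mul_assoc g.1, this, mul_assoc _ (P.1.map σ), PQ', mul_one, mul_assoc _ _ g.1ᵀ, hg', mul_one]
  simp only [k, sub_iff]
  have x0 : (P⁻¹).1 * g.1 * P.1 ≠ 0 := (P⁻¹ * g * P).ne_zero
  generalize (P⁻¹).1 * g.1 * P.1 = X at x0
  obtain ⟨i, j, hx⟩ : ∃ i j, X i j ≠ 0 := by
    by_contra! h
    exact x0 (Matrix.ext h)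
  constructor
  · rintro ⟨c, h⟩
    have h' : ∀ i j, X i j = c * X i j ^ q := fun i j => congrFun (congrFun h i) j
    have a := h' i j
    have n2 : c ^ q * c = 1 := by
      have b := congrArg (· ^ q) a
      simp only [mul_pow, pow_q_q hF] at b
      rw [b] at a
      exact mul_right_cancel₀ hx (by linear_combination -a)
    obtain ⟨e, e0, he⟩ := exists_hilbert90 hF n2
    refine ⟨e⁻¹, inv_ne_zero e0, fun i j => (hK _).2 ?_⟩
    rw [mul_pow, inv_pow]
    nth_rw 2 [h' i j]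
    rw [← he]; field_simp
  · rintro ⟨c, c0, h⟩
    refine ⟨c⁻¹ * c ^ q, Matrix.ext fun i j => ?_⟩
    have := (hK _).1 (h i j)
    change _ = _ * X i j ^ q
    rw [mul_assoc, ← mul_pow, this, inv_mul_cancel_left₀ c0]

end H27.Su47
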