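import Mathlib
import Cfsg.Agent.H27.Su47A
import Cfsg.Agent.H18.MdSU

/-! The symplectic subfield subgroup of `SU₄(q)` is maximal (`H27.su4_7`). -/

set_option autoImplicit false
open Cfsg Matrix Cfsg.Geo H10 H16.Kl

theorem H27.su4_7 {F : Type*} [Field F] [Fintype F] {q : ℕ} (hF : Fintype.card F = q ^ 2) :
    ∀ (F₀ : Subfield F) (P : Matrix.GeneralLinearGroup (Fin 4) F) (ζ : F), Fintype.card F = Nat.card F₀ ^ 2 → ζ ≠ 0 →
      ζ + ζ ^ q = 0 → Cfsg.Geo.IsFormRationalStructure (Cfsg.hermForm 4 F q) F₀ ζ P → (∀ u : Fin 4 → F, (∀ i, u i ∈ F₀) →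
      (Cfsg.hermForm 4 F q) (Matrix.mulVec (P : Matrix (Fin 4) (Fin 4) F) u) (Matrix.mulVec (P : Matrix (Fin 4) (Fin 4) F) u) = 0) →
      Cfsg.Geo.IsMaximalIn (Cfsg.GU 4 F q ⊓ Cfsg.Geo.specialLinear (Fin 4) F)
        (Cfsg.Geo.subfieldSubgroup F₀ P ⊓ (Cfsg.GU 4 F q ⊓ Cfsg.Geo.specialLinear (Fin 4) F)) := by
  intro F₀ P ζ h0 _ _ _ hu
  have hF' : Nat.card F = q ^ 2 := Nat.card_eq_fintype_card.trans hF
  have hq : Nat.card F₀ = q := Nat.pow_left_injective two_ne_zero (h0.symm.trans hF)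
  obtain ⟨v, v1, v2, v3⟩ := H27.Su47.core hF' (K := F₀) (fun c => by rw [H27.Su47.memF, hq]) P hu
  obtain ⟨K, V, φ, _, π, m, -, hK, hV⟩ := H18.mdSU hF'
  have hQ : φ.Q ⟨v, (hV v).2 v1⟩ ≠ 0 := fun h => v2 (by
    have := m.hQ ⟨v, (hV v).2 v1⟩
    rw [h, map_zero, Q6] at this
    exact this.symm)
  refine m.point hQ fun g => ?_
  have hg : g.1.1ᵀ * g.1.1.map (· ^ q) = 1 := by
    ext i j
    have := g.2.1 (Pi.single i 1) (Pi.single j 1)
    have q0 : q ≠ 0 := by have := two_le_q hF'; omega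
    simp only [hermForm, Units.coeHom_apply, mulVec_single_one, col_apply] at this
    rw [mul_apply, one_apply]
    refine this.trans ?_
    by_cases h : i = j <;> simp [h, Pi.single_apply, q0, eq_comm (a := j)]
  have a := m.act g ⟨v, (hV v).2 v1⟩
  rw [← v3 g.1 hg]
  refine ⟨fun ⟨c, hc⟩ => ⟨c, ?_⟩, fun ⟨c, hc⟩ => ⟨⟨c, (hK c).2 ?_⟩, Subtype.ext (hc.trans a.symm)⟩⟩
  · rw [← hc] at a; exact a
  have b := (hV _).1 ((π g).1 ⟨v, (hV v).2 v1⟩).2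
  have a' : ((π g).1 ⟨v, (hV v).2 v1⟩).1 = c • v := a.trans hc.symm
  obtain ⟨i, hi⟩ : ∃ i, v i ≠ 0 := by
    by_contra! h
    exact v2 (by simp [H27.Su47.pf, h])
  have := b i.swap
  rw [a', Sum.swap_swap, Pi.smul_apply, Pi.smul_apply, v1, smul_eq_mul, smul_eq_mul, mul_pow, pow_q_q hF'] at this
  exact (mul_right_cancel₀ hi this).symm
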