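import Cfsg.Agent.H27.SuzD

/-! Commuting involutions of class 2A of the sporadic Suzuki group: `clo2A`. -/

set_option autoImplicit false
set_option maxRecDepth 100000

namespace H27.Suz
open H13 H14.PK H14.PK.TS H27.PKx H27.MG Cfsg
open H13.Suz (gen nW)

/-- the number of fixed points of a function -/
noncomputable def cnF (f : ℕ → ℕ) (n : ℕ) : ℕ :=
  Nat.rec (motive := fun _ => ℕ) (nat_lit 0) (fun i ih => Bool.rec (motive := fun _ => ℕ) ih (Nat.succ ih) (Nat.beq (f i) i)) n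

theorem cnF_eq {w n t : ℕ} {f : ℕ → ℕ} (h : ∀ i < n, f i = get w t i) : cnF f n = cnt w n t := by
  induction n with
  | zero => rfl
  | succ n ih =>
    change Bool.rec (motive := fun _ => ℕ) (cnF f n) (cnF f n + 1) (Nat.beq (f n) n) =
      Bool.rec (motive := fun _ => ℕ) (cnt w n t) (cnt w n t + 1) (Nat.beq (get w t n) n)
    rw [ih fun i hi => h i (by omega), h n (by omega)]

namespace E2
open C2 (T0 c1 c2 c3 c4 c5 c6 c7 c8 c9 c10 c11 c12 c13 c14)

noncomputable def Us : List ℕ := idv 13 1782 :: T0.take 13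

theorem pc : pcOk 13 1782 bs Us 2 13 13 [[],
   [nat_lit 0, nat_lit 1, nat_lit 0x4c7, nat_lit 0x13a12c, nat_lit 0x9d0c, nat_lit 0x14ad8d, nat_lit 0x14ad8d, nat_lit 0x14ad8d, nat_lit 0xa56c, nat_lit 1, nat_lit 0x56d, nat_lit 1, nat_lit 45, nat_lit 1],
   [nat_lit 0, nat_lit 0x8c7, nat_lit 2, nat_lit 0x444296d, nat_lit 77, nat_lit 0x11d2c, nat_lit 76, nat_lit 76, nat_lit 77, nat_lit 2, nat_lit 76, nat_lit 0x98d, nat_lit 2, nat_lit 2],
   [nat_lit 0, nat_lit 0x674258d, nat_lit 0x32214b, nat_lit 3, nat_lit 0x1a54b, nat_lit 3, nat_lit 0x33a14b, nat_lit 0x34a96d, nat_lit 0x34a98d, nat_lit 0x1ad8d, nat_lit 0x1ad8d, nat_lit 109, nat_lit 109, nat_lit 3],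
   [nat_lit 0, nat_lit 0x43a18d, nat_lit 141, nat_lit 0x44a96d, nat_lit 4, nat_lit 0x2254b, nat_lit 4, nat_lit 140, nat_lit 0x118d, nat_lit 0x118d, nat_lit 0x118d, nat_lit 141, nat_lit 4, nat_lit 4],
   [nat_lit 0, nat_lit 0x2a56c, nat_lit 0x14e9, nat_lit 5, nat_lit 0x54a96d, nat_lit 5, nat_lit 0x2a56d, nat_lit 0x158d, nat_lit 171, nat_lit 173, nat_lit 5, nat_lit 5, nat_lit 5, nat_lit 5],
   [nat_lit 0, nat_lit 0x3256c, nat_lit 204, nat_lit 0xc74296d, nat_lit 6, nat_lit 0x192b, nat_lit 6, nat_lit 0x198d, nat_lit 6, nat_lit 6, nat_lit 0x198d, nat_lit 205, nat_lit 6, nat_lit 6],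
   [nat_lit 397, nat_lit 0x74ad8d, nat_lit 236, nat_lit 0x74a96d, nat_lit 236, nat_lit 0x1d8d, nat_lit 0x1d8d, nat_lit 7, nat_lit 236, nat_lit 7, nat_lit 7, nat_lit 7, nat_lit 7, nat_lit 7],
   [nat_lit 0, nat_lit 0x84ad8d, nat_lit 269, nat_lit 0x4254c, nat_lit 0x218d, nat_lit 267, nat_lit 8, nat_lit 268, nat_lit 8, nat_lit 269, nat_lit 8, nat_lit 8, nat_lit 8, nat_lit 8],
   [nat_lit 13, nat_lit 9, nat_lit 9, nat_lit 0x4ad8d, nat_lit 0x258d, nat_lit 301, nat_lit 9, nat_lit 9, nat_lit 301, nat_lit 9, nat_lit 9, nat_lit 9, nat_lit 9, nat_lit 9],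
   [nat_lit 0, nat_lit 0x296d, nat_lit 332, nat_lit 0x52d8d, nat_lit 0x298d, nat_lit 10, nat_lit 0x298d, nat_lit 10, nat_lit 10, nat_lit 10, nat_lit 10, nat_lit 10, nat_lit 10, nat_lit 10],
   [nat_lit 0, nat_lit 11, nat_lit 0x2d8d, nat_lit 365, nat_lit 365, nat_lit 11, nat_lit 365, nat_lit 11, nat_lit 11, nat_lit 11, nat_lit 11, nat_lit 11, nat_lit 11, nat_lit 11],
   [nat_lit 0, nat_lit 397, nat_lit 12, nat_lit 397, nat_lit 12, nat_lit 12, nat_lit 12, nat_lit 12, nat_lit 12, nat_lit 12, nat_lit 12, nat_lit 12, nat_lit 12, nat_lit 12],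
   [nat_lit 0, nat_lit 13, nat_lit 13, nat_lit 13, nat_lit 13, nat_lit 13, nat_lit 13, nat_lit 13, nat_lit 13, nat_lit 13, nat_lit 13, nat_lit 13, nat_lit 13, nat_lit 13]] = true := by decide +kernel

theorem s1 : stOk 13 1782 bs Us 2 13 13 1 (c2.map Prod.fst) c1 = true := by decide +kernel

theorem s2 : stOk 13 1782 bs Us 2 13 13 2 (c3.map Prod.fst) c2 = true := by decide +kernel

theorem s3 : stOk 13 1782 bs Us 2 13 13 3 (c4.map Prod.fst) c3 = true := by decide +kernel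

theorem s4 : stOk 13 1782 bs Us 2 13 13 4 (c5.map Prod.fst) c4 = true := by decide +kernel

theorem s5 : stOk 13 1782 bs Us 2 13 13 5 (c6.map Prod.fst) c5 = true := by decide +kernel

theorem s6 : stOk 13 1782 bs Us 2 13 13 6 (c7.map Prod.fst) c6 = true := by decide +kernel

theorem s7 : stOk 13 1782 bs Us 2 13 13 7 (c8.map Prod.fst) c7 = true := by decide +kernel

theorem s8 : stOk 13 1782 bs Us 2 13 13 8 (c9.map Prod.fst) c8 = true := by decide +kernel

theorem s9 : stOk 13 1782 bs Us 2 13 13 9 (c10.map Prod.fst) c9 = true := by decide +kernel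

theorem s10 : stOk 13 1782 bs Us 2 13 13 10 (c11.map Prod.fst) c10 = true := by decide +kernel

theorem s11 : stOk 13 1782 bs Us 2 13 13 11 (c12.map Prod.fst) c11 = true := by decide +kernel

theorem s12 : stOk 13 1782 bs Us 2 13 13 12 (c13.map Prod.fst) c12 = true := by decide +kernel

theorem s13 : stOk 13 1782 bs Us 2 13 13 13 (c14.map Prod.fst) c13 = true := by decide +kernel

theorem fn : allL (fun y => bor (bor (anyL (fun b => bn (Nat.beq (apC 13 1782 Us y (apC 13 1782 Us y b)) b)) bs) (Nat.beq y 13))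
    (bor (bn (Nat.beq (cnF (apC 13 1782 Us y) 1782) 54))
      (Nat.beq (cnF (fun i => get 13 (nd (idv 13 1782) Ls 0) (apC 13 1782 Us y i)) 1782) 54))) (c14.map Prod.fst) = true := by
  decide +kernel

theorem hU : ∀ t ∈ Us, (S.sub (Subgroup.centralizer {gen 0})).In ⊤ t := fun t ht => by
  have a : S.In ⊤ t := C2.h t ((List.mem_cons.1 ht).elim (fun e => e ▸ List.mem_cons_self) fun e =>
    List.mem_cons_of_mem _ (List.mem_of_mem_take e))
  rw [← gn_eq]
  exact (a.comm (nd_prop In.one model.mem 0) (allL_iff.1 (by decide +kernel : allL (fun t => Nat.beq (tm 13 1782 t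
    (nd (idv 13 1782) Ls 0)) (tm 13 1782 (nd (idv 13 1782) Ls 0) t)) Us = true) t ht)).sub

end E2
open E2

theorem cnt0 : cnt 13 1782 (S.tb (gen 0)) = 54 := by rw [tb_gen]; decide +kernel

theorem cnt4 : cnt 13 1782 (S.tb (gen 4)) = 42 := by rw [tb_gen]; decide +kernel

theorem sq_gen (i : ℕ) : gen i * gen i = 1 := by simpa [ivx] using H13.Suz.hI i

theorem clo2A (w : Spor.Suz) (h1 : w * gen 0 = gen 0 * w) (h2 : IsConj w (gen 0)) (h3 : w ≠ gen 0) :
    IsConj (gen 0 * w) (gen 0) := by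
  have := S.finite
  have hb := model.base.sub (Subgroup.centralizer {gen 0})
  have P := pc_of hb hU pc
  have c := P.cov Nat.prime_two (m := 405) cardA (by norm_num) (le_of_ok (S := S.sub _) C2.low fun t ht => by
      obtain ⟨i, a, rfl⟩ := (by decide +kernel : ∀ t ∈ C2.T0.take 13, ∃ i < 13, nd (idv 13 1782) Us (i + 1) = t) t ht
      exact (nd_prop In.one hU _).of_el (mem_KK (g := gn (S.sub _) Us) (by omega) a))
  have h4 : w * w = 1 := by
    obtain ⟨u, rfl⟩ := isConj_iff.1 h2.symm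
    rw [conj_mul, sq_gen]; simp
  obtain ⟨u, y, a, x, b, c⟩ := (Cov.step hb hU P (by norm_num) s13 (Cov.step hb hU P (by norm_num) s12 (Cov.step hb hU P (by norm_num) s11 (Cov.step hb hU P (by norm_num) s10 (Cov.step hb hU P (by norm_num) s9 (Cov.step hb hU P (by norm_num) s8 (Cov.step hb hU P (by norm_num) s7 (Cov.step hb hU P (by norm_num) s6 (Cov.step hb hU P (by norm_num) s5 (Cov.step hb hU P (by norm_num) s4 (Cov.step hb hU P (by norm_num) s3 (Cov.step hb hU P (by norm_num) s2 (Cov.step hb hU P (by norm_num) s1 c))))))))))))) ⟨w, Subgroup.mem_centralizer_singleton_iff.2 h1⟩ (Subtype.ext (by simpa [sq] using h4))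
  rw [KK_bot, Subgroup.mem_bot] at b
  rw [b, mul_one] at c
  have k := fun i => apC_spec (i := i) hU y
  generalize evC (gn (S.sub (Subgroup.centralizer {gen 0})) Us) y = Y at c k
  have c' : u.1 * w * u.1⁻¹ = Y := congrArg Subtype.val c
  have hu : u.1 * gen 0 * u.1⁻¹ = gen 0 := mul_inv_eq_iff_eq_mul.2 (Subgroup.mem_centralizer_singleton_iff.1 u.2)
  have d : IsConj (gen 0 * w) (gen 0 * Y) := isConj_iff.2 ⟨u, by rw [← c', ← conj_mul, hu]⟩
  have e := allL_iff.1 fn y a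
  simp only [bor_eq_true, anyL_iff, bn_iff, Nat.beq_eq] at e
  rcases e with (⟨i, e, f⟩ | rfl) | e | e
  · refine (f ?_).elim
    have hi := hb.1 i e
    rw [k _ hi, k _ (ap_lt _ _ hi), ← ap_mul _ _ _ hi, show Y * Y = 1 from Subtype.ext (by
      rw [Subgroup.coe_mul, ← c', conj_mul, h4]; simp), ap_one _ hi]
  · refine (h3 ((MulAut.conj u.1).injective ?_)).elim
    refine c'.trans (Eq.trans (S.ext fun i hi => (k i hi).symm.trans ?_) hu.symm)
    rw [ap, tb_gen]
    exact (apC_spec hU 13 hi).trans (by rw [evC_lt (by norm_num), gn_ap hU]; exact congrArg (get 13 · i) (by decide +kernel))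
  · exact (e ((cnF_eq k).trans ((cnt_conj (S := S) ((isConj_iff.2 ⟨_, c'⟩).symm.trans h2)).trans cnt0))).elim
  · have f : cnt 13 1782 (S.tb (gen 0 * Y)) = 54 := (cnF_eq fun i hi => by
      rw [k i hi, ← tb_gen]; exact (S.ap_mul _ _ hi).symm).symm.trans e
    refine (cls2 _ (by rw [mul_assoc, ← mul_assoc w, h1, mul_assoc, h4, mul_one, sq_gen]) fun g => h3 ?_).resolve_right fun g => ?_
    · rw [eq_inv_of_mul_eq_one_right g, inv_eq_of_mul_eq_one_right (sq_gen 0)]
    · exact absurd ((cnt_conj (S := S) (d.symm.trans g)).symm.trans f) (by rw [cnt4]; norm_num)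

end H27.Suz
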