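import Cfsg.Agent.H27.MG2
import Cfsg.Agent.H12.Sz3

/-! `Sz(8)` on 65 points: `H27.Sz8.model`. -/

set_option autoImplicit false
set_option maxRecDepth 100000

namespace H27.Sz8
open H13 H14.PK H14.PK.TS H27.PKx H27.MG Cfsg Matrix

theorem exists_Sz {F : Type*} [Field F] {q s : ℕ} {ad mu : ℕ → ℕ → ℕ} (C : FC F q s ad mu) {m1 J M M' k : ℕ} (h : ad m1 1 = 0)
    (hJ : ∀ i j : Fin 4, get s J (i * 4 + j) = if (i : ℕ) + j = 3 then 1 else 0)
    (h1 : band (Nat.beq (mm ad mu s 4 M M') (mone s 4)) (Nat.beq (mm ad mu s 4 (mtr s 4 M) (mm ad mu s 4 J M)) J) = true)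
    (h2 : ∀ p r : Fin 4, ad (mu (get s M ((Lie.pairOf p).1 * 4 + (Lie.pairOf r).1)) (get s M ((Lie.pairOf p).2 * 4 + (Lie.pairOf r).2)))
      (mu m1 (mu (get s M ((Lie.pairOf p).2 * 4 + (Lie.pairOf r).1)) (get s M ((Lie.pairOf p).1 * 4 + (Lie.pairOf r).2)))) =
      pw mu (get s M (p * 4 + r)) k) :
    ∃ g : Lie.Sz F k, ((Units.coeHom _).comp (Lie.Sz F k).subtype) g = C.mat (Equiv.refl _) M := by
  obtain ⟨a, b⟩ := band_eq_true.1 h1
  obtain ⟨g, hg⟩ := C.exists_GL (Equiv.refl (Fin 4)) a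
  have c : ∀ u v : Fin 4 → F, Lie.altForm4 u v = u ⬝ᵥ (C.mat (Equiv.refl _) J *ᵥ v) := fun u v => by
    simp [Lie.altForm4, FC.mat, hJ, dotProduct, mulVec, Fin.sum_univ_four, C.el0, C.el1]
  refine ⟨⟨g, Subgroup.subset_closure ⟨fun u v => ?_, ?_⟩⟩, hg⟩
  · have := congrArg (C.mat (Equiv.refl (Fin 4))) (Nat.eq_of_beq_eq_true b)
    rw [C.mat_mm, C.mat_mm, C.mat_tr, ← hg] at this
    change Lie.altForm4 (g.1 *ᵥ u) (g.1 *ᵥ v) = _
    rw [c, c, mulVec_mulVec, dotProduct_mulVec, vecMul_mulVec, ← dotProduct_mulVec, this]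
  · ext p r
    have := congrArg C.el (h2 p r)
    rw [C.el_ad, C.el_mu, C.el_mu, C.el_mu, C.el_m1 h, C.el_pw, neg_one_mul, ← sub_eq_add_neg] at this
    rw [hg]
    exact this

def AT : ℕ := nat_lit 0x5397721ab3e4c1de5688fac977053b3e21ade54c1fac688
def MT : ℕ := nat_lit 0x73157889d3f0cfa868356ee0467b98bcbd10fac688000000
theorem fok : fieldOk 8 3 AT MT = true := by decide +kernel

def PT : ℕ := nat_lit 0xf51f49f39f09ee1ec1eb9e91e21da1d91d69d61c99c81c69c51c19bd1bc1bb1ba9af1ac9aa9a89a119b99819319118d98d18718598397e17c97997897717417217196315f95f15295014b14a14794614293e93d93793592f92e9249241209200001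
def J0 : ℕ := nat_lit 0x1008040200
def Ps : List (ℕ × ℕ) := [(nat_lit 0xeac0a858b6d5, nat_lit 0x22c7949554d0fb546ddb0400391031eb102b1684c1766c9e3e70e9cbd7701f8a024972d386c4934e302a8343432f32403b04a984312290e94), (nat_lit 0x94be4cea5dc3, nat_lit 0x38424cd1d76315ad20a57911460497545500838905841e053963c4960d666dbb429003361ce8c82460131f7eb9eb562f19250ac142206f9c87)]
def Ls : List ℕ := [nat_lit 0x22c7949554d0fb546ddb0400391031eb102b1684c1766c9e3e70e9cbd7701f8a024972d386c4934e302a8343432f32403b04a984312290e94, nat_lit 0x38424cd1d76315ad20a57911460497545500838905841e053963c4960d666dbb429003361ce8c82460131f7eb9eb562f19250ac142206f9c87]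
def bs : List ℕ := [nat_lit 0, nat_lit 1, nat_lit 2]

theorem model (F : Type*) [Field F] [Fintype F] (hF : Fintype.card F = 8) :
    ∃ S : TS (Lie.Sz F 4) 7 65, Mdl S Ls bs 29120 := by
  obtain ⟨C⟩ := FC.table F hF fok
  have : H12.Sz.SzF F 1 := ⟨le_rfl, hF⟩
  have hN : Nat.card (Lie.Sz F 4) = 29120 :=
    (Nat.card_congr (H12.Sz.lieEquiv (F := F) (m := 1)).toEquiv).symm.trans (by rw [H12.Sz.card_G, hF]; norm_num)
  obtain ⟨S, h, -⟩ := C.model (Equiv.refl _) _ (MonoidHom.id _) (pj := true) (PT := PT) (w := 7)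
    (n := 65) (by norm_num) (by norm_num) (by decide +kernel) (Ps := Ps)
    (List.forall_mem_cons.2 ⟨exists_Sz C (m1 := 1) (J := J0) (M' := nat_lit 0xac446d792687) (by decide +kernel) (by decide +kernel)
      (by decide +kernel) (by decide +kernel),
    List.forall_mem_cons.2 ⟨exists_Sz C (m1 := 1) (J := J0) (M' := nat_lit 0x763109e8ddfc) (by decide +kernel) (by decide +kernel)
      (by decide +kernel) (by decide +kernel),
    List.forall_mem_nil _⟩⟩)
    (allL_iff.1 (by decide +kernel)) hN (pr := [[nat_lit 0, nat_lit 0, nat_lit 1, nat_lit 1, nat_lit 0, nat_lit 1, nat_lit 1],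
   [nat_lit 1, nat_lit 1, nat_lit 1, nat_lit 1, nat_lit 2, nat_lit 2, nat_lit 2, nat_lit 2, nat_lit 1, nat_lit 1],
   [nat_lit 0, nat_lit 1, nat_lit 1, nat_lit 1],
   [nat_lit 1, nat_lit 0, nat_lit 0, nat_lit 2]]) (lv := [(nat_lit 0, [nat_lit 4, nat_lit 5]), (nat_lit 1, [nat_lit 3, nat_lit 2]), (nat_lit 2, [nat_lit 0])]) (Ls := Ls) rfl (by decide +kernel)
    (Or.inl Function.injective_id)
  exact ⟨S, h⟩

end H27.Sz8
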