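import Mathlib
import Cfsg.Agent.L.Jt0
import Cfsg.Agent.H14.MSimple

/-! Groups of Janko-four type: the generator of `P` (namespace `H27.TP`): `p`. -/

set_option autoImplicit false
open Cfsg BG Subgroup H01.XS Cfsg.Agent.H06.J

namespace H27.TP
universe u

theorem p : L.Jt.PStmt.{u} := by
  classical
  intro G _ _ z Q V _ _ _ Γ _ _ f π ν T d M β q s P ρ ⟨hz, hx, c', hc, ⟨N, l1, l2, l3, cN, ⟨nN, _⟩, PN⟩, cP, fP, nP, pP⟩ ρs ρk
  have : Fact (Nat.Prime 3) := ⟨by norm_num⟩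
  have l := s.md.lx
  have fs : Function.Surjective f := fun k => by
    obtain ⟨x, j, e⟩ := s.sur k
    exact ⟨⟨x, j⟩, (s.pf _).trans e⟩
  have kf : f.ker = Q.subgroupOf C_[z] := Subgroup.ext fun x => by
    rw [MonoidHom.mem_ker, s.pf, s.ker _ x.2, mem_subgroupOf]
  have ck : Nat.card f.ker = 8192 := by rw [kf, Nat.card_congr (subgroupOfEquivOfLe l.le).toEquiv, s.card]
  have eQ : Q = twoCoreOfCentralizer z := Subgroup.eq_of_le_of_card_ge (fun x i =>
    ⟨⟨x, l.le i⟩, le_sSup (s := {N : Subgroup C_[z] | N.Normal ∧ IsPGroup 2 N}) (a := f.ker)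
      ⟨inferInstance, IsPGroup.of_card (n := 13) ck⟩ (kf.ge i), rfl⟩) (by rw [c', s.card]; norm_num)
  rw [← eQ] at l1 cN c'
  have c3 : Nat.card ((N.subgroupOf C_[z]).map f) = 3 := by
    have := card_inf_mul_relIndex f.ker (N.subgroupOf C_[z])
    rw [relIndex_ker, inf_eq_left.2 (kf.le.trans fun x i => l1 i), ck, Nat.card_congr (subgroupOfEquivOfLe l2).toEquiv, cN, s.card] at this
    omega
  have nZ := nN.map f fs
  generalize hZ : (N.subgroupOf C_[z]).map f = Z at c3 nZ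
  have ZM : Z ≤ M := fun x i => by
    have e : x ^ 3 = 1 := congrArg Subtype.val (c3 ▸ pow_card_eq_one' (x := (⟨x, i⟩ : Z)))
    rw [show x = x * x * (x * x) from (mul_one x).symm.trans (by rw [← e, pow_three, mul_assoc])]
    exact mul_mem (mul_self_mem_of_index_two s.gm.Mi x) (mul_self_mem_of_index_two s.gm.Mi x)
  have := H14.simple_M22
  have Zd : Z ≤ zpowers d := by
    rcases ((nZ.subgroupOf M).map ρ ρs).eq_bot_or_eq_top with r | r
    · exact fun x i => (ρk ⟨x, ZM i⟩).1 (r.le ⟨⟨x, ZM i⟩, i, rfl⟩)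
    · have := card_map_dvd (Z.subgroupOf M) ρ
      rw [r, card_top, H14.card_M22, Nat.card_congr (subgroupOfEquivOfLe ZM).toEquiv, c3] at this
      norm_num at this
  have od : orderOf d ≤ 3 := orderOf_le_of_pow_eq_one (by norm_num) ((pow_three d).trans s.gm.d3)
  have eZ : Z = zpowers d := Subgroup.eq_of_le_of_card_ge Zd (by rw [Nat.card_zpowers, c3]; exact od)
  have PQ : ∀ x ∈ P, x ∈ Q → x = 1 := fun x i j => orderOf_eq_one_iff.1 (Nat.eq_one_of_dvd_coprimes (show Nat.Coprime 3 (2 ^ 13) by norm_num)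
    (cP ▸ P.orderOf_dvd_natCard i) (c' ▸ Q.orderOf_dvd_natCard j))
  have Pz := PN.trans l2
  have eP : (P.subgroupOf C_[z]).map f = Z := Subgroup.eq_of_le_of_card_ge (hZ ▸ map_mono (comap_mono PN)) (by
    have := card_inf_mul_relIndex f.ker (P.subgroupOf C_[z])
    rw [relIndex_ker, show f.ker ⊓ P.subgroupOf C_[z] = ⊥ from eq_bot_iff.2 fun x i => Subtype.ext (PQ x i.2 (kf.le i.1)), card_bot,
      Nat.card_congr (subgroupOfEquivOfLe Pz).toEquiv, cP] at this
    omega)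
  obtain ⟨⟨δ, δz⟩, δP, e⟩ := (eP.trans eZ).ge (mem_zpowers d)
  have δP : δ ∈ P := δP
  have δ3 : δ ^ 3 = 1 := congrArg Subtype.val (cP ▸ pow_card_eq_one' (x := (⟨δ, δP⟩ : P)))
  have o : orderOf δ = 3 := orderOf_eq_prime δ3 (by
    rintro rfl
    rw [eZ, ← e, show (⟨1, δz⟩ : C_[z]) = 1 from rfl, map_one, zpowers_one_eq_bot, card_bot] at c3
    omega)
  have zP : zpowers δ = P := Subgroup.eq_of_le_of_card_ge (zpowers_le.2 δP) (by rw [cP, Nat.card_zpowers, o])
  have cz : centralizer (P : Set G) = C_[δ] := by rw [← zP, cent_zpowers]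
  rw [cz] at pP nP
  obtain ⟨m, mi, mn⟩ : ∃ m ∈ C_[z] ⊓ N_(P), m ∉ C_[δ] := by
    by_contra! k
    exact nP (le_antisymm (fun x i => ⟨i.1, k x i⟩) (inf_le_inf_left _ (cz ▸ centralizer_le_normalizer _)))
  refine ⟨δ, δz, (s.pf ⟨δ, δz⟩).symm.trans e, δ3, zP, cz, pP δP, m, mi.1, ?_⟩
  have j := zP.ge (le_norm_iff.1 le_rfl m mi.2 δ δP)
  rw [mem_zpowers_iff_mem_range_orderOf, o] at j
  simp only [Finset.mem_image, Finset.mem_range] at j
  obtain ⟨k, j, r⟩ := j
  obtain _ | _ | _ | k := k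
  · exact absurd (conj_eq_one_iff.1 (r.symm.trans (pow_zero δ))) fun h => by simp [h] at o
  · exact absurd (mem_cent1.2 (mul_inv_eq_iff_eq_mul.1 (by simpa using r.symm))) mn
  · exact r.symm.trans (eq_inv_of_mul_eq_one_left ((pow_succ δ 2).symm.trans δ3))
  · omega

end H27.TP
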