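import Mathlib
import Cfsg.Agent.H05.Tu0

/-! The projective general linear group has no faithful projective representation of degree `(p-1)/2` (namespace `H27.TuE`): `e`. -/

set_option autoImplicit false
open Polynomial Matrix Matrix.GeneralLinearGroup

namespace H27.TuE
universe u

theorem ev {G : Type u} [Group G] {p n : ℕ} (hp : p.Prime) (ρ : Representation ℂ G (Fin n → ℂ)) (i : Function.Injective ρ)
    {y : G} (yp : y ^ p = 1) (y1 : y ≠ 1) (c : ∀ b, 0 < b → b < p → ∃ g, g * y = y ^ b * g) : p - 1 ≤ n := by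
  have : Fact p.Prime := ⟨hp⟩
  have T1 : ρ y ≠ 1 := fun e => y1 (i (e.trans (map_one ρ).symm))
  have : Nontrivial (Module.End ℂ (Fin n → ℂ)) := ⟨_, _, T1⟩
  have s : ¬ IsUnit (aeval (ρ y) (∑ k ∈ Finset.range p, (X : ℂ[X]) ^ k)) := fun u => T1 <| sub_eq_zero.1 <| u.mul_left_cancel <| by
    rw [mul_zero, map_sum]
    simp only [map_pow, aeval_X]
    rw [geom_sum_mul, ← map_pow, yp, map_one, sub_self]
  rw [← spectrum.zero_mem_iff ℂ, spectrum.map_polynomial_aeval_of_nonempty _ _
    (spectrum.nonempty_of_isAlgClosed_of_finiteDimensional ℂ _)] at s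
  obtain ⟨μ, m, e⟩ := s
  simp only [eval_finsetSum, eval_pow, eval_X] at e
  have μ1 : μ ≠ 1 := by
    rintro rfl
    simp [hp.ne_zero] at e
  have μp : μ ^ p = 1 := by rw [← sub_eq_zero, ← geom_sum_mul, e, zero_mul]
  have o : orderOf μ = p := orderOf_eq_prime μp μ1
  obtain ⟨v, hv⟩ := (Module.End.hasEigenvalue_iff_mem_spectrum.2 m).exists_hasEigenvector
  choose! g hg using c
  have l := Module.End.eigenvectors_linearIndependent' (ρ y) (fun k : Fin (p - 1) => μ ^ (k.1 + 1))
    (fun a b h => Fin.ext (by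
      have := pow_injOn_Iio_orderOf (x := μ) (show a.1 + 1 ∈ Set.Iio (orderOf μ) by rw [o]; have := a.2; simp only [Set.mem_Iio]; omega)
        (show b.1 + 1 ∈ Set.Iio (orderOf μ) by rw [o]; have := b.2; simp only [Set.mem_Iio]; omega) h
      omega)) (fun k => ρ (g (k.1 + 1))⁻¹ v) fun k => by
      have h := hg (k.1 + 1) (by omega) (by have := k.2; omega)
      refine ⟨Module.End.mem_eigenspace_iff.2 ?_, fun z => hv.2 ?_⟩
      · rw [← Module.End.mul_apply, ← map_mul, show y * (g (k.1 + 1))⁻¹ = (g (k.1 + 1))⁻¹ * y ^ (k.1 + 1) by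
          rw [eq_inv_mul_iff_mul_eq, ← mul_assoc, h, mul_inv_cancel_right], map_mul, Module.End.mul_apply, map_pow, hv.pow_apply, map_smul]
      · have := congrArg (ρ (g (k.1 + 1))) z
        rwa [← Module.End.mul_apply, ← map_mul, mul_inv_cancel, map_one, map_zero] at this
  simpa using l.fintype_card_le_finrank

theorem du {F : Type} [Field F] (b : F) (h : b ≠ 0) : ∃ d : GL (Fin 2) F, ∀ t, d * upperRightHom t = upperRightHom (b * t) * d :=
  ⟨mkOfDetNeZero !![b, 0; 0, 1] (by simpa using h), fun t => by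
    ext i j
    fin_cases i <;> fin_cases j <;> simp [upperRightHom, Matrix.mul_apply, Fin.sum_univ_two]⟩

theorem e : H05.Tu.EStmt.{u} := by
  intro G _ _ p hp x _ p5 n ρ i hn pZ ⟨e⟩
  let φ : G →* ProjGenLinGroup (Fin 2) (ZMod p) := e.toMonoidHom.comp (QuotientGroup.mk' _)
  have su : Function.Surjective φ := e.surjective.comp (QuotientGroup.mk'_surjective _)
  have ke : ∀ g, φ g = 1 → g ∈ Subgroup.center G := fun g h => (QuotientGroup.eq_one_iff g).1 (e.injective (h.trans (map_one e).symm))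
  have kz : ∀ g ∈ Subgroup.center G, g ^ Nat.card (Subgroup.center G) = 1 := fun g h =>
    congrArg Subtype.val (pow_card_eq_one' (x := (⟨g, h⟩ : Subgroup.center G)))
  obtain ⟨u, hu⟩ := su (ProjGenLinGroup.mk (upperRightHom 1))
  have up : ∀ k : ℕ, φ (u ^ k) = ProjGenLinGroup.mk (upperRightHom (k : ZMod p)) := fun k => by
    rw [map_pow, hu, ← map_pow, ← AddChar.map_nsmul_eq_pow, nsmul_one]
  have nz : ∀ b : ℕ, 0 < b → b < p → (b : ZMod p) ≠ 0 := fun b b0 bp h =>
    absurd (Nat.le_of_dvd b0 ((ZMod.natCast_eq_zero_iff b p).1 h)) (by omega)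
  have := ev hp.out ρ i (y := u ^ Nat.card (Subgroup.center G)) ?_ (fun h => ?_) fun b b0 bp => ?_
  · omega
  · rw [← pow_mul, mul_comm, pow_mul]
    exact kz _ (ke _ (by rw [up, ZMod.natCast_self, AddChar.map_zero_eq_one, map_one]))
  · have k := up (Nat.card (Subgroup.center G))
    rw [h, map_one, eq_comm, ProjGenLinGroup.mk_eq_one] at k
    obtain ⟨d, hd⟩ := du ((2 : ℕ) : ZMod p) (nz 2 (by omega) (by omega))
    have r := injective_upperRightHom (mul_right_cancel ((hd _).symm.trans (Subgroup.mem_center_iff.1 k d)))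
    exact pZ ((ZMod.natCast_eq_zero_iff _ p).1 (by push_cast at r; linear_combination r))
  · obtain ⟨d, hd⟩ := du (b : ZMod p) (nz b b0 bp)
    obtain ⟨g, hg⟩ := su (ProjGenLinGroup.mk d)
    have z := ke ((u ^ b)⁻¹ * (g * u * g⁻¹)) (by
      rw [map_mul, map_inv, up, map_mul, map_mul, map_inv, hg, hu, ← map_mul, hd, map_mul, mul_one]; group)
    refine ⟨g, mul_inv_eq_iff_eq_mul.1 ?_⟩
    rw [← conj_pow, show g * u * g⁻¹ = u ^ b * ((u ^ b)⁻¹ * (g * u * g⁻¹)) by group,
      Commute.mul_pow (Subgroup.mem_center_iff.1 z _), kz _ z, mul_one, ← pow_mul, ← pow_mul, mul_comm]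

end H27.TuE
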