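import Mathlib
import Cfsg.Agent.H04.Aut
import Cfsg.Agent.H03.Frobenius

/-!
Two-generator `p`-groups.
* `H27.dvd_sq_sub_one_of_normalizes` : a `q`-element acting non-trivially on a 2-generator `p`-group has `q ∣ p² - 1`.
* `H27.index_frattini_le_of_cyclic_index` : a cyclic subgroup of index dividing `p` gives `|D : Φ(D)| ≤ p²`;
  `index_frattini_le_of_rank`.
-/

open Subgroup Cfsg

namespace H27

variable {G : Type*} [Group G] {p : ℕ}

theorem dvd_sq_sub_one_of_normalizes [Finite G] [hp : Fact p.Prime] {D : Subgroup G} (hD : IsPGroup p D)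
    (h2 : (frattini D).index ≤ p ^ 2) {q k : ℕ} (hq : q.Prime) (hqp : q ≠ p) {g : G}
    (hg : g ∈ normalizer (D : Set G)) (hk : orderOf g = q ^ k) (hc : g ∉ centralizer (D : Set G)) :
    q ∣ p ^ 2 - 1 := by
  obtain ⟨n, hn⟩ := hD.exists_card_eq
  obtain ⟨r, hr⟩ := hD.index (frattini D)
  have h1 := H04.card_mulAut_dvd hn hr
  have h3 : q ∣ Nat.card (MulAut D) := by
    have h4 := orderOf_map_dvd D.normalizerMonoidHom ⟨g, hg⟩
    rw [orderOf_mk, hk] at h4
    obtain ⟨j, -, hj⟩ := (Nat.dvd_prime_pow hq).1 h4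
    rcases j with _ | j
    · exfalso
      have h5 : (⟨g, hg⟩ : normalizer (D : Set G)) ∈ D.normalizerMonoidHom.ker := orderOf_eq_one_iff.1 hj
      rw [normalizerMonoidHom_ker] at h5
      exact hc h5
    · exact (dvd_pow_self q j.succ_ne_zero).trans (hj ▸ orderOf_dvd_natCard _)
  have hqp' : ¬ q ∣ p := fun h => hqp ((Nat.prime_dvd_prime_iff_eq hq hp.out).1 h)
  have h5 := ((Nat.Prime.dvd_mul hq).1 (h3.trans h1)).resolve_left fun h => hqp' (hq.dvd_of_dvd_pow h)
  rw [hr] at h2
  have h6 : r ≤ 2 := (Nat.pow_le_pow_iff_right hp.out.one_lt).1 h2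
  have e1 : p ^ 2 - 1 = (p + 1) * (p - 1) := by simpa using Nat.sq_sub_sq p 1
  have e2 : p ^ 2 - p = p * (p - 1) := by rw [Nat.mul_sub_one, pow_two]
  interval_cases r
  · simp [hq.ne_one] at h5
  · rw [e1]; exact Dvd.dvd.mul_left (by simpa using h5) _
  · rw [Fin.prod_univ_two] at h5
    rcases (Nat.Prime.dvd_mul hq).1 h5 with h | h
    · simpa using h
    · rw [show p ^ 2 - p ^ ((1 : Fin 2) : ℕ) = p * (p - 1) by simpa using e2] at h
      rw [e1]; exact Dvd.dvd.mul_left (((Nat.Prime.dvd_mul hq).1 h).resolve_left hqp') _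

theorem index_frattini_le_of_cyclic_index [Finite G] [hp : Fact p.Prime] (hG : IsPGroup p G) (C : Subgroup G)
    [IsCyclic C] (h : C.index ∣ p) : (frattini G).index ≤ p ^ 2 := by
  obtain ⟨c, hc⟩ := (Subgroup.isCyclic_iff_exists_zpowers_eq_top C).1 inferInstance
  rcases (Nat.dvd_prime hp.out).1 h with h1 | h1
  · refine H04.index_frattini_le_of_pair hG (a := c) (b := c) ?_
    rw [Set.pair_eq_singleton, ← zpowers_eq_closure, hc, index_eq_one.1 h1]
  · have h2 := H04.isCoatom_of_index_prime (H := C) (h1 ▸ hp.out)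
    obtain ⟨d, hd⟩ : ∃ d, d ∉ C := by
      by_contra h3; push Not at h3; exact h2.1 (eq_top_iff.2 fun x _ => h3 x)
    refine H04.index_frattini_le_of_pair hG (a := c) (b := d) (h2.2 _ (lt_of_le_of_ne ?_ fun e => hd ?_))
    · rw [← hc, zpowers_le]; exact subset_closure (by simp)
    · rw [e]; exact subset_closure (by simp)

theorem index_frattini_le_of_rank [Finite G] [hp : Fact p.Prime] (hG : IsPGroup p G) {k : ℕ}
    (h : Group.rank G ≤ k) : (frattini G).index ≤ p ^ k := by
  obtain ⟨S, h1, h2⟩ := Group.rank_spec G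
  obtain ⟨n, hn⟩ := hG.index (frattini G)
  have := H04.le_card_of_closure_eq_top hG hn S h2
  rw [hn]
  exact Nat.pow_le_pow_right hp.out.pos (by omega)

end H27
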