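import Cfsg.Agent.H27.U6B

/-! The three classes of subgroups `PSU(4,3)` of `PSU(6,2)`: `three`. -/

set_option autoImplicit false
set_option maxRecDepth 100000

namespace H27.U62
open H13 H14.PK H14.PK.TS H27.PKx H27.MG Cfsg

theorem nrm_map {G H : Type*} [Group G] [Group H] [Finite G] {A T : Subgroup G} (l : A ≤ T)
    (h : ∀ y ∈ T, y ∈ A ↔ ∀ u ∈ T, Commute y (u * y * u⁻¹)) {φ ψ : H →* G} (hφ : Function.Injective φ)
    (hψ : Function.Injective ψ) {T' : Subgroup H} (e : T'.map φ = T) (e' : T'.map ψ = T) {m : H}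
    (hm : φ m ∈ Subgroup.normalizer (A : Set G)) : ψ m ∈ Subgroup.normalizer (A : Set G) :=
  Subgroup.mem_normalizer_fintype fun a ha => by
    obtain ⟨y, hy, rfl⟩ := e'.ge (l ha)
    have b := (Subgroup.mem_normalizer_iff.1 hm _).1 ((chr_map h hφ e hy).2 ((chr_map h hψ e' hy).1 ha))
    obtain ⟨y', hy', c⟩ := e.ge (l b)
    obtain rfl : y' = m * y * m⁻¹ := hφ (by simpa using c)
    simpa using (chr_map h hψ e' hy').2 ((chr_map h hφ e hy').1 (c ▸ b))

variable {G : Type*} [Group G] {S : TS G 10 693} (M : Mdl S Ls bs 9196830720)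
include M

theorem i0 : ∀ t ∈ [X, Y, Z], S.In ⊤ t := (List.forall_mem_append.1 (M.wkL k1).1).1
theorem iR : ∀ t ∈ Rs, S.In ⊤ t := (List.forall_mem_append.1 (List.forall_mem_append.1 (M.wkL k1).1).2).1
theorem iC : ∀ t ∈ Cs, S.In ⊤ t := (List.forall_mem_append.1 (List.forall_mem_append.1 (M.wkL k1).1).2).2
theorem iX : ∀ t ∈ [X, X2, Z], S.In (S.cl [X, Y, Z]) t := In.slp k2 fun t ht => (i0 M t ht).cl ht
theorem iT : ∀ t ∈ T0, S.In (S.cl [X, X2, Z]) t := In.slp k3 fun t ht => (iX M t ht).cl ht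
theorem iS : ∀ t ∈ Ts, S.In (S.cl T0) t := List.forall_mem_cons.2 ⟨In.one, fun t ht => (iT M t ht).cl ht⟩
theorem iA : ∀ t ∈ As, S.In ⊤ t := fun t ht => (iT M t (List.mem_of_mem_drop ht)).top
theorem iZ : S.In (S.cl As) Z := (i0 M Z (by simp)).cl (by decide +kernel)
theorem lA : S.cl As ≤ S.cl T0 := cl_le fun t ht => (iA M t ht).cl (List.mem_of_mem_drop ht)
theorem lT : S.cl T0 ≤ S.cl [X, Y, Z] := (cl_le (iT M)).trans (cl_le (iX M))
theorem nM : S.cl [X, Y, Z] ≤ Subgroup.normalizer (S.cl As : Set G) := cl_le (in_nrm (i0 M) (iA M) kN)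

theorem cT : Nat.card (S.cl T0) = 3 ^ 6 :=
  have := S.finite
  le_antisymm (KK_cl (S := S) (Ts := Ts) (k := 6) (j := 1) (Ns := T0) (by decide +kernel) ▸
    (pc_of M.base (fun t ht => (iS M t ht).top) pc).card) (le_of_ok lowT fun t ht => (iT M t ht).cl ht)

theorem abel : ∀ a ∈ S.cl As, ∀ b ∈ S.cl As, Commute a b := fun a ha _ hb =>
  (Subgroup.mem_centralizer_singleton_iff.1 (cl_le' (K := Subgroup.centralizer {a}) (fun u hu =>
    Subgroup.mem_centralizer_singleton_iff.2 (Subgroup.mem_centralizer_singleton_iff.1 (cl_le (fun t ht => (iA M t ht).comm (iA M u hu)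
      (allL_iff.1 (allL_iff.1 (band_eq_true.1 kB).1 t ht) u hu)) ha)).symm) hb)).symm

theorem chr : ∀ y ∈ S.cl T0, y ∈ S.cl As ↔ ∀ u ∈ S.cl T0, Commute y (u * y * u⁻¹) := fun y hy => by
  have := S.finite
  refine ⟨fun a u hu => abel M _ a _ ((Subgroup.mem_normalizer_iff.1 (nM M (lT M hu)) _).1 a), fun h => ?_⟩
  have P := pc_of M.base (fun t ht => (iS M t ht).top) pc
  obtain ⟨i, hi, _, a, rfl⟩ := P.dec le_rfl (by norm_num) ((KK_cl (Ns := T0) (by decide +kernel)).ge hy)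
  obtain ⟨j, hj, a, b, rfl⟩ := P.dec (by norm_num) (by norm_num) a
  rw [KK_cl (Ns := As) (by decide +kernel)] at b
  rcases bor_eq_true.1 (allLt_iff.1 (allLt_iff.1 kY i hi) j hj) with e | e
  · simp only [band_eq_true, Nat.beq_eq] at e
    simpa [e.1, e.2] using b
  rw [force_eq] at e
  obtain ⟨u, hu, e⟩ := anyL_iff.1 e
  have g := nd_prop In.one (iS M)
  rw [← (g 1).tb_el, ← (g 2).tb_el, ← (iA M u hu).tb_el, ← tb_pow, ← tb_pow, ← tb_mul, ← tb_mul, ← tb_inv, ← tb_mul] at e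
  have c := ((iA M u hu).cl hu).el_mem
  exact (ncm_spec M.base e (chr_of (abel M) (nM M (lT M (mul_mem (pow_mem (g 1).el_mem _) (pow_mem (g 2).el_mem _)))) b c
    (by have := h _ (lA M c); rwa [← mul_assoc (gn S Ts 1 ^ i)] at this))).elim

theorem cZ : ∀ t ∈ T0 ++ Rs, S.In (Subgroup.centralizer {S.el Z}) t := fun t ht =>
  (List.forall_mem_append.2 ⟨fun t ht => (iT M t ht).top, iR M⟩ t ht).comm (iZ M) (allL_iff.1 (band_eq_true.1 kB).2 t ht)

theorem zT {y : G} (hy : y ∈ S.cl T0) (h : ∀ u ∈ S.cl T0, Commute y u) (h1 : y ≠ 1) {c : G} (hc : Commute c y) :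
    Commute c (S.el Z) := by
  obtain ⟨Es, -, a, -, e⟩ := grpK_spec (iA M) kA
  rcases bor_eq_true.1 (allL_iff.1 (band_eq_true.1 e).1 _ (a y ((chr M y hy).2 fun u hu =>
    h _ (mul_mem (mul_mem hu hy) (inv_mem hu))))) with e | e
  · simp only [memL_iff, List.mem_cons, List.not_mem_nil, or_false] at e
    rcases e with e | e | e
    · exact (h1 (S.tb_inj (e.trans S.tb_one.symm))).elim
    · rwa [← e, el_tb]
    · rw [show Z = tm 10 693 (tm 10 693 Z Z) (tm 10 693 Z Z) by decide +kernel, ← e, ← tb_mul, el_tb]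
      exact hc.mul_right hc
  · obtain ⟨t, ht, e⟩ := anyL_iff.1 e
    rw [← (iT M t ht).tb_el] at e
    exact (ncm_spec M.base e (h _ ((iT M t ht).cl ht).el_mem)).elim

theorem iQ : ∀ q ∈ Qs, S.In (S.cl Rs) q := fun q hq =>
  let ⟨_, a, _, _, e⟩ := grpK_spec (iR M) kR
  a q (memL_iff.1 (allL_iff.1 (band_eq_true.1 (band_eq_true.1 e).1).2 q hq))

theorem rdec {K : Subgroup G} (hK : S.cl T0 ≤ K) {y : G} (hy : y ∈ K) (h : Commute y (S.el Z)) :
    y ∈ S.cl [X, Y, Z] ∨ ∃ q ∈ Qs, S.In K q := by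
  have := S.finite
  obtain ⟨Es, -, a, c, e⟩ := grpK_spec (iR M) kR
  obtain ⟨-, LV, W, d⟩ := M.wkL k1
  rw [Nat.eq_of_beq_eq_true (band_eq_true.1 (band_eq_true.1 e).1).1] at c
  obtain ⟨r, hr, t, ht, rfl⟩ := mul_dec (cl_le (List.forall_mem_append.1 (cZ M)).2) (cl_le (List.forall_mem_append.1 (cZ M)).1)
    (by rw [c, cT M, trOk_cen W (iZ M).top (iC M) d, card_cl_ss M.base (List.forall_mem_append.2 ⟨iC M, In.slp sC (iC M)⟩) oC]; rfl)
    (by rw [c, cT M]; norm_num) (Subgroup.mem_centralizer_singleton_iff.2 h)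
  rcases bor_eq_true.1 (allL_iff.1 (band_eq_true.1 e).2 _ (a r hr)) with e | e
  · exact .inl (mul_mem (in_tb.1 (In.slp k4 (fun t ht => (i0 M t ht).cl ht) _ (memL_iff.1 e))) (lT M ht))
  · obtain ⟨Ms, b, e⟩ := slpK_spec (K := K) e (List.forall_mem_cons.2 ⟨in_tb.2 ((K.mul_mem_cancel_right (hK ht)).1 hy),
      List.forall_mem_cons.2 ⟨(nd_prop In.one (iS M) 3).mono hK, List.forall_mem_nil _⟩⟩)
    obtain ⟨q, hq, e⟩ := anyL_iff.1 e
    exact .inr ⟨q, hq, b q (memL_iff.1 e)⟩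

theorem nq : ∀ q ∈ Qs, S.el q ∉ Subgroup.normalizer (S.cl As : Set G) := fun q hq h => by
  obtain ⟨a, ha, e⟩ := anyL_iff.1 (allL_iff.1 kq q hq)
  rw [force_eq] at e
  obtain ⟨b, hb, e⟩ := anyL_iff.1 e
  rw [← (iQ M q hq).tb_el, ← (iA M a ha).tb_el, ← (iA M b hb).tb_el, ← tb_mul, ← tb_inv, ← tb_mul] at e
  exact ncm_spec M.base e (abel M _ ((Subgroup.mem_normalizer_iff.1 h _).1 ((iA M a ha).cl ha).el_mem) _ ((iA M b hb).cl hb).el_mem)

theorem nA : Subgroup.normalizer (S.cl As : Set G) ≤ S.cl [X, Y, Z] := fun g hg => by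
  obtain ⟨Es, -, a, -, e⟩ := grpK_spec (iA M) kA
  have o := (iZ M).order Nat.prime_three (by decide +kernel)
  obtain b | ⟨c, b, d⟩ := cjW_spec (iZ M).top (iZ M).top (fun t ht => (i0 M t ht).cl ht) (band_eq_true.1 e).2
    (List.mem_filter.2 ⟨a _ ((Subgroup.mem_normalizer_iff.1 hg _).1 (iZ M).el_mem), by
      rw [← cnt_conj (isConj_iff.2 ⟨g, rfl⟩), (iZ M).tb_el]; decide +kernel⟩)
  · simp only [conj_eq_one_iff] at b
    simp [b] at o
  refine ((S.cl _).mul_mem_cancel_left (inv_mem b)).1 ((rdec M ((lT M).trans (nM M)) (mul_mem (inv_mem (nM M b)) hg) ?_).resolve_right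
    fun ⟨q, hq, h⟩ => nq M q hq h.el_mem)
  rw [or_self] at d
  rw [Commute, SemiconjBy, mul_assoc, ← inv_mul_cancel_right (g * _) g, ← d]; group

theorem iH {q : ℕ} (hq : q ∈ Qs) : ∀ t ∈ [q, X, X2, Z], S.In ⊤ t :=
  List.forall_mem_cons.2 ⟨(iQ M q hq).top, fun t ht => (iX M t ht).top⟩

theorem lH {q : ℕ} (hq : q ∈ Qs) : S.cl [X, X2, Z] ≤ S.cl [q, X, X2, Z] :=
  cl_le fun t ht => (iX M t ht).cl (List.mem_cons_of_mem _ ht)

omit M in
theorem no11 {K : Subgroup G} (c : Nat.card K = 3265920) (h : ∀ t ∈ [X, X2, Z], S.In K t) {L : List ℕ} (h' : ∀ t ∈ L, S.In K t)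
    (hL : L ∈ [[Q4], [Q5], [Q2, Q1], [Q3, Q1], [Q3, Q2]]) : False := by
  obtain ⟨u, e⟩ : ∃ u, ordOk 10 693 (tw 10 693 (L ++ [X, X2, Z]) u) 11 = true := by
    have := allL_iff.1 k11
    revert L
    simp only [List.forall_mem_cons, forall_comm (α := ∀ _, _)] at this ⊢
    exact ⟨fun _ => ⟨_, this.1⟩, fun _ => ⟨_, this.2.1⟩, fun _ => ⟨_, this.2.2.1⟩, fun _ => ⟨_, this.2.2.2.1⟩,
      fun _ => ⟨_, this.2.2.2.2.1⟩, by simp⟩
  have a := In.tw (List.forall_mem_append.2 ⟨h', h⟩) u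
  have := K.orderOf_dvd_natCard a.el_mem
  rw [a.order (by norm_num) e, c] at this
  norm_num at this

theorem key (c : ∀ q ∈ [Q1, Q2, Q3], Nat.card (S.cl [q, X, X2, Z]) = 3265920) {ψ : S.cl [Q1, X, X2, Z] →* G}
    (hψ : Function.Injective ψ) (e : ((S.cl T0).subgroupOf _).map ψ = S.cl T0) :
    ∃ q ∈ [Q1, Q2, Q3], ψ.range = S.cl [q, X, X2, Z] := by
  have := S.finite
  have q1 : Q1 ∈ Qs := by simp [Qs]
  have l := lH M q1
  have e0 := Subgroup.map_subgroupOf_eq_of_le ((cl_le (iT M)).trans l)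
  have lr : S.cl T0 ≤ ψ.range := e.ge.trans (Subgroup.map_le_range _ _)
  have cr : Nat.card ψ.range = 3265920 := (Nat.card_congr (MonoidHom.ofInjective hψ).toEquiv).symm.trans (c _ (by simp))
  have s : ∀ t ∈ [X, X2], S.In ψ.range t := fun t ht => by
    have a := (iX M t (by simp at ht ⊢; tauto)).pow 3
    refine (iX M t (by simp at ht ⊢; tauto)).of_el ?_
    rw [← Nat.eq_of_beq_eq_true (allL_iff.1 kS t ht), a.el_tm a]
    refine (sq_mem (K := ψ.range ⊓ S.cl [X, Y, Z]) inf_le_right ?_ a.el_mem).1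
    rw [card_cl_ss M.base (List.forall_mem_append.2 ⟨i0 M, In.slp sM (i0 M)⟩) oM]
    refine Nat.mul_le_mul_left 2 ((le_of_ok lowM fun t ht => (iX M t ht).cl ht).trans ?_)
    rw [← Nat.card_congr (Subgroup.subgroupOfEquivOfLe l).toEquiv, ← Subgroup.card_map_of_injective hψ]
    refine Subgroup.card_le_of_le (le_inf (Subgroup.map_le_range _ _) ?_)
    rintro _ ⟨m, hm, rfl⟩
    exact nA M (nrm_map (lA M) (chr M) (Subgroup.subtype_injective _) hψ e0 e (nM M (cl_le (iX M) hm)))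
  have s' : ∀ t ∈ [X, X2, Z], S.In ψ.range t := List.forall_mem_append.2 ⟨s, by simpa using (iZ M).mono ((lA M).trans lr)⟩
  have z := lA M (iZ M).el_mem
  have o := (iZ M).order Nat.prime_three (by decide +kernel)
  obtain a | ⟨q, hq, a⟩ := rdec M lr (y := ψ ⟨_, ((iH M q1 Q1 (by simp)).cl (by simp)).el_mem⟩) ⟨_, rfl⟩
    (zT M (y := ψ ⟨_, (cl_le (iT M)).trans l z⟩) (e.le ⟨_, z, rfl⟩) (fun u hu => by
      obtain ⟨v, hv, rfl⟩ := e.ge hu
      exact Commute.map (Subtype.ext (Subgroup.mem_centralizer_singleton_iff.1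
        (cl_le (List.forall_mem_append.1 (cZ M)).1 hv)).symm) ψ)
      (fun h => by simp [show S.el Z = 1 from congrArg Subtype.val ((map_eq_one_iff ψ hψ).1 h)] at o)
      (Commute.map (Subtype.ext (Subgroup.mem_centralizer_singleton_iff.1
        (cl_le (List.forall_mem_append.1 (cZ M)).2 (iQ M _ q1).el_mem))) ψ))
  · exact (nq M _ q1 (nrm_map (lA M) (chr M) hψ (Subgroup.subtype_injective _) e e0 (nM M a))).elim
  rcases List.mem_append.1 (show q ∈ [Q1, Q2, Q3] ++ [Q4, Q5] from hq) with b | b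
  · exact ⟨q, b, (Subgroup.eq_of_le_of_card_ge (cl_le (List.forall_mem_cons.2 ⟨a, s'⟩)) (by rw [cr, c q b])).symm⟩
  · exact (no11 cr s' (L := [q]) (by simpa using a) (by simp at b ⊢; tauto)).elim

theorem ncj {q q' : ℕ} (hq : q ∈ Qs) (hq' : q' ∈ Qs) (c : Nat.card (S.cl [q, X, X2, Z]) = 3265920)
    (c' : Nat.card (S.cl [q', X, X2, Z]) = 3265920) (hL : [q', q] ∈ [[Q4], [Q5], [Q2, Q1], [Q3, Q1], [Q3, Q2]]) :
    ¬ ∃ g : G, (S.cl [q, X, X2, Z]).map (MulAut.conj g).toMonoidHom = S.cl [q', X, X2, Z] := fun ⟨g, e⟩ => by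
  have := S.finite
  have l := fun q hq => (cl_le (iT M)).trans (lH M (q := q) hq)
  obtain ⟨h, hh, d⟩ := syl_conj (a := 4480) Nat.prime_three ((Subgroup.map_mono (l q hq)).trans e.le) (l q' hq')
    ((Subgroup.card_map_of_injective (MulAut.conj g).injective).trans (cT M)) (cT M) c' (by norm_num)
  have n : h * g ∈ S.cl [X, Y, Z] := nA M (Subgroup.mem_normalizer_fintype fun a ha =>
    (chr_map (chr M) (φ := (MulAut.conj (h * g)).toMonoidHom) (MulAut.conj _).injective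
      (by rw [map_mul]; exact (Subgroup.map_map _ _ _).symm.trans d) (lA M ha)).2 ((chr M a (lA M ha)).1 ha))
  have i := fun t ht => (iH M hq t ht).cl ht
  have m : S.cl [X, Y, Z] ≤ Subgroup.normalizer (S.cl [q, X, X2, Z] : Set G) := cl_le (List.forall_mem_cons.2
    ⟨(i X (by simp)).mono Subgroup.le_normalizer, List.forall_mem_cons.2
      ⟨in_nrm (Ls := [Y]) (by simpa using i0 M Y (by simp)) (iH M hq) (allL_iff.1 kH q hq) Y (by simp),
        by simpa using (i Z (by simp)).mono Subgroup.le_normalizer⟩⟩)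
  obtain ⟨u, hu, b⟩ := e.ge (mul_mem (mul_mem (inv_mem hh) ((iH M hq' q' (by simp)).cl (by simp)).el_mem) hh)
  refine no11 c (List.forall_mem_cons.1 i).2 (List.forall_mem_cons.2 ⟨(iQ M q' hq').of_el ?_, by simpa using i q (by simp)⟩) hL
  have := (Subgroup.mem_normalizer_iff.1 (m n) u).1 hu
  rwa [show h * g * u * (h * g)⁻¹ = h * (MulAut.conj g).toMonoidHom u * h⁻¹ by simp [mul_assoc], b,
    show h * (h⁻¹ * S.el q' * h) * h⁻¹ = S.el q' by group] at this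

theorem three {U : Type*} [Group U] {S' : TS U 9 280} (M' : Mdl S' U43.Ls U43.bs 3265920) :
    ∃ K₁ K₂ K₃ : Subgroup G, (∀ K ∈ [K₁, K₂, K₃], Nonempty (K ≃* U)) ∧ (¬ ∃ g : G, K₁.map (MulAut.conj g).toMonoidHom = K₂) ∧
      (¬ ∃ g : G, K₁.map (MulAut.conj g).toMonoidHom = K₃) ∧ (¬ ∃ g : G, K₂.map (MulAut.conj g).toMonoidHom = K₃) ∧
      ∀ K : Subgroup G, Nonempty (K ≃* U) → ∃ g : G, K.map (MulAut.conj g).toMonoidHom ∈ [K₁, K₂, K₃] := by
  have := S.finite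
  have q : ∀ q ∈ [Q1, Q2, Q3], q ∈ Qs := fun _ h => List.mem_append_left [Q4, Q5] h
  obtain ⟨e1⟩ := iso1 M.base M' (iH M (q _ (by simp)))
  obtain ⟨e2⟩ := iso2 M.base M' (iH M (q _ (by simp)))
  obtain ⟨e3⟩ := iso3 M.base M' (iH M (q _ (by simp)))
  have c : ∀ q ∈ [Q1, Q2, Q3], Nat.card (S.cl [q, X, X2, Z]) = 3265920 := by
    simpa using ⟨(Nat.card_congr e1.toEquiv).trans M'.card, (Nat.card_congr e2.toEquiv).trans M'.card,
      (Nat.card_congr e3.toEquiv).trans M'.card⟩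
  have n := fun a b ha hb => ncj M (q a ha) (q b hb) (c a ha) (c b hb)
  refine ⟨_, _, _, by simpa using ⟨⟨e1⟩, ⟨e2⟩, ⟨e3⟩⟩, n Q1 Q2 (by simp) (by simp) (by simp), n Q1 Q3 (by simp) (by simp) (by simp),
    n Q2 Q3 (by simp) (by simp) (by simp), fun K ⟨e⟩ => ?_⟩
  let ψ := K.subtype.comp (e1.trans e.symm).toMonoidHom
  have i : Function.Injective ψ := K.subtype_injective.comp (e1.trans e.symm).injective
  obtain ⟨g, -, d⟩ := syl_conj (a := 12615680) (K := ⊤) (P := ((S.cl T0).subgroupOf _).map ψ) Nat.prime_three le_top le_top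
    (by rw [Subgroup.card_map_of_injective i, Nat.card_congr (Subgroup.subgroupOfEquivOfLe
      ((cl_le (iT M)).trans (lH M (q _ (by simp))))).toEquiv, cT M]) (cT M) (Subgroup.card_top.trans M.card) (by norm_num)
  obtain ⟨a, b, d⟩ := key M c ((MulAut.conj g).injective.comp i : Function.Injective ((MulAut.conj g).toMonoidHom.comp ψ))
    ((Subgroup.map_map _ _ _).symm.trans d)
  rw [MonoidHom.range_comp, MonoidHom.range_comp, MonoidHom.range_eq_top.2 (e1.trans e.symm).surjective, ← MonoidHom.range_eq_map,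
    K.range_subtype] at d
  exact ⟨g, d ▸ List.mem_map_of_mem (f := fun q => S.cl [q, X, X2, Z]) b⟩

end H27.U62
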