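import Mathlib
import Cfsg.Agent.H23.Y0
import Cfsg.Agent.H28.YC
import Cfsg.Agent.H11.JU2

/-! Involutions of `C(z)` over `Y` (namespace `H27.YP`): `pa`. -/

set_option autoImplicit false
open Cfsg BG Subgroup H01.XS Cfsg.Agent.H06.J Cfsg.Agent.H23.K Cfsg.Agent.H23.Y

namespace H27.YP
universe u

theorem pa : PaStmt.{u} := by
  intro G _ _ z Q V _ _ _ Γ _ _ f π ν T d M β q s K Y B A δ x c2 c256 t tz t2 tY tQ tA
  have m := s.md
  have l := m.lx
  have g := s.gm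
  have e : H20.FtW.EA A := x.A2
  have mul : ∀ a ∈ C_[z], ∀ b ∈ C_[z], π (a * b) = π a * π b := fun a i b j =>
    (s.pf (⟨a, i⟩ * ⟨b, j⟩)).symm.trans ((map_mul f _ _).trans (by rw [s.pf, s.pf]))
  have y1 : π t ≠ 1 := mt (s.ker t tz).1 tQ
  have y2 := x.hk.hx.Y2 _ tY
  obtain ⟨c, cA, cδ, cy⟩ := c2.YA _ tY
  have cz := x.Az cA
  have BA : m.pull B ≤ A := c2.e3.ge.trans inf_le_left
  have cQ : c ∉ Q := fun i => y1 (cy ▸ (s.ker c cz).2 i)
  obtain ⟨r, rQ, rfl⟩ : ∃ r ∈ Q, t = r * c :=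
    ⟨t * c, (s.ker _ (mul_mem tz cz)).1 (by rw [mul _ tz _ cz, cy, y2]), by rw [mul_assoc, e c cA, mul_one]⟩
  have ci : c⁻¹ = c := inv_eq_of_mul_eq_one_right (e c cA)
  have fv : T (π c) (ν r) = ν r := by
    rw [s.act c cz r rQ, ci, show c * r * c = r⁻¹ from eq_inv_of_mul_eq_one_right (by simpa only [mul_assoc] using t2), m.inv rQ]
  have cr : c * r = r * c := mul_inv_eq_iff_eq_mul.1 (c2.cz c cz cδ r rQ fv)
  rw [← cy] at tY y1 y2
  have vB : ν r ∉ B := fun i => tA (mul_mem (BA ⟨rQ, i⟩) cA)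
  have ct : ∀ a ∈ A, a ∈ C_[r * c] ↔ a * r = r * a := fun a i => by
    rw [mem_cent1, mul_assoc, ← e.comm i cA, ← mul_assoc, ← mul_assoc, mul_left_inj]
  have iso : ∀ u ∈ B, ∀ v ∈ B, β u v = 0 := fun u i v j => by
    have := g.pol u v
    rw [x.pj.qB _ (add_mem i j), x.pj.qB u i, x.pj.qB v j] at this; simpa using this.symm
  have eW : m.pull B ⊓ C_[r * c] = m.pull (B ⊓ (β (ν r)).ker) := Subgroup.ext fun b =>
    ⟨fun i => ⟨i.1.1, i.1.2, (s.b r rQ b i.1.1).2 ((ct b (BA i.1)).1 i.2).symm⟩,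
      fun i => ⟨⟨i.1, i.2.1⟩, (ct b (BA ⟨i.1, i.2.1⟩)).2 ((s.b r rQ b i.1).1 i.2.2).eq.symm⟩⟩
  have c32 : Nat.card ↥(B ⊓ (β (ν r)).ker) = 32 := by
    have a := AddSubgroup.card_mul_index (((β (ν r)).comp B.subtype).ker)
    obtain ⟨u, uB, n⟩ : ∃ u ∈ B, β (ν r) u ≠ 0 := by
      by_contra! k
      exact vB (g.toQF.perp iso (by rw [x.pj.cB]; omega) k)
    have rg : ((β (ν r)).comp B.subtype).range = ⊤ := eq_top_iff.2 fun y _ => by
      rcases H01.XT.z2 y with rfl | rfl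
      exacts [zero_mem _, ⟨⟨u, uB⟩, H01.XT.z2' _ n⟩]
    rw [AddSubgroup.index_ker, rg, AddSubgroup.card_top, Nat.card_zmod, x.pj.cB,
      show ((β (ν r)).comp B.subtype).ker = (B ⊓ (β (ν r)).ker).addSubgroupOf B from AddSubgroup.ext fun y => ⟨fun i => ⟨y.2, i⟩, fun i => i.2⟩,
      Nat.card_congr (AddSubgroup.addSubgroupOfEquivOfLe inf_le_left).toEquiv] at a
    omega
  have c64 : Nat.card ↥(m.pull B ⊓ C_[r * c]) = 64 := by rw [eW, m.card_pull, c32]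
  have py : ∀ a ∈ A ⊓ C_[r * c], a ∉ m.pull B → π a = π c := fun a i n => by
    by_contra k
    exact vB (x.pi.two _ (x.AY a i.1) _ tY (fun o => n (c2.e3.le ⟨i.1, (s.ker a (x.Az i.1)).1 o⟩)) y1 k _ (by
      rw [s.act a (x.Az i.1) r rQ, (ct a i.1).1 i.2, mul_inv_cancel_right]) fv)
  have cC : c ∈ A ⊓ C_[r * c] := ⟨cA, (ct c cA).2 cr⟩
  let I := (AddMonoidHom.id V + T (π c)).range
  have cI : Nat.card I = 16 := by
    have a := (H11.JU2.C T (π c)).card_mul_index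
    rw [show Nat.card (H11.JU2.C T (π c)) = 256 from (Nat.card_coe_set_eq _).trans
      ((congrArg Set.ncard (Set.ext fun v => H11.JU2.mC)).trans (c256 _ tY y1)), H11.JU2.C, AddSubgroup.index_ker, g.card] at a
    show Nat.card (AddMonoidHom.range _) = 16
    omega
  have pI : ∀ w, T (π c) w = w → ∀ u ∈ I, β w u = 0 := by
    rintro w k _ ⟨u, rfl⟩
    show β w (u + T (π c) u) = 0
    rw [map_add]
    conv_lhs => enter [2]; rw [← k, g.toQF.inv (g.qT _)]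
    generalize β w u = s; revert s; decide
  have IW : I ≤ B ⊓ (β (ν r)).ker := fun u i => ⟨by obtain ⟨u, rfl⟩ := i; exact x.pj.cm _ tY u, pI _ fv u i⟩
  have nq : ∀ k ∈ C_[z], π k = π c → ∀ a ∈ Q, ν (k⁻¹ * a * k * a⁻¹) = ν a + T (π c) (ν a) := fun k i o a j => by
    have i' : k⁻¹ * a * k ∈ Q := by simpa using l.cE (inv_mem i) j
    have : T (π c) (ν (k⁻¹ * a * k)) = ν a := by rw [← o, s.act k i _ i']; congr 1; group
    rw [m.mul _ i' _ (inv_mem j), m.inv j, add_comm, ← this, ← g.mul, y2, g.one]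
  have QN : Q ≤ N_(A) := fun a i => (c2.mN a (l.le i)).2 fun v j => by rwa [(s.ker a (l.le i)).2 i, g.one]
  have pt : π (r * c) = π c := by rw [mul _ (l.le rQ) _ cz, (s.ker r (l.le rQ)).2 rQ, one_mul]
  refine ⟨?_, c64, fun w i => ?_, fun a i n => (s.ker _ (mul_mem tz (x.Az i.1))).1 (by
    rw [mul _ tz _ (x.Az i.1), py a i n, pt, y2]), c, cA, cδ, fun i => cQ i.1, fun c' o => ?_⟩
  · have lW : m.pull B ⊓ C_[r * c] ≤ A ⊓ C_[r * c] := inf_le_inf_right _ BA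
    have a := ((m.pull B ⊓ C_[r * c]).subgroupOf (A ⊓ C_[r * c])).card_mul_index
    rw [Nat.card_congr (subgroupOfEquivOfLe lW).toEquiv, c64, index_eq_two_iff.2 ⟨⟨c, cC⟩, fun b => ?_⟩] at a
    · omega
    · by_cases k : b.1 ∈ m.pull B
      · exact .inr ⟨⟨k, b.2.2⟩, fun j => cQ ((mul_mem_cancel_left k.1).1 j.1.1)⟩
      · exact .inl ⟨⟨c2.e3.le ⟨mul_mem b.2.1 cA, (s.ker _ (mul_mem (x.Az b.2.1) cz)).1 (by
          rw [mul _ (x.Az b.2.1) _ cz, py b b.2 k, y2])⟩, mul_mem b.2.2 cC.2⟩, fun j => k j.1⟩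
  · obtain ⟨_, y3, u, eu⟩ : ∃ y1 ∈ Y, ∃ v, ν w = (ν r + T y1 (ν r)) + (v + T (π c) v) := by
      obtain ⟨y4, i4, n4⟩ := H28.YC.cx g x.hk.hx x.hk.KM x.pj x.pi c256 tY y1 fv vB
      have uB := x.pj.cm _ i4 (ν r)
      have uW : ν r + T y4 (ν r) ∈ B ⊓ (β (ν r)).ker := ⟨uB, by
        have := g.pol (ν r) (T y4 (ν r))
        rw [x.pj.qB _ uB, g.qT] at this
        show β (ν r) (ν r + T y4 (ν r)) = 0
        rw [map_add, g.toQF.alt, zero_add]
        revert this; generalize q (ν r) = a, β (ν r) (T y4 (ν r)) = b; revert a b; decide⟩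
      have ix := (I.addSubgroupOf (B ⊓ (β (ν r)).ker)).card_mul_index
      rw [Nat.card_congr (AddSubgroup.addSubgroupOfEquivOfLe IW).toEquiv, cI, c32] at ix
      by_cases k : ν w ∈ I
      · obtain ⟨v, ev⟩ := k
        exact ⟨1, one_mem _, v, by rw [g.one, H11.JU2.two, zero_add]; exact ev.symm⟩
      · obtain ⟨v, ev⟩ := (AddSubgroup.add_mem_iff_of_index_two (H := I.addSubgroupOf (B ⊓ (β (ν r)).ker)) (by omega)
          (a := ⟨_, uW⟩) (b := ⟨_, (eW.le i).2⟩)).2 (iff_of_false n4 k)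
        have ev : v + T (π c) v = ν r + T y4 (ν r) + ν w := ev
        exact ⟨y4, i4, v, by rw [ev, ← add_assoc, H11.JU2.two, zero_add]⟩
    obtain ⟨a, aA, -, rfl⟩ := c2.YA _ y3
    obtain ⟨b, bQ, rfl⟩ := m.sur u
    have az := x.Az aA
    have r' := l.cE az rQ
    have t1 : a * (r * c) * a⁻¹ = c * (a * r * a⁻¹) := by
      rw [← cr, ← mul_assoc a, e.comm aA cA]; group
    have tz' : c * (a * r * a⁻¹) ∈ C_[z] := mul_mem cz (l.le r')
    have k := nq _ tz' (by rw [mul _ cz _ (l.le r'), (s.ker _ (l.le r')).2 r', mul_one]) b bQ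
    have kQ : (c * (a * r * a⁻¹))⁻¹ * b * (c * (a * r * a⁻¹)) * b⁻¹ ∈ Q := mul_mem (by simpa using l.cE (inv_mem tz') bQ) (inv_mem bQ)
    have w1 := mul_mem (inv_mem rQ) r'
    have kN : b * a ∈ N_(A) := mul_mem (QN bQ) (le_normalizer aA)
    have e1 : b * a * (r * c) * (b * a)⁻¹ =
        r * c * (r⁻¹ * (a * r * a⁻¹) * ((c * (a * r * a⁻¹))⁻¹ * b * (c * (a * r * a⁻¹)) * b⁻¹)) := by
      rw [show b * a * (r * c) * (b * a)⁻¹ = b * (a * (r * c) * a⁻¹) * b⁻¹ by group, t1, ← cr]; group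
    rcases m.eq i.1.1 (mul_mem w1 kQ) (by
      rw [m.mul _ w1 _ kQ, k, m.mul _ (inv_mem rQ) _ r', m.inv rQ, ← s.act a az r rQ, eu]) with o | o
    · exact ⟨_, kN, o ▸ e1⟩
    · obtain ⟨u, uB, n⟩ : ∃ u ∈ B, β (ν r) u ≠ 0 := by
        by_contra! k
        exact vB (g.toQF.perp iso (by rw [x.pj.cB]; omega) k)
      obtain ⟨j, jQ, rfl⟩ := m.sur u
      have e2 : j * (r * c) * j⁻¹ = z * (r * c) := by
        rw [← mul_assoc, (l.cm jQ rQ).resolve_left fun o => n ((s.b r rQ j jQ).2 o.symm), mul_assoc _ j c,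
          e.comm (BA ⟨jQ, uB⟩) cA]; group
      refine ⟨b * a * j, mul_mem kN (QN jQ), ?_⟩
      rw [show b * a * j * (r * c) * (b * a * j)⁻¹ = b * a * (j * (r * c) * j⁻¹) * (b * a)⁻¹ by group, e2, ← mul_assoc (b * a),
        mem_cent1.1 (mul_mem (l.le bQ) az), mul_assoc z, mul_assoc z, e1, o, ← mul_assoc z, ← mem_cent1.1 tz, mul_assoc _ z]
  · have c'z : c' ∈ C_[z] := by rcases o with rfl | rfl; exacts [cz, mul_mem cz (mem_cent1_self z)]
    have pc : π c' = π c := by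
      rcases o with rfl | rfl
      · rfl
      · rw [mul _ cz _ (mem_cent1_self z), (s.ker z (mem_cent1_self z)).2 l.aes.mem, mul_one]
    have c't : c' ∈ C_[r * c] := by rcases o with rfl | rfl; exacts [cC.2, mul_mem cC.2 (mem_cent1_comm.1 tz)]
    rw [← cI]
    refine (Nat.card_coe_set_eq (I : Set V)).trans_le (le_trans (Set.ncard_le_ncard (t := (fun x => ν (c'⁻¹ * x)) '' _) ?_) (Set.ncard_image_le))
    rintro _ ⟨u, rfl⟩
    obtain ⟨a, j, rfl⟩ := m.sur u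
    have k := nq c' c'z pc a j
    have kQ : c'⁻¹ * a * c' * a⁻¹ ∈ Q := mul_mem (by simpa using l.cE (inv_mem c'z) j) (inv_mem j)
    have := mul_mem c't (eW.ge ⟨kQ, k ▸ IW ⟨_, rfl⟩⟩).2
    refine ⟨a * c' * a⁻¹, ⟨(mem_cent1.1 (by simpa [mul_assoc] using this)).symm, a, j, rfl⟩, ?_⟩
    exact (by simpa only [mul_assoc] using k : ν (c'⁻¹ * (a * c' * a⁻¹)) = ν a + T (π c) (ν a))

end H27.YP
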